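import Mathlib
import Cfsg.Prelude.Def_LocalStructure
import Cfsg.Agent.H46.AmalgamP
import Cfsg.Agent.H47.Syl
import Cfsg.Agent.H63.Comm
import Cfsg.Agent.H48.PResidual

/-!
The iterated closures `V_δ^{(n)}` on the coset graph.
-/

set_option autoImplicit false
open Cfsg Cfsg.Agent.H46

namespace Cfsg.Agent.H48

section

variable {X : Type*} [Group X] {p : ℕ} {M₁ M₂ : Subgroup X}

theorem dist_smul_le (hgen : M₁ ⊔ M₂ = ⊤) (g : X) (a b : CosetVertex M₁ M₂) :
    (cosetGraph M₁ M₂).dist (g • a) (g • b) ≤ (cosetGraph M₁ M₂).dist a b := by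
  obtain ⟨w, hw⟩ := ((cosetGraph_connected hgen).preconnected a b).exists_walk_length_eq_dist
  let φ : cosetGraph M₁ M₂ →g cosetGraph M₁ M₂ := ⟨fun v => g • v, fun {a b} h => adj_smul g h⟩
  have := SimpleGraph.dist_le (w.map φ)
  rw [SimpleGraph.Walk.length_map, hw] at this
  exact this

theorem dist_smul (hgen : M₁ ⊔ M₂ = ⊤) (g : X) (a b : CosetVertex M₁ M₂) :
    (cosetGraph M₁ M₂).dist (g • a) (g • b) = (cosetGraph M₁ M₂).dist a b := by
  apply le_antisymm (dist_smul_le hgen g a b)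
  have := dist_smul_le hgen g⁻¹ (g • a) (g • b)
  rwa [inv_smul_smul, inv_smul_smul] at this

variable [Fact p.Prime]

theorem map_vertexZ_le (h : IsCharPAmalgamPair p M₁ M₂) (g : X) (δ : CosetVertex M₁ M₂) :
    (vertexZ p δ).map (MulAut.conj g).toMonoidHom ≤ vertexZ p (g • δ) := by
  have hf := CharPPair.finite h δ
  have h1 := map_sylowCenterClosure_le (p := p) (H := MulAction.stabilizer X δ) (MulAut.conj g)
  refine h1.trans (le_of_eq ?_)
  have h2 : MulAction.stabilizer X (g • δ) =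
      (MulAction.stabilizer X δ).map (MulAut.conj g).toMonoidHom :=
    MulAction.stabilizer_smul_eq_stabilizer_map_conj g δ
  show sylowCenterClosure p _ = sylowCenterClosure p _
  rw [h2]

theorem vertexVIter_le_iff {n : ℕ} {δ : CosetVertex M₁ M₂} {K : Subgroup X} :
    vertexVIter p M₁ M₂ n δ ≤ K ↔
      ∀ μ : CosetVertex M₁ M₂, (cosetGraph M₁ M₂).dist δ μ ≤ n → vertexZ p μ ≤ K := by
  unfold vertexVIter
  rw [iSup_le_iff]
  exact ⟨fun h μ hμ => h ⟨μ, hμ⟩, fun h μ => h μ.1 μ.2⟩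

theorem vertexZ_le_VIter {n : ℕ} {δ μ : CosetVertex M₁ M₂} (h : (cosetGraph M₁ M₂).dist δ μ ≤ n) :
    vertexZ p μ ≤ vertexVIter p M₁ M₂ n δ :=
  vertexVIter_le_iff.1 le_rfl μ h

theorem map_vertexVIter_le (h : IsCharPAmalgamPair p M₁ M₂) (g : X) (n : ℕ) (δ : CosetVertex M₁ M₂) :
    (vertexVIter p M₁ M₂ n δ).map (MulAut.conj g).toMonoidHom ≤ vertexVIter p M₁ M₂ n (g • δ) := by
  rw [Subgroup.map_le_iff_le_comap, vertexVIter_le_iff]
  intro μ hμ
  rw [← Subgroup.map_le_iff_le_comap]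
  refine (map_vertexZ_le h g μ).trans (vertexZ_le_VIter ?_)
  rw [dist_smul h.1.1]
  exact hμ

theorem stabilizer_le_normalizer_VIter (h : IsCharPAmalgamPair p M₁ M₂) (n : ℕ) (δ : CosetVertex M₁ M₂) :
    MulAction.stabilizer X δ ≤ Subgroup.normalizer (vertexVIter p M₁ M₂ n δ : Set X) := by
  have key : ∀ g ∈ MulAction.stabilizer X δ, ∀ x ∈ vertexVIter p M₁ M₂ n δ,
      g * x * g⁻¹ ∈ vertexVIter p M₁ M₂ n δ := by
    intro g hg x hx
    have := map_vertexVIter_le h g n δ ⟨x, hx, rfl⟩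
    rwa [MulAction.mem_stabilizer_iff.1 hg] at this
  intro g hg
  rw [Subgroup.mem_normalizer_iff]
  intro x
  refine ⟨key g hg x, fun hx => ?_⟩
  have := key g⁻¹ (Subgroup.inv_mem _ hg) _ hx
  simpa [mul_assoc] using this

theorem vertexVIter_le_of_dist (h : IsCharPAmalgamPair p M₁ M₂) {n m : ℕ} {δ ε : CosetVertex M₁ M₂}
    (hd : (cosetGraph M₁ M₂).dist δ ε + m ≤ n) :
    vertexVIter p M₁ M₂ m ε ≤ vertexVIter p M₁ M₂ n δ := by
  rw [vertexVIter_le_iff]
  intro μ hμ
  apply vertexZ_le_VIter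
  have := (cosetGraph_connected h.1.1).dist_triangle (u := δ) (v := ε) (w := μ)
  omega

/-- `V_λ^{(n+1)}` is generated by the `V_δ^{(n)}`, `δ` adjacent to `λ`. -/
theorem vertexVIter_succ_le_iff (h : IsCharPAmalgamPair p M₁ M₂) {n : ℕ} {lam : CosetVertex M₁ M₂}
    {K : Subgroup X} :
    vertexVIter p M₁ M₂ (n + 1) lam ≤ K ↔
      ∀ δ : CosetVertex M₁ M₂, (cosetGraph M₁ M₂).Adj lam δ → vertexVIter p M₁ M₂ n δ ≤ K := by
  have hconn := cosetGraph_connected h.1.1
  constructor
  · intro hK δ hδ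
    refine le_trans (vertexVIter_le_of_dist h ?_) hK
    rw [SimpleGraph.dist_eq_one_iff_adj.2 hδ]
    omega
  · intro hK
    rw [vertexVIter_le_iff]
    intro μ hμ
    rcases Nat.eq_zero_or_pos ((cosetGraph M₁ M₂).dist lam μ) with h0 | h0
    · -- `μ = λ`
      have := (CharPPair.dist_eq_zero h).1 h0
      subst this
      have hf := CharPPair.finite h lam
      show sylowCenterClosure p _ ≤ K
      rw [sylowCenterClosure_le_iff]
      intro T hT
      -- `T` fixes some neighbour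
      obtain ⟨ε, hε⟩ := exists_adj lam
      have hfe := CharPPair.finite_edge h lam ε
      obtain ⟨S, hS⟩ := exists_isSylOf p (edgeStabilizer lam ε)
      have hS' := CharPPair.isSylOf h hε hS
      obtain ⟨g, hg, hgS⟩ := hS'.exists_conj hT
      have hgl : g • lam = lam := hg
      have hadj : (cosetGraph M₁ M₂).Adj lam (g • ε) := by
        have := adj_smul g hε
        rwa [hgl] at this
      have hfe' := CharPPair.finite_edge h lam (g • ε)
      have hTe : IsSylOf p T (edgeStabilizer lam (g • ε)) := by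
        have h3 := hS.map (MulAut.conj g)
        rw [← hgS] at h3
        convert h3 using 1
        show MulAction.stabilizer X _ ⊓ MulAction.stabilizer X _ = _
        rw [MulAction.stabilizer_smul_eq_stabilizer_map_conj]
        conv_lhs => rw [← map_conj_eq_of_mem hg]
        exact (Subgroup.map_inf _ _ _ (MulAut.conj g).injective).symm
      have hT' := CharPPair.isSylOf' h hadj hTe
      have hf' := CharPPair.finite h (g • ε)
      refine hT'.omega_le.trans (le_trans ?_ (hK _ hadj))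
      refine vertexZ_le_VIter ?_
      rw [SimpleGraph.dist_self]
      omega
    · obtain ⟨β, hβ, hd⟩ := exists_adj_dist hconn h0
      refine le_trans ?_ (hK β hβ)
      apply vertexZ_le_VIter
      omega

theorem pResidual_sup_sylow {L : Type*} [Group L] [Finite L] (P : Sylow p L) :
    pResidual p L ⊔ (P : Subgroup L) = ⊤ := by
  have h := (H47.sylIn_top P).pRes_sup
  rw [H47.pRes_eq_closure] at h
  have h2 : pResidual p L = Subgroup.closure {g : L | g ∈ (⊤ : Subgroup L) ∧ (orderOf g).Coprime p} := by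
    unfold pResidual
    congr 1
    ext g
    simp
  rw [h2]
  exact h

/-- `L = O^p(L) T`, as subgroups of the ambient group. -/
theorem residual_factor {E T : Subgroup X} [Finite E] (hT : IsSylOf p T E) {e : X} (he : e ∈ E) :
    ∃ a ∈ (pResidual p ↥E).map E.subtype, ∃ t ∈ T, e = a * t := by
  obtain ⟨P, hP⟩ := hT.exists_sylow
  have hn := Cfsg.Agent.H48.pResidual_normal (G := ↥E) p
  have h1 : (⟨e, he⟩ : ↥E) ∈ pResidual p ↥E ⊔ (P : Subgroup ↥E) := by
    rw [pResidual_sup_sylow]; trivial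
  rw [← SetLike.mem_coe, Subgroup.normal_mul] at h1
  obtain ⟨a, ha, t, ht, hat⟩ := h1
  refine ⟨a, ⟨a, ha, rfl⟩, t, ?_, ?_⟩
  · rw [← hP]
    exact ⟨t, ht, rfl⟩
  · exact (congrArg Subtype.val hat).symm

/-- `V_λ^{(n+1)} ≤ V_δ^{(n)} [V_λ^{(n+1)}, O^p(L_λ)]`. -/
theorem vertexVIter_succ_le_sup (h : IsSpeAmalgamPair p M₁ M₂) {n : ℕ} {lam δ : CosetVertex M₁ M₂}
    (hadj : (cosetGraph M₁ M₂).Adj lam δ) :
    vertexVIter p M₁ M₂ (n + 1) lam ≤ vertexVIter p M₁ M₂ n δ ⊔
      ⁅vertexVIter p M₁ M₂ (n + 1) lam, (pResidual p ↥(pElementClosure p (MulAction.stabilizer X lam))).map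
        (pElementClosure p (MulAction.stabilizer X lam)).subtype⁆ := by
  have hf := CharPPair.finite h.1 lam
  have hfe := CharPPair.finite_edge h.1 lam δ
  obtain ⟨S, hS⟩ := exists_isSylOf p (edgeStabilizer lam δ)
  have hSl := CharPPair.isSylOf h.1 hadj hS
  have hSL : S ≤ pElementClosure p (MulAction.stabilizer X lam) := le_pElementClosure hSl.isPGroup hSl.1
  have hLG := pElementClosure_le p (MulAction.stabilizer X lam)
  have hfL : Finite (pElementClosure p (MulAction.stabilizer X lam)) :=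
    Finite.of_injective _ (Subgroup.inclusion_injective hLG)
  have hS1 : IsSylOf p S (pElementClosure p (MulAction.stabilizer X lam)) := hSl.of_le hSL hLG
  have hle : vertexVIter p M₁ M₂ n δ ≤ vertexVIter p M₁ M₂ (n + 1) lam := by
    apply vertexVIter_le_of_dist h.1
    rw [SimpleGraph.dist_eq_one_iff_adj.2 hadj]
    omega
  refine (vertexVIter_succ_le_iff h.1).2 ?_
  intro ε hε
  obtain ⟨e, he, rfl⟩ := SpePair.residual_transitive h hadj hε
  obtain ⟨a, ha, t, ht, rfl⟩ := residual_factor hS1 he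
  have htδ : t • δ = δ := (hS.1 ht).2
  rw [mul_smul, htδ]
  -- `V_{aδ} = V_δ^a`
  have h1 : vertexVIter p M₁ M₂ n (a • δ) ≤
      (vertexVIter p M₁ M₂ n δ).map (MulAut.conj a).toMonoidHom := by
    have h2 := map_vertexVIter_le h.1 a⁻¹ n (a • δ)
    rw [inv_smul_smul] at h2
    intro x hx
    refine ⟨a⁻¹ * x * a, ?_, by simp [mul_assoc]⟩
    have := h2 ⟨x, hx, rfl⟩
    simpa using this
  refine h1.trans ?_
  rintro _ ⟨x, hx, rfl⟩
  have h3 : (MulAut.conj a).toMonoidHom x = (x * (x⁻¹ * a * x⁻¹⁻¹ * a⁻¹)) := by simp [mul_assoc]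
  rw [h3]
  refine Subgroup.mul_mem _ (Subgroup.mem_sup_left hx) (Subgroup.mem_sup_right ?_)
  exact Subgroup.commutator_mem_commutator (inv_mem (hle hx)) ha

theorem vertexZ_ne_bot (h : IsCharPAmalgamPair p M₁ M₂) (lam : CosetVertex M₁ M₂) : vertexZ p lam ≠ ⊥ := by
  have hf := CharPPair.finite h lam
  obtain ⟨T, hT⟩ := exists_isSylOf p (MulAction.stabilizer X lam)
  intro h0
  have h1 := hT.omega_le (p := p)
  have hp : p ∣ Nat.card (MulAction.stabilizer X lam) := by
    obtain ⟨x, hx | hx⟩ := exists_stabilizer_eq lam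
    · rw [hx, card_map_conj]; exact h.2.2.2.1
    · rw [hx, card_map_conj]; exact h.2.2.2.2.1
  have hfT : Finite T := Finite.of_injective _ (Subgroup.inclusion_injective hT.1)
  have hT1 : Nontrivial T := by
    rw [← Finite.one_lt_card_iff_nontrivial, hT.2]
    apply Nat.one_lt_pow _ (Fact.out : p.Prime).one_lt
    have := (Fact.out : p.Prime).factorization_pos_of_dvd Nat.card_pos.ne' hp
    omega
  have hc : Nontrivial (Subgroup.center T) := hT.isPGroup.center_nontrivial
  have hcp : IsPGroup p (Subgroup.center T) := hT.isPGroup.to_subgroup _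
  obtain ⟨⟨⟨z, hzT⟩, hz⟩, hzo⟩ : ∃ z : Subgroup.center T, orderOf z = p := by
    apply exists_prime_orderOf_dvd_card'
    obtain ⟨k, hk⟩ := IsPGroup.iff_card.1 hcp
    rw [hk]
    apply dvd_pow_self
    rintro rfl
    have := Finite.one_lt_card_iff_nontrivial.2 hc
    rw [hk, pow_zero] at this
    omega
  have hzo' : orderOf z = p := by
    rw [Subgroup.orderOf_mk, Subgroup.orderOf_mk] at hzo
    exact hzo
  have hzO : z ∈ omegaOne p (T ⊓ Subgroup.centralizer (T : Set X)) := by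
    apply Subgroup.subset_closure
    refine ⟨⟨hzT, ?_⟩, ?_⟩
    · refine Subgroup.mem_centralizer_iff.2 ?_
      intro y hy
      have := Subgroup.mem_center_iff.1 hz ⟨y, hy⟩
      exact congrArg Subtype.val this
    · show z ^ p = 1
      rw [← hzo']; exact pow_orderOf_eq_one z
  have := h1 hzO
  have h2 : z ∈ vertexZ p lam := this
  rw [h0, Subgroup.mem_bot] at h2
  rw [h2, orderOf_one] at hzo'
  exact (Fact.out : p.Prime).one_lt.ne hzo'

theorem vertexVIter_not_le (h : IsSpeAmalgamPair p M₁ M₂) {n : ℕ} {lam δ : CosetVertex M₁ M₂}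
    (hadj : (cosetGraph M₁ M₂).Adj lam δ) (hQ : vertexVIter p M₁ M₂ (n + 1) lam ≤ vertexQ p lam) :
    ¬ vertexVIter p M₁ M₂ (n + 1) lam ≤ vertexVIter p M₁ M₂ n δ := by
  intro hle
  have hle' : vertexVIter p M₁ M₂ n δ ≤ vertexVIter p M₁ M₂ (n + 1) lam := by
    apply vertexVIter_le_of_dist h.1
    rw [SimpleGraph.dist_eq_one_iff_adj.2 hadj]
    omega
  have heq := le_antisymm hle hle'
  have hf := CharPPair.finite h.1 lam
  have hfe := CharPPair.finite_edge h.1 lam δ
  obtain ⟨S, hS⟩ := exists_isSylOf p (edgeStabilizer lam δ)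
  have hSl := CharPPair.isSylOf h.1 hadj hS
  have hbot := SpePair.eq_bot h hadj hS (vertexVIter p M₁ M₂ (n + 1) lam) (hQ.trans hSl.pCoreOf_le)
    ((pElementClosure_le _ _).trans (stabilizer_le_normalizer_VIter h.1 _ _))
    (by rw [heq]; exact (pElementClosure_le _ _).trans (stabilizer_le_normalizer_VIter h.1 _ _))
  apply vertexZ_ne_bot h.1 lam
  rw [eq_bot_iff, ← hbot]
  apply vertexZ_le_VIter
  rw [SimpleGraph.dist_self]
  omega

end

end Cfsg.Agent.H48
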