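import Mathlib

/-! Cubic graph geometry for the Goldschmidt amalgam bound (S2751): vertices of two types
(`true` = type 1 = active, `false` = type 2 = central centre), neighbourhoods of size 3 with local
action S₃, finite stabilizers, edge stabilizers 2-groups. Arcs are bi-infinite nonbacktracking
walks `a : ℤ → V`. -/

set_option autoImplicit false

open MulAction

namespace Cfsg.Agent.H48.Ge

variable {G V : Type*} [Group G] [MulAction G V]

/-- cubic graph datum -/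
structure Gr (G V : Type*) [Group G] [MulAction G V] where
  adj : V → V → Prop
  ty : V → Bool
  symm : ∀ {u v : V}, adj u v → adj v u
  adj_ty : ∀ {u v : V}, adj u v → ty v = !ty u
  adj_smul : ∀ (g : G) {u v : V}, adj u v → adj (g • u) (g • v)
  ty_smul : ∀ (g : G) (v : V), ty (g • v) = ty v
  trans : ∀ {u v : V}, ty u = ty v → ∃ g : G, g • u = v
  nb : ∀ v : V, ∃ a b c : V, a ≠ b ∧ a ≠ c ∧ b ≠ c ∧ ∀ w, adj v w ↔ (w = a ∨ w = b ∨ w = c)
  loc : ∀ {v a b : V}, adj v a → adj v b → ∃ g : G, g • v = v ∧ g • a = b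
  swap : ∀ {v a b c : V}, adj v a → adj v b → adj v c → a ≠ b → a ≠ c → b ≠ c →
    ∃ g : G, g • v = v ∧ g • a = a ∧ g • b = c
  fin : ∀ v : V, Finite (stabilizer G v)
  two : ∀ {u v : V}, adj u v → IsPGroup 2 ↥(stabilizer G u ⊓ stabilizer G v)
  faith : ∀ {u v : V} (N : Subgroup G), adj u v → N ≤ stabilizer G u ⊓ stabilizer G v →
    (∀ g : G, g • u = u → ∀ n ∈ N, g * n * g⁻¹ ∈ N) →
    (∀ g : G, g • v = v → ∀ n ∈ N, g * n * g⁻¹ ∈ N) → N = ⊥

namespace Gr

variable (Γ : Gr G V)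

/-- kernel of the action of the vertex stabilizer on the neighbours -/
def Q (v : V) : Subgroup G where
  carrier := {g | g • v = v ∧ ∀ w, Γ.adj v w → g • w = w}
  one_mem' := ⟨one_smul _ _, fun _ _ => one_smul _ _⟩
  mul_mem' := by
    rintro a b ⟨ha, ha'⟩ ⟨hb, hb'⟩
    refine ⟨by rw [mul_smul, hb, ha], fun w hw => by rw [mul_smul, hb' w hw, ha' w hw]⟩
  inv_mem' := by
    rintro a ⟨ha, ha'⟩
    refine ⟨by rw [inv_smul_eq_iff, ha], fun w hw => by rw [inv_smul_eq_iff, ha' w hw]⟩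

theorem mem_Q {v : V} {g : G} : g ∈ Γ.Q v ↔ g • v = v ∧ ∀ w, Γ.adj v w → g • w = w := Iff.rfl

theorem Q_fix {v : V} {g : G} (h : g ∈ Γ.Q v) : g • v = v := h.1

theorem Q_fix' {v w : V} {g : G} (h : g ∈ Γ.Q v) (hw : Γ.adj v w) : g • w = w := h.2 w hw

theorem adj_ne {u v : V} (h : Γ.adj u v) : u ≠ v := by
  intro e
  have := Γ.adj_ty h
  rw [e] at this
  cases h' : Γ.ty v <;> simp [h'] at this

theorem adj_smul_iff (g : G) {u v : V} : Γ.adj (g • u) (g • v) ↔ Γ.adj u v := by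
  refine ⟨fun h => ?_, Γ.adj_smul g⟩
  have := Γ.adj_smul g⁻¹ h
  simpa using this

theorem adj_of_fix {v w : V} {g : G} (hg : g • v = v) (h : Γ.adj v w) : Γ.adj v (g • w) := by
  have := Γ.adj_smul g h
  rwa [hg] at this

theorem Q_conj (g : G) {v : V} {x : G} (hx : x ∈ Γ.Q v) : g * x * g⁻¹ ∈ Γ.Q (g • v) := by
  refine ⟨?_, fun w hw => ?_⟩
  · rw [mul_smul, mul_smul, inv_smul_smul, hx.1]
  · have h1 : Γ.adj v (g⁻¹ • w) := by
      rw [← Γ.adj_smul_iff g]; simpa using hw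
    rw [mul_smul, mul_smul, hx.2 _ h1, smul_inv_smul]

theorem Q_conj' {g : G} {v : V} (hg : g • v = v) {x : G} (hx : x ∈ Γ.Q v) :
    g * x * g⁻¹ ∈ Γ.Q v := by
  have := Γ.Q_conj g hx
  rwa [hg] at this

theorem Q_conj_iff (g : G) {v : V} {x : G} : g * x * g⁻¹ ∈ Γ.Q (g • v) ↔ x ∈ Γ.Q v := by
  refine ⟨fun h => ?_, Γ.Q_conj g⟩
  have := Γ.Q_conj g⁻¹ h
  simpa [mul_assoc] using this

/-- the third neighbour -/
theorem third {v a b : V} (ha : Γ.adj v a) (hb : Γ.adj v b) (hab : a ≠ b) :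
    ∃ c, Γ.adj v c ∧ c ≠ a ∧ c ≠ b ∧ ∀ w, Γ.adj v w → w = a ∨ w = b ∨ w = c := by
  obtain ⟨p, q, r, hpq, hpr, hqr, h⟩ := Γ.nb v
  have hp : Γ.adj v p := (h p).2 (Or.inl rfl)
  have hq : Γ.adj v q := (h q).2 (Or.inr (Or.inl rfl))
  have hr : Γ.adj v r := (h r).2 (Or.inr (Or.inr rfl))
  rcases (h a).1 ha with rfl | rfl | rfl <;> rcases (h b).1 hb with rfl | rfl | rfl
  · exact absurd rfl hab
  · exact ⟨r, hr, hpr.symm, hqr.symm, fun w hw => by rcases (h w).1 hw with h | h | h <;> tauto⟩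
  · exact ⟨q, hq, hpq.symm, hqr, fun w hw => by rcases (h w).1 hw with h | h | h <;> tauto⟩
  · exact ⟨r, hr, hqr.symm, hpr.symm, fun w hw => by rcases (h w).1 hw with h | h | h <;> tauto⟩
  · exact absurd rfl hab
  · exact ⟨p, hp, hpq, hpr, fun w hw => by rcases (h w).1 hw with h | h | h <;> tauto⟩
  · exact ⟨q, hq, hqr, hpq.symm, fun w hw => by rcases (h w).1 hw with h | h | h <;> tauto⟩
  · exact ⟨p, hp, hpr, hpq, fun w hw => by rcases (h w).1 hw with h | h | h <;> tauto⟩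
  · exact absurd rfl hab

/-- all neighbours from three distinct ones -/
theorem nb_cases {v a b c : V} (ha : Γ.adj v a) (hb : Γ.adj v b) (hc : Γ.adj v c)
    (hab : a ≠ b) (hac : a ≠ c) (hbc : b ≠ c) {w : V} (hw : Γ.adj v w) :
    w = a ∨ w = b ∨ w = c := by
  obtain ⟨d, hd, hda, hdb, h⟩ := Γ.third ha hb hab
  have hcd : c = d := by
    rcases h c hc with h' | h' | h'
    · exact absurd h'.symm hac
    · exact absurd h'.symm hbc
    · exact h'
  subst hcd
  exact h w hw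

/-- the two other neighbours -/
theorem others {v a : V} (ha : Γ.adj v a) : ∃ b c, Γ.adj v b ∧ Γ.adj v c ∧ a ≠ b ∧ a ≠ c ∧
    b ≠ c := by
  obtain ⟨p, q, r, hpq, hpr, hqr, h⟩ := Γ.nb v
  have hp : Γ.adj v p := (h p).2 (Or.inl rfl)
  have hq : Γ.adj v q := (h q).2 (Or.inr (Or.inl rfl))
  have hr : Γ.adj v r := (h r).2 (Or.inr (Or.inr rfl))
  rcases (h a).1 ha with rfl | rfl | rfl
  · exact ⟨q, r, hq, hr, hpq, hpr, hqr⟩
  · exact ⟨p, r, hp, hr, hpq.symm, hqr, hpr⟩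
  · exact ⟨p, q, hp, hq, hpr.symm, hqr.symm, hpq⟩

/-- an element of `G_v ∩ G_a` fixing another neighbour is in `Q v` -/
theorem mem_Q_of_fix {v a b : V} (ha : Γ.adj v a) (hb : Γ.adj v b)
    (hab : a ≠ b) {g : G} (hg : g • v = v) (hga : g • a = a)
    (hgb : g • b = b) : g ∈ Γ.Q v := by
  obtain ⟨c, hc, hca, hcb, h⟩ := Γ.third ha hb hab
  have hgc : g • c = c := by
    rcases h (g • c) (Γ.adj_of_fix hg hc) with h' | h' | h'
    · exact absurd (smul_left_cancel g (h'.trans hga.symm)) hca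
    · exact absurd (smul_left_cancel g (h'.trans hgb.symm)) hcb
    · exact h'
  refine ⟨hg, fun w hw => ?_⟩
  rcases h w hw with rfl | rfl | rfl
  · exact hga
  · exact hgb
  · exact hgc

/-- an element of `G_v ∩ G_a` outside `Q v` swaps the two other neighbours -/
theorem swap_of_notMem {v a b c : V} (ha : Γ.adj v a) (hb : Γ.adj v b) (hc : Γ.adj v c)
    (hab : a ≠ b) (hac : a ≠ c) (hbc : b ≠ c) {g : G} (hg : g • v = v) (hga : g • a = a)
    (hg' : g ∉ Γ.Q v) : g • b = c ∧ g • c = b := by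
  have h1 : g • b = c := by
    rcases Γ.nb_cases ha hb hc hab hac hbc (Γ.adj_of_fix hg hb) with h' | h' | h'
    · exact absurd (smul_left_cancel g (h'.trans hga.symm)) hab.symm
    · exact absurd (Γ.mem_Q_of_fix ha hb hab hg hga h') hg'
    · exact h'
  refine ⟨h1, ?_⟩
  rcases Γ.nb_cases ha hb hc hab hac hbc (Γ.adj_of_fix hg hc) with h' | h' | h'
  · exact absurd (smul_left_cancel g (h'.trans hga.symm)) hac.symm
  · exact h'
  · exact absurd (smul_left_cancel g (h'.trans h1.symm)) hbc.symm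

/-- two elements fixing `v` and `a`, not in `Q v`: product in `Q v` -/
theorem mul_mem_Q {v a : V} (ha : Γ.adj v a) {g h : G} (hg : g • v = v) (hga : g • a = a)
    (hg' : g ∉ Γ.Q v) (hh : h • v = v) (hha : h • a = a) (hh' : h ∉ Γ.Q v) : g * h ∈ Γ.Q v := by
  obtain ⟨b, c, hb, hc, hab, hac, hbc⟩ := Γ.others ha
  obtain ⟨g1, g2⟩ := Γ.swap_of_notMem ha hb hc hab hac hbc hg hga hg'
  obtain ⟨h1, h2⟩ := Γ.swap_of_notMem ha hb hc hab hac hbc hh hha hh'
  exact Γ.mem_Q_of_fix ha hb hab (by rw [mul_smul, hh, hg]) (by rw [mul_smul, hha, hga])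
    (by rw [mul_smul, h1, g2])

/-- generation of `G_v` by `G_v ∩ G_a` and an element moving `a`, in the form of an induction on a
multiplicatively closed property -/
theorem gen {v a : V} (ha : Γ.adj v a) (p : G → Prop) (hT : ∀ t : G, t • v = v → t • a = a → p t)
    (hm : ∀ x y, p x → p y → p (x * y)) {g : G} (hg : g • v = v) (hga : g • a ≠ a) (hpg : p g) :
    ∀ x : G, x • v = v → p x := by
  intro x hx
  have hb : Γ.adj v (g • a) := Γ.adj_of_fix hg ha
  obtain ⟨c, hc, hca, hcb, h⟩ := Γ.third ha hb (fun e => hga e.symm)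
  have key : ∀ y : G, p y → y • v = v → x • a = y • a → p x := by
    intro y hy hyv hxy
    have : p (y⁻¹ * x) := hT _ (by rw [mul_smul, hx, inv_smul_eq_iff, hyv])
      (by rw [mul_smul, hxy, inv_smul_smul])
    have := hm _ _ hy this
    rwa [mul_inv_cancel_left] at this
  rcases h (x • a) (Γ.adj_of_fix hx ha) with h' | h' | h'
  · exact hT x hx h'
  · exact key g hpg hg h'
  · obtain ⟨t, ht, hta, htb⟩ := Γ.swap ha hb hc (fun e => hga e.symm) hca.symm hcb.symm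
    refine key (t * g) (hm _ _ (hT t ht hta) hpg) (by rw [mul_smul, hg, ht]) ?_
    rw [h', mul_smul, htb]

/-- faithfulness in the form used everywhere -/
theorem faith' {u v : V} (N : Subgroup G) (huv : Γ.adj u v)
    (hN : ∀ n ∈ N, n • u = u ∧ n • v = v)
    (hT : ∀ t : G, t • u = u → t • v = v → ∀ n ∈ N, t * n * t⁻¹ ∈ N)
    (hu : ∃ g : G, g • u = u ∧ g • v ≠ v ∧ ∀ n ∈ N, g * n * g⁻¹ ∈ N)
    (hv : ∃ g : G, g • v = v ∧ g • u ≠ u ∧ ∀ n ∈ N, g * n * g⁻¹ ∈ N) : N = ⊥ := by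
  have hm : ∀ x y : G, (∀ n ∈ N, x * n * x⁻¹ ∈ N) → (∀ n ∈ N, y * n * y⁻¹ ∈ N) →
      ∀ n ∈ N, (x * y) * n * (x * y)⁻¹ ∈ N := by
    intro x y hx hy n hn
    have := hx _ (hy n hn)
    rwa [show x * (y * n * y⁻¹) * x⁻¹ = (x * y) * n * (x * y)⁻¹ by group] at this
  obtain ⟨g, hg, hgv, hgN⟩ := hu
  obtain ⟨k, hk, hku, hkN⟩ := hv
  refine Γ.faith N huv (fun n hn => ?_) ?_ ?_
  · exact ⟨mem_stabilizer_iff.2 (hN n hn).1, mem_stabilizer_iff.2 (hN n hn).2⟩
  · exact Γ.gen huv (fun x => ∀ n ∈ N, x * n * x⁻¹ ∈ N) hT hm hg hgv hgN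
  · exact Γ.gen (Γ.symm huv) (fun x => ∀ n ∈ N, x * n * x⁻¹ ∈ N) (fun t h1 h2 => hT t h2 h1) hm hk
      hku hkN

/-- counting lemma -/
theorem card_le_mul {X Y : Subgroup G} [Finite X] {A : Type*} [Finite A] (f : G → A)
    (hY : Y ≤ X)
    (hf : ∀ x ∈ X, ∀ y ∈ X, f x = f y → x⁻¹ * y ∈ Y) :
    Nat.card X ≤ Nat.card A * Nat.card Y := by
  have h1 : Nat.card X = Nat.card (X ⧸ Y.subgroupOf X) * Nat.card (Y.subgroupOf X) :=
    Subgroup.card_eq_card_quotient_mul_card_subgroup _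
  have h2 : Nat.card (Y.subgroupOf X) = Nat.card Y :=
    Nat.card_congr (Subgroup.subgroupOfEquivOfLe hY).toEquiv
  have h3 : Nat.card (X ⧸ Y.subgroupOf X) ≤ Nat.card A := by
    refine Nat.card_le_card_of_injective (fun q => f (q.out : X)) (fun q q' h => ?_)
    have h4 := hf _ (q.out : X).2 _ (q'.out : X).2 h
    have h5 : ((q.out : X) : X ⧸ Y.subgroupOf X) = ((q'.out : X) : X ⧸ Y.subgroupOf X) := by
      rw [QuotientGroup.eq, Subgroup.mem_subgroupOf]
      simpa using h4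
    simpa using h5
  rw [h1, h2]
  exact Nat.mul_le_mul_right _ h3

/-- index at most two -/
theorem card_le_two_mul {v a : V} (ha : Γ.adj v a) (X : Subgroup G)
    (hX : ∀ x ∈ X, x • v = v ∧ x • a = a) :
    Nat.card X ≤ 2 * Nat.card ↥(X ⊓ Γ.Q v) := by
  classical
  haveI := Γ.fin v
  haveI : Finite X := Finite.of_injective (Subgroup.inclusion (show X ≤ stabilizer G v from
    fun x hx => mem_stabilizer_iff.2 (hX x hx).1)) (Subgroup.inclusion_injective _)
  have := card_le_mul (X := X) (Y := X ⊓ Γ.Q v) (A := Bool) (fun x => decide (x ∈ Γ.Q v))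
    inf_le_left (fun x hx y hy h => ?_)
  · simpa using this
  · refine ⟨X.mul_mem (X.inv_mem hx) hy, ?_⟩
    have h' : (x ∈ Γ.Q v ↔ y ∈ Γ.Q v) := by simpa using h
    by_cases hxQ : x ∈ Γ.Q v
    · exact (Γ.Q v).mul_mem ((Γ.Q v).inv_mem hxQ) (h'.1 hxQ)
    · have hyQ : y ∉ Γ.Q v := fun hy' => hxQ (h'.2 hy')
      have hx1 : x⁻¹ • v = v := by rw [inv_smul_eq_iff, (hX x hx).1]
      have hx2 : x⁻¹ • a = a := by rw [inv_smul_eq_iff, (hX x hx).2]
      exact Γ.mul_mem_Q ha hx1 hx2 (fun h => hxQ (by simpa using (Γ.Q v).inv_mem h)) (hX y hy).1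
        (hX y hy).2 hyQ

/-- if `|G_uv| > 2` then `Q u ≰ Q v` for adjacent vertices -/
theorem exists_Q_notMem {u v : V} (huv : Γ.adj u v)
    (hT : 2 < Nat.card ↥(stabilizer G u ⊓ stabilizer G v)) : ∃ g ∈ Γ.Q u, g ∉ Γ.Q v := by
  by_contra hcon
  push Not at hcon
  have hvu := Γ.symm huv
  -- `Q v ≤ Q u`
  have h2 : ∀ x ∈ Γ.Q v, x ∈ Γ.Q u := by
    intro x hx
    by_contra hxu
    obtain ⟨b, c, hb, hc, hab, hac, hbc⟩ := Γ.others hvu
    obtain ⟨t, ht, htu, htb⟩ := Γ.swap hvu hb hc hab hac hbc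
    have htQ : t ∉ Γ.Q v := fun h => hbc ((Γ.Q_fix' h hb).symm.trans htb)
    by_cases htQ' : t ∈ Γ.Q u
    · exact htQ (hcon t htQ')
    · have := hcon _ (Γ.mul_mem_Q huv htu ht htQ' (Γ.Q_fix' hx hvu) (Γ.Q_fix hx) hxu)
      exact htQ (by simpa using (Γ.Q v).mul_mem this ((Γ.Q v).inv_mem hx))
  have h3 : Γ.Q u = ⊥ := by
    refine Γ.faith (Γ.Q u) huv (fun n hn => ⟨mem_stabilizer_iff.2 (Γ.Q_fix hn),
      mem_stabilizer_iff.2 (Γ.Q_fix' hn huv)⟩) (fun g hg n hn => Γ.Q_conj' hg hn)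
      (fun g hg n hn => h2 _ (Γ.Q_conj' hg (hcon n hn)))
  have h4 := Γ.card_le_two_mul huv (stabilizer G u ⊓ stabilizer G v)
    (fun x hx => ⟨mem_stabilizer_iff.1 hx.1, mem_stabilizer_iff.1 hx.2⟩)
  rw [h3, inf_bot_eq, Subgroup.card_bot] at h4
  omega

/-- there is a neighbour different from a given vertex -/
theorem exists_nb_ne (u v : V) : ∃ w, Γ.adj v w ∧ w ≠ u := by
  obtain ⟨p, q, r, hpq, hpr, hqr, h⟩ := Γ.nb v
  by_cases hp : p = u
  · exact ⟨q, (h q).2 (Or.inr (Or.inl rfl)), fun e => hpq (hp.trans e.symm)⟩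
  · exact ⟨p, (h p).2 (Or.inl rfl), hp⟩

/-- rays -/
theorem exists_ray {u v : V} (huv : Γ.adj u v) : ∃ r : ℕ → V, r 0 = u ∧ r 1 = v ∧
    (∀ k, Γ.adj (r k) (r (k + 1))) ∧ ∀ k, r k ≠ r (k + 2) := by
  classical
  choose nx hnx using Γ.exists_nb_ne
  let s : ℕ → V × V := fun k => Nat.rec (u, v) (fun _ p => (p.2, nx p.1 p.2)) k
  have hs : ∀ k, s (k + 1) = ((s k).2, nx (s k).1 (s k).2) := fun k => rfl
  have hadj : ∀ k, Γ.adj (s k).1 (s k).2 := by
    intro k
    induction k with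
    | zero => exact huv
    | succ k ih => rw [hs]; exact (hnx _ _).1
  refine ⟨fun k => (s k).1, rfl, rfl, fun k => ?_, fun k => ?_⟩
  · show Γ.adj (s k).1 (s (k + 1)).1
    rw [hs]; exact hadj k
  · show (s k).1 ≠ (s (k + 2)).1
    rw [hs (k + 1), hs k]
    exact (hnx _ _).2.symm

/-- a bi-infinite nonbacktracking walk -/
structure Arc (a : ℤ → V) : Prop where
  adj : ∀ i, Γ.adj (a i) (a (i + 1))
  ne : ∀ i, a i ≠ a (i + 2)

variable {Γ}

namespace Arc

variable {a : ℤ → V} (h : Γ.Arc a)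

include h

theorem shift (k : ℤ) : Γ.Arc (fun i => a (i + k)) :=
  ⟨fun i => by have := h.adj (i + k); rwa [show i + k + 1 = i + 1 + k by ring] at this,
    fun i => by have := h.ne (i + k); rwa [show i + k + 2 = i + 2 + k by ring] at this⟩

theorem rev (k : ℤ) : Γ.Arc (fun i => a (k - i)) :=
  ⟨fun i => by
    have := h.adj (k - (i + 1)); rw [show k - (i + 1) + 1 = k - i by ring] at this
    exact Γ.symm this,
    fun i => by
    have := h.ne (k - (i + 2)); rw [show k - (i + 2) + 2 = k - i by ring] at this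
    exact this.symm⟩

theorem smul (g : G) : Γ.Arc (fun i => g • a i) :=
  ⟨fun i => Γ.adj_smul g (h.adj i), fun i e => h.ne i (smul_left_cancel g e)⟩

/-- `adj` with any written form of the indices -/
theorem adj' {i j : ℤ} (hij : j = i + 1 ∨ i = j + 1) : Γ.adj (a i) (a j) := by
  rcases hij with rfl | rfl
  · exact h.adj i
  · exact Γ.symm (h.adj j)

theorem ne' {i j : ℤ} (hij : j = i + 2 ∨ i = j + 2) : a i ≠ a j := by
  rcases hij with rfl | rfl
  · exact h.ne i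
  · exact (h.ne j).symm

theorem ty_succ (i : ℤ) : Γ.ty (a (i + 1)) = !Γ.ty (a i) := Γ.adj_ty (h.adj i)

theorem ty_nat (i : ℤ) (k : ℕ) : Γ.ty (a (i + 2 * k)) = Γ.ty (a i) := by
  induction k with
  | zero => simp
  | succ k ih =>
    have h1 := h.ty_succ (i + 2 * k)
    have h2 := h.ty_succ (i + 2 * k + 1)
    rw [show i + 2 * ((k + 1 : ℕ) : ℤ) = i + 2 * k + 1 + 1 by push_cast; ring, h2, h1, ih,
      Bool.not_not]

/-- types along an arc -/
theorem ty_even {i j : ℤ} (hij : Even (j - i)) : Γ.ty (a j) = Γ.ty (a i) := by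
  obtain ⟨k, hk⟩ := hij
  rcases le_total 0 k with h0 | h0
  · obtain ⟨m, rfl⟩ := Int.eq_ofNat_of_zero_le h0
    rw [show j = i + 2 * (m : ℤ) by omega]
    exact h.ty_nat i m
  · obtain ⟨m, hm⟩ := Int.eq_ofNat_of_zero_le (show (0 : ℤ) ≤ -k by omega)
    rw [show i = j + 2 * (m : ℤ) by omega]
    exact (h.ty_nat j m).symm

theorem ty_odd {i j : ℤ} (hij : Odd (j - i)) : Γ.ty (a j) = !Γ.ty (a i) := by
  have h1 : Γ.ty (a (i + 1)) = Γ.ty (a j) := by
    refine h.ty_even ?_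
    obtain ⟨k, hk⟩ := hij
    exact ⟨-k, by omega⟩
  rw [← h1, h.ty_succ i]

/-- change an arc to the right of position `n` -/
theorem branch {n : ℤ} {w : V} (hw : Γ.adj (a n) w) (hw' : w ≠ a (n - 1)) :
    ∃ a' : ℤ → V, Γ.Arc a' ∧ (∀ i ≤ n, a' i = a i) ∧ a' (n + 1) = w := by
  obtain ⟨r, hr0, hr1, hra, hrn⟩ := Γ.exists_ray hw
  set a' : ℤ → V := fun i => if i ≤ n then a i else r (i - n).toNat with ha'
  have e1 : ∀ i ≤ n, a' i = a i := fun i hi => by simp [ha', hi]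
  have e2 : ∀ k : ℕ, a' (n + k) = r k := by
    intro k
    rcases Nat.eq_zero_or_pos k with rfl | hk
    · rw [e1 _ (by simp), hr0]; simp
    · have : ¬ (n + (k : ℤ) ≤ n) := by omega
      simp only [ha', this, if_false]
      congr 1
      omega
  have e3 : ∀ i, n ≤ i → ∃ k : ℕ, i = n + k := fun i hi => by
    obtain ⟨k, hk⟩ := Int.eq_ofNat_of_zero_le (show (0 : ℤ) ≤ i - n by omega)
    exact ⟨k, by omega⟩
  refine ⟨a', ⟨fun i => ?_, fun i => ?_⟩, e1, ?_⟩
  · rcases lt_or_ge i n with hi | hi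
    · rw [e1 i hi.le, e1 (i + 1) (by omega)]; exact h.adj i
    · obtain ⟨k, rfl⟩ := e3 i hi
      rw [e2 k, show n + (k : ℤ) + 1 = n + ((k + 1 : ℕ) : ℤ) by push_cast; ring, e2]
      exact hra k
  · rcases lt_or_ge i n with hi | hi
    · rcases lt_or_ge (i + 1) n with hi2 | hi2
      · rw [e1 i hi.le, e1 (i + 2) (by omega)]; exact h.ne i
      · have hin : i = n - 1 := by omega
        subst hin
        rw [e1 _ (by omega), show n - 1 + 2 = n + ((1 : ℕ) : ℤ) by push_cast; ring, e2, hr1]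
        exact hw'.symm
    · obtain ⟨k, rfl⟩ := e3 i hi
      rw [e2 k, show n + (k : ℤ) + 2 = n + ((k + 2 : ℕ) : ℤ) by push_cast; ring, e2]
      exact hrn k
  · have := e2 1
    rw [hr1] at this
    simpa using this

/-- change an arc to the left of position `n` -/
theorem branch_left {n : ℤ} {w : V} (hw : Γ.adj (a n) w) (hw' : w ≠ a (n + 1)) :
    ∃ a' : ℤ → V, Γ.Arc a' ∧ (∀ i, n ≤ i → a' i = a i) ∧ a' (n - 1) = w := by
  have hb := h.rev (2 * n)
  obtain ⟨b', hb', h1, h2⟩ := hb.branch (n := n) (w := w)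
    (by rw [show 2 * n - n = n by ring]; exact hw)
    (by rw [show 2 * n - (n - 1) = n + 1 by ring]; exact hw')
  refine ⟨fun i => b' (2 * n - i), hb'.rev (2 * n), fun i hi => ?_, ?_⟩
  · show b' (2 * n - i) = a i
    rw [h1 _ (by omega)]
    show a (2 * n - (2 * n - i)) = a i
    congr 1; ring
  · show b' (2 * n - (n - 1)) = w
    rw [show 2 * n - (n - 1) = n + 1 by ring]; exact h2

end Arc

variable (Γ)

theorem exists_arc {u v : V} (huv : Γ.adj u v) : ∃ a : ℤ → V, Γ.Arc a ∧ a 0 = u ∧ a 1 = v := by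
  obtain ⟨r, hr0, hr1, hra, hrn⟩ := Γ.exists_ray huv
  obtain ⟨l, hl0, hl1, hla, hln⟩ := Γ.exists_ray (Γ.symm huv)
  set a : ℤ → V := fun i => if 0 ≤ i then r i.toNat else l (1 - i).toNat with ha
  have e1 : ∀ k : ℕ, a k = r k := fun k => by simp [ha]
  have e2 : ∀ k : ℕ, a (1 - k) = l k := by
    intro k
    match k with
    | 0 => have := e1 1; rw [hr1] at this; rw [hl0]; simpa using this
    | 1 => have := e1 0; rw [hr0] at this; rw [hl1]; simpa using this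
    | k + 2 =>
      have : ¬ ((0 : ℤ) ≤ 1 - ((k + 2 : ℕ) : ℤ)) := by push_cast; omega
      simp only [ha, this, if_false]
      congr 1
      omega
  refine ⟨a, ⟨fun i => ?_, fun i => ?_⟩, by simpa using (e1 0).trans hr0,
    by simpa using (e1 1).trans hr1⟩
  · rcases le_or_gt 0 i with hi | hi
    · obtain ⟨k, rfl⟩ := Int.eq_ofNat_of_zero_le hi
      have := e1 (k + 1)
      push_cast at this
      rw [e1 k, this]; exact hra k
    · obtain ⟨k, hk⟩ := Int.eq_ofNat_of_zero_le (show (0 : ℤ) ≤ - i by omega)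
      have h1 := e2 (k + 1)
      have h2 := e2 k
      rw [show (1 : ℤ) - ((k + 1 : ℕ) : ℤ) = i by push_cast; omega] at h1
      rw [show (1 : ℤ) - (k : ℤ) = i + 1 by omega] at h2
      rw [h1, h2]; exact Γ.symm (hla k)
  · rcases le_or_gt 0 i with hi | hi
    · obtain ⟨k, rfl⟩ := Int.eq_ofNat_of_zero_le hi
      have := e1 (k + 2)
      push_cast at this
      rw [e1 k, this]; exact hrn k
    · obtain ⟨k, hk⟩ := Int.eq_ofNat_of_zero_le (show (0 : ℤ) ≤ - i - 1 by omega)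
      have h1 := e2 (k + 2)
      have h2 := e2 k
      rw [show (1 : ℤ) - ((k + 2 : ℕ) : ℤ) = i by push_cast; omega] at h1
      rw [show (1 : ℤ) - (k : ℤ) = i + 2 by omega] at h2
      rw [h1, h2]; exact (hln k).symm

/-- arc through `u - v - w` at positions `n-1, n, n+1` -/
theorem exists_arc3 (n : ℤ) {u v w : V} (huv : Γ.adj v u) (hvw : Γ.adj v w) (huw : u ≠ w) :
    ∃ a : ℤ → V, Γ.Arc a ∧ a (n - 1) = u ∧ a n = v ∧ a (n + 1) = w := by
  obtain ⟨a, ha, h0, h1⟩ := Γ.exists_arc (Γ.symm huv)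
  have hs := ha.shift (1 - n)
  have e0 : a (n - 1 + (1 - n)) = u := by rw [show n - 1 + (1 - n) = 0 by ring]; exact h0
  have e1 : a (n + (1 - n)) = v := by rw [show n + (1 - n) = 1 by ring]; exact h1
  obtain ⟨a', ha', h2, h3⟩ := hs.branch (n := n) (w := w) (by simpa only [e1] using hvw)
    (by simpa only [e0] using huw.symm)
  refine ⟨a', ha', ?_, ?_, h3⟩
  · rw [h2 _ (by omega)]; exact e0
  · rw [h2 _ le_rfl]; exact e1

/-- `G` is transitive on arcs of length `n` with given starting type -/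
def Tr (n : ℤ) : Prop := ∀ a a' : ℤ → V, Γ.Arc a → Γ.Arc a' → Γ.ty (a 0) = Γ.ty (a' 0) →
  ∃ g : G, ∀ i, 0 ≤ i → i ≤ n → g • a i = a' i

theorem Tr.mono {m n : ℤ} (h : Γ.Tr n) (hmn : m ≤ n) : Γ.Tr m := fun a a' ha ha' ht => by
  obtain ⟨g, hg⟩ := h a a' ha ha' ht
  exact ⟨g, fun i h0 hi => hg i h0 (hi.trans hmn)⟩

/-- some arc of length `n` ending in type `τ` can be rotated at its end -/
def Ex (n : ℤ) (τ : Bool) : Prop := ∃ a : ℤ → V, Γ.Arc a ∧ Γ.ty (a n) = τ ∧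
  ∃ g : G, (∀ i, 0 ≤ i → i ≤ n → g • a i = a i) ∧ g • a (n + 1) ≠ a (n + 1)

theorem Ex.mono {m n : ℤ} {τ : Bool} (h : Γ.Ex n τ) (h0 : 0 ≤ m) (hmn : m ≤ n) : Γ.Ex m τ := by
  obtain ⟨a, ha, ht, g, hg, hg'⟩ := h
  refine ⟨fun i => a (i + (n - m)), ha.shift _, ?_, g, fun i h1 h2 => hg _ (by omega) (by omega),
    ?_⟩
  · show Γ.ty (a (m + (n - m))) = τ
    rw [show m + (n - m) = n by ring]; exact ht
  · show g • a (m + 1 + (n - m)) ≠ a (m + 1 + (n - m))
    rw [show m + 1 + (n - m) = n + 1 by ring]; exact hg'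

theorem tr_one : Γ.Tr 1 := by
  intro a a' ha ha' ht
  obtain ⟨g, hg⟩ := Γ.trans ht
  have h1 : Γ.adj (a' 0) (g • a 1) := by
    have := Γ.adj_smul g (ha.adj 0)
    rw [hg] at this
    simpa using this
  have h2 : Γ.adj (a' 0) (a' 1) := by simpa using ha'.adj 0
  obtain ⟨k, hk, hk'⟩ := Γ.loc h1 h2
  refine ⟨k * g, fun i h0 hi => ?_⟩
  rcases (show i = 0 ∨ i = 1 by omega) with rfl | rfl
  · rw [mul_smul, hg, hk]
  · rw [mul_smul, hk']

/-- one type of end at a time -/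
theorem tr_succ' {n : ℤ} (hn : 1 ≤ n) {τ : Bool}
    (h : ∀ a a' : ℤ → V, Γ.Arc a → Γ.Arc a' → Γ.ty (a n) = τ → Γ.ty (a' n) = τ →
      ∃ g : G, ∀ i, 0 ≤ i → i ≤ n → g • a i = a' i) (hE : Γ.Ex n τ) :
    ∀ a a' : ℤ → V, Γ.Arc a → Γ.Arc a' → Γ.ty (a n) = τ → Γ.ty (a' n) = τ →
      ∃ g : G, ∀ i, 0 ≤ i → i ≤ n + 1 → g • a i = a' i := by
  intro a a' ha ha' ht ht'
  obtain ⟨g, hg⟩ := h a a' ha ha' ht ht'
  by_cases hbc : g • a (n + 1) = a' (n + 1)
  · refine ⟨g, fun i h0 hi => ?_⟩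
    rcases (show i ≤ n ∨ i = n + 1 by omega) with hi' | rfl
    · exact hg i h0 hi'
    · exact hbc
  · obtain ⟨e, he, het, x, hx, hx'⟩ := hE
    obtain ⟨k, hk⟩ := h e a' he ha' het ht'
    have hxk : ∀ i, 0 ≤ i → i ≤ n → (k * x * k⁻¹) • a' i = a' i := by
      intro i h0 hi
      rw [← hk i h0 hi, mul_smul, mul_smul, inv_smul_smul, hx i h0 hi]
    have hb : Γ.adj (a' n) (g • a (n + 1)) := by
      have := Γ.adj_smul g (ha.adj n)
      rwa [hg n (by omega) le_rfl] at this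
    have hc : Γ.adj (a' n) (a' (n + 1)) := ha'.adj n
    have hp : Γ.adj (a' n) (a' (n - 1)) := ha'.adj' (Or.inr (by ring))
    have hpb : a' (n - 1) ≠ g • a (n + 1) := by
      rw [← hg (n - 1) (by omega) (by omega)]
      intro e'
      exact ha.ne' (Or.inl (by ring)) (smul_left_cancel g e')
    have hpc : a' (n - 1) ≠ a' (n + 1) := ha'.ne' (Or.inl (by ring))
    have hnQ : k * x * k⁻¹ ∉ Γ.Q (a' n) := by
      intro hQ
      have h1 : Γ.adj (a' n) (k • e (n + 1)) := by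
        have := Γ.adj_smul k (he.adj n)
        rwa [hk n (by omega) le_rfl] at this
      have h2 := Γ.Q_fix' hQ h1
      rw [mul_smul, mul_smul, inv_smul_smul] at h2
      exact hx' (smul_left_cancel k h2)
    obtain ⟨h1, -⟩ := Γ.swap_of_notMem hp hb hc hpb hpc hbc (hxk n (by omega) le_rfl)
      (hxk (n - 1) (by omega) (by omega)) hnQ
    refine ⟨k * x * k⁻¹ * g, fun i h0 hi => ?_⟩
    rcases (show i ≤ n ∨ i = n + 1 by omega) with hi' | rfl
    · rw [mul_smul (k * x * k⁻¹) g, hg i h0 hi', hxk i h0 hi']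
    · rw [mul_smul (k * x * k⁻¹) g, h1]

theorem tr_succ {n : ℤ} (hn : 0 ≤ n) (h : Γ.Tr n) (hE : ∀ τ, Γ.Ex n τ) : Γ.Tr (n + 1) := by
  rcases (show n = 0 ∨ 1 ≤ n by omega) with rfl | hn1
  · simpa using Γ.tr_one
  · intro a a' ha ha' ht
    have key : Γ.ty (a n) = Γ.ty (a' n) := by
      rcases Int.even_or_odd n with he | ho
      · rw [ha.ty_even (i := 0) (j := n) (by simpa using he),
          ha'.ty_even (i := 0) (j := n) (by simpa using he), ht]
      · rw [ha.ty_odd (i := 0) (j := n) (by simpa using ho),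
          ha'.ty_odd (i := 0) (j := n) (by simpa using ho), ht]
    refine Γ.tr_succ' hn1 (τ := Γ.ty (a' n)) (fun b b' hb hb' h1 h2 => ?_) (hE _) a a' ha ha' key
      rfl
    refine h b b' hb hb' ?_
    have h3 : Γ.ty (b n) = Γ.ty (b' n) := h1.trans h2.symm
    rcases Int.even_or_odd n with he | ho
    · rwa [hb.ty_even (i := 0) (j := n) (by simpa using he),
        hb'.ty_even (i := 0) (j := n) (by simpa using he)] at h3
    · rw [hb.ty_odd (i := 0) (j := n) (by simpa using ho),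
        hb'.ty_odd (i := 0) (j := n) (by simpa using ho)] at h3
      simpa using h3

/-- transitivity up to length `n` from the two rotations -/
theorem tr_of_ex {n : ℤ} (hE : ∀ τ, Γ.Ex n τ) : Γ.Tr (n + 1) := by
  have key : ∀ k : ℕ, (k : ℤ) ≤ n → Γ.Tr ((k : ℤ) + 1) := by
    intro k
    induction k with
    | zero => intro _; simpa using Γ.tr_one
    | succ k ih =>
      intro hk
      have h1 := ih (by push_cast at hk; omega)
      have := Γ.tr_succ (n := (k : ℤ) + 1) (by omega) h1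
        (fun τ => (hE τ).mono Γ (by omega) (by push_cast at hk; omega))
      push_cast
      exact this
  rcases le_or_gt 0 n with h0 | h0
  · obtain ⟨k, rfl⟩ := Int.eq_ofNat_of_zero_le h0
    exact key k le_rfl
  · exact Γ.tr_one.mono Γ (by omega)

/-- an element rotating at `v` along an edge -/
theorem ex_of_notMem {u v : V} (huv : Γ.adj u v) {g : G} (hg : g ∈ Γ.Q u) (hg' : g ∉ Γ.Q v) :
    Γ.Ex 2 (Γ.ty v) := by
  have hvu := Γ.symm huv
  obtain ⟨x, hx, hxv⟩ := Γ.exists_nb_ne v u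
  obtain ⟨y, hy, hyg⟩ : ∃ y, Γ.adj v y ∧ g • y ≠ y := by
    by_contra hcon
    push Not at hcon
    exact hg' ⟨Γ.Q_fix' hg huv, hcon⟩
  have hyu : y ≠ u := fun e => hyg (by rw [e]; exact Γ.Q_fix hg)
  obtain ⟨a, ha, h0, h1, h2⟩ := Γ.exists_arc3 1 hx huv hxv
  obtain ⟨a', ha', e1, e2⟩ := ha.branch (n := 2) (w := y)
    (by rw [show (2 : ℤ) = 1 + 1 by norm_num, h2]; exact hy)
    (by rw [show (2 : ℤ) - 1 = 1 by norm_num, h1]; exact hyu)
  have c0 : a' 0 = x := by rw [e1 0 (by norm_num)]; simpa using h0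
  have c1 : a' 1 = u := by rw [e1 1 (by norm_num)]; exact h1
  have c2 : a' 2 = v := by rw [e1 2 le_rfl]; simpa using h2
  refine ⟨a', ha', by rw [c2], g, fun i h0 hi => ?_, ?_⟩
  · rcases (show i = 0 ∨ i = 1 ∨ i = 2 by omega) with rfl | rfl | rfl
    · rw [c0]; exact Γ.Q_fix' hg hx
    · rw [c1]; exact Γ.Q_fix hg
    · rw [c2]; exact Γ.Q_fix' hg huv
  · rw [e2]; exact hyg

/-- `Tr 2` always holds (`loc` and `swap`) -/
theorem tr_two : Γ.Tr 2 := by
  have h1 : ∀ τ, Γ.Ex 1 τ → True := fun _ _ => trivial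
  intro a a' ha ha' ht
  obtain ⟨g, hg⟩ := Γ.tr_one a a' ha ha' ht
  by_cases hbc : g • a 2 = a' 2
  · refine ⟨g, fun i h0 hi => ?_⟩
    rcases (show i ≤ 1 ∨ i = 2 by omega) with hi' | rfl
    · exact hg i h0 hi'
    · exact hbc
  · have hb : Γ.adj (a' 1) (g • a 2) := by
      have := Γ.adj_smul g (ha.adj 1)
      rw [hg 1 (by omega) le_rfl] at this
      simpa using this
    have hc : Γ.adj (a' 1) (a' 2) := by simpa using ha'.adj 1
    have hp : Γ.adj (a' 1) (a' 0) := ha'.adj' (Or.inr (by ring))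
    have hpb : a' 0 ≠ g • a 2 := by
      rw [← hg 0 (by omega) (by omega)]
      intro e'
      exact ha.ne' (Or.inl (by ring)) (smul_left_cancel g e')
    have hpc : a' 0 ≠ a' 2 := ha'.ne' (Or.inl (by ring))
    obtain ⟨x, hx1, hx2, hx3⟩ := Γ.swap hp hb hc hpb hpc hbc
    refine ⟨x * g, fun i h0 hi => ?_⟩
    rcases (show i = 0 ∨ i = 1 ∨ i = 2 by omega) with rfl | rfl | rfl
    · rw [mul_smul, hg 0 le_rfl (by omega), hx2]
    · rw [mul_smul, hg 1 (by omega) le_rfl, hx1]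
    · rw [mul_smul, hx3]

/-- `Tr 3` as soon as edge stabilizers have order `> 2` -/
theorem tr_three {u v : V} (huv : Γ.adj u v)
    (hT : 2 < Nat.card ↥(stabilizer G u ⊓ stabilizer G v)) : Γ.Tr 3 := by
  obtain ⟨g, hg, hg'⟩ := Γ.exists_Q_notMem huv hT
  obtain ⟨k, hk, hk'⟩ := Γ.exists_Q_notMem (Γ.symm huv) (by rwa [inf_comm])
  have h1 := Γ.ex_of_notMem huv hg hg'
  have h2 := Γ.ex_of_notMem (Γ.symm huv) hk hk'
  have ht := Γ.adj_ty huv
  have hE : ∀ τ, Γ.Ex 2 τ := by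
    intro τ
    by_cases hτ : τ = Γ.ty v
    · rw [hτ]; exact h1
    · have : τ = Γ.ty u := by
        rw [ht] at hτ
        cases τ <;> cases h : Γ.ty u <;> simp_all
      rw [this]; exact h2
  exact Γ.tr_of_ex hE

/-- rotation of an arbitrary arc -/
theorem Tr.rot {n : ℤ} (h : Γ.Tr (n + 1)) (hn : 0 ≤ n) {a : ℤ → V} (ha : Γ.Arc a) {w : V}
    (hw : Γ.adj (a n) w) (hw' : n = 0 ∨ w ≠ a (n - 1)) :
    ∃ g : G, (∀ i, 0 ≤ i → i ≤ n → g • a i = a i) ∧ g • a (n + 1) = w := by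
  rcases eq_or_lt_of_le hn with rfl | hn1
  · obtain ⟨a', ha', h0, h1⟩ := Γ.exists_arc hw
    obtain ⟨g, hg⟩ := h a a' ha ha' (by rw [h0])
    refine ⟨g, fun i hi hi' => ?_, ?_⟩
    · have : i = 0 := le_antisymm hi' hi
      subst this
      rw [hg 0 le_rfl (by norm_num), h0]
    · rw [hg (0 + 1) (by norm_num) le_rfl]
      simpa using h1
  · have hw2 : w ≠ a (n - 1) := hw'.resolve_left (by omega)
    obtain ⟨a', ha', h1, h2⟩ := ha.branch hw hw2
    obtain ⟨g, hg⟩ := h a a' ha ha' (by rw [h1 0 hn])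
    exact ⟨g, fun i hi hi' => by rw [hg i hi (by omega), h1 i hi'], by
      rw [hg (n + 1) (by omega) le_rfl, h2]⟩

end Gr

/-- the geometry: type 2 centres are central -/
structure Geo (G V : Type*) [Group G] [MulAction G V] extends Gr G V where
  Z : V → Subgroup G
  Z_conj : ∀ (g : G) {v : V} {x : G}, x ∈ Z v → g * x * g⁻¹ ∈ Z (g • v)
  Z_ne : ∀ v, Z v ≠ ⊥
  Z_fix : ∀ {v : V} {x : G}, x ∈ Z v → x • v = v
  Z_fix2 : ∀ {β γ : V} {x : G}, ty β = false → adj β γ → x ∈ Z β → x • γ = γ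
  Z_cen : ∀ {β : V} {x g : G}, ty β = false → x ∈ Z β → g • β = β → g * x = x * g
  Z_sq2 : ∀ {β : V} {x : G}, ty β = false → x ∈ Z β → x * x = 1
  Z_om : ∀ {β γ : V} {x : G}, ty β = false → adj β γ → x • β = β → x • γ = γ → x * x = 1 →
    (∀ t : G, t • β = β → t • γ = γ → t * x = x * t) → x ∈ Z β
  Z_up : ∀ {β γ : V}, ty β = false → adj β γ → Z β ≤ Z γ
  Z_gen : ∀ {γ : V} (K : Subgroup G), ty γ = true → (∀ β, adj γ β → Z β ≤ K) → Z γ ≤ K

end Cfsg.Agent.H48.Ge
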