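import Cfsg.Agent.H48.GeA

/-! Basic facts on the geometry `Geo` -/

set_option autoImplicit false

open MulAction

namespace Cfsg.Agent.H48.Ge

variable {G V : Type*} [Group G] [MulAction G V]

namespace Geo

variable (Γ : Geo G V)

/-- `Low b`: for type-1 vertices, `Z ≤ Q` at distance `< b` -/
def Low (b : ℤ) : Prop := ∀ a : ℤ → V, Γ.Arc a → Γ.ty (a 0) = true → ∀ n, 0 ≤ n → n < b →
  Γ.Z (a 0) ≤ Γ.Q (a n)

/-- some arc of length `b` starting in type 1 is critical -/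
def Cr (b : ℤ) : Prop := ∃ a : ℤ → V, Γ.Arc a ∧ Γ.ty (a 0) = true ∧ ¬ Γ.Z (a 0) ≤ Γ.Q (a b)

theorem reach_arc {γ w : V} (h : Relation.ReflTransGen Γ.adj γ w) :
    ∃ a : ℤ → V, Γ.Arc a ∧ a 0 = γ ∧ ∃ n : ℤ, 0 ≤ n ∧ a n = w := by
  induction h with
  | refl =>
    obtain ⟨p, q, r, -, -, -, h⟩ := Γ.nb γ
    obtain ⟨a, ha, h0, -⟩ := Γ.exists_arc ((h p).2 (Or.inl rfl))
    exact ⟨a, ha, h0, 0, le_rfl, h0⟩
  | @tail w w' _ hw ih =>
    obtain ⟨a, ha, h0, n, hn, hnw⟩ := ih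
    rcases eq_or_lt_of_le hn with rfl | hn'
    · rw [h0] at hnw
      subst hnw
      obtain ⟨a', ha', h0', h1'⟩ := Γ.exists_arc hw
      exact ⟨a', ha', h0', 1, by norm_num, h1'⟩
    · by_cases he : w' = a (n - 1)
      · exact ⟨a, ha, h0, n - 1, by omega, he.symm⟩
      · obtain ⟨a', ha', h1, h2⟩ := ha.branch (n := n) (w := w') (by rw [hnw]; exact hw) he
        exact ⟨a', ha', by rw [h1 0 (by omega), h0], n + 1, by omega, h2⟩

theorem reach_smul {g : G} {u w : V} (h : Relation.ReflTransGen Γ.adj u w) :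
    Relation.ReflTransGen Γ.adj (g • u) (g • w) := by
  induction h with
  | refl => exact Relation.ReflTransGen.refl
  | tail _ hw ih => exact ih.tail (Γ.adj_smul g hw)

theorem exists_b (v : V) : ∃ b : ℤ, 0 ≤ b ∧ Γ.Low b ∧ Γ.Cr b := by
  classical
  have key : ∃ n : ℕ, ∃ a : ℤ → V, Γ.Arc a ∧ Γ.ty (a 0) = true ∧ ¬ Γ.Z (a 0) ≤ Γ.Q (a n) := by
    by_contra hcon
    push Not at hcon
    obtain ⟨p, q, r, -, -, -, h⟩ := Γ.nb v
    have hvp : Γ.adj v p := (h p).2 (Or.inl rfl)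
    -- an edge `γ - β` with `γ` of type 1
    obtain ⟨γ, β, hγ, hγβ⟩ : ∃ γ β, Γ.ty γ = true ∧ Γ.adj γ β := by
      cases hv : Γ.ty v
      · exact ⟨p, v, by rw [Γ.adj_ty hvp, hv]; rfl, Γ.symm hvp⟩
      · exact ⟨v, p, hv, hvp⟩
    let K : Subgroup G :=
      { carrier := {g | ∀ w, Relation.ReflTransGen Γ.adj γ w → g • w = w}
        one_mem' := fun w _ => one_smul _ _
        mul_mem' := fun hx hy w hw => by rw [mul_smul, hy w hw, hx w hw]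
        inv_mem' := fun hx w hw => by rw [inv_smul_eq_iff, hx w hw] }
    have hK : K = ⊥ := by
      refine Γ.faith K hγβ ?_ ?_ ?_
      · intro g hg
        exact ⟨hg γ Relation.ReflTransGen.refl,
          hg β (Relation.ReflTransGen.single hγβ)⟩
      · intro g hg n hn w hw
        have h1 := Γ.reach_smul (g := g⁻¹) hw
        rw [inv_smul_eq_iff.2 hg.symm] at h1
        rw [mul_smul, mul_smul, hn _ h1, smul_inv_smul]
      · intro g hg n hn w hw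
        have h0 : Relation.ReflTransGen Γ.adj β w :=
          (Relation.ReflTransGen.single (Γ.symm hγβ)).trans hw
        have h1 := Γ.reach_smul (g := g⁻¹) h0
        rw [inv_smul_eq_iff.2 hg.symm] at h1
        have h2 := (Relation.ReflTransGen.single hγβ).trans h1
        rw [mul_smul, mul_smul, hn _ h2, smul_inv_smul]
    have hZ : Γ.Z γ ≤ K := by
      intro x hx w hw
      obtain ⟨a, ha, h0, n, hn, hnw⟩ := Γ.reach_arc hw
      obtain ⟨m, rfl⟩ := Int.eq_ofNat_of_zero_le hn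
      have := hcon m a ha (by rw [h0]; exact hγ) (by rw [h0]; exact hx)
      have h2 := Γ.Q_fix this
      simpa [hnw] using h2
    exact Γ.Z_ne γ (le_bot_iff.1 (hK ▸ hZ))
  refine ⟨Nat.find key, by positivity, ?_, Nat.find_spec key⟩
  intro a ha ht n h0 hn
  obtain ⟨m, rfl⟩ := Int.eq_ofNat_of_zero_le h0
  have := Nat.find_min key (m := m) (by exact_mod_cast hn)
  push Not at this
  exact this a ha ht

variable {Γ}

theorem Low.mono {b c : ℤ} (h : Γ.Low b) (hc : c ≤ b) : Γ.Low c :=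
  fun a ha ht n h0 hn => h a ha ht n h0 (lt_of_lt_of_le hn hc)

/-- general form of `Low` for type 1 -/
theorem Low.le {b : ℤ} (h : Γ.Low b) {a : ℤ → V} (ha : Γ.Arc a) {i j : ℤ}
    (hi : Γ.ty (a i) = true) (h1 : j - i < b) (h2 : i - j < b) : Γ.Z (a i) ≤ Γ.Q (a j) := by
  rcases le_total i j with hij | hij
  · have := h _ (ha.shift i) (by simpa using hi) (j - i) (by omega) h1
    simpa using this
  · have := h _ (ha.rev i) (by simpa using hi) (i - j) (by omega) h2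
    simpa using this

theorem Low.fix {b : ℤ} (h : Γ.Low b) {a : ℤ → V} (ha : Γ.Arc a) {i j : ℤ}
    (hi : Γ.ty (a i) = true) (h1 : j - i ≤ b) (h2 : i - j ≤ b) {x : G} (hx : x ∈ Γ.Z (a i)) :
    x • a j = a j := by
  rcases lt_trichotomy i j with hij | rfl | hij
  · exact Γ.Q_fix' (h.le ha hi (j := j - 1) (by omega) (by omega) hx)
      (ha.adj' (Or.inl (by ring)))
  · exact Γ.Z_fix hx
  · exact Γ.Q_fix' (h.le ha hi (j := j + 1) (by omega) (by omega) hx)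
      (ha.adj' (Or.inr (by ring)))

theorem Z_le_Q2 {β : V} (hβ : Γ.ty β = false) {x : G} (hx : x ∈ Γ.Z β) : x ∈ Γ.Q β :=
  ⟨Γ.Z_fix hx, fun _ hw => Γ.Z_fix2 hβ hw hx⟩

/-- type 2 -/
theorem Low.le2 {b : ℤ} (h : Γ.Low b) (hb : 1 ≤ b) {a : ℤ → V} (ha : Γ.Arc a) {i j : ℤ}
    (hi : Γ.ty (a i) = false) (h1 : j - i ≤ b) (h2 : i - j ≤ b) : Γ.Z (a i) ≤ Γ.Q (a j) := by
  intro x hx
  rcases lt_trichotomy i j with hij | rfl | hij
  · have h3 : Γ.adj (a i) (a (i + 1)) := ha.adj i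
    exact h.le ha (i := i + 1) (by rw [ha.ty_succ, hi]; rfl) (by omega) (by omega)
      (Γ.Z_up hi h3 hx)
  · exact Z_le_Q2 hi hx
  · have h3 : Γ.adj (a i) (a (i - 1)) := ha.adj' (Or.inr (by ring))
    exact h.le ha (i := i - 1) (by rw [Γ.adj_ty h3, hi]; rfl) (by omega) (by omega)
      (Γ.Z_up hi h3 hx)

theorem Low.fix2 {b : ℤ} (h : Γ.Low b) (hb : 0 ≤ b) {a : ℤ → V} (ha : Γ.Arc a) {i j : ℤ}
    (hi : Γ.ty (a i) = false) (h1 : j - i ≤ b + 1) (h2 : i - j ≤ b + 1) {x : G}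
    (hx : x ∈ Γ.Z (a i)) : x • a j = a j := by
  rcases lt_trichotomy i j with hij | rfl | hij
  · have h3 : Γ.adj (a i) (a (i + 1)) := ha.adj i
    exact h.fix ha (i := i + 1) (by rw [ha.ty_succ, hi]; rfl) (by omega) (by omega)
      (Γ.Z_up hi h3 hx)
  · exact Γ.Z_fix hx
  · have h3 : Γ.adj (a i) (a (i - 1)) := ha.adj' (Or.inr (by ring))
    exact h.fix ha (i := i - 1) (by rw [Γ.adj_ty h3, hi]; rfl) (by omega) (by omega)
      (Γ.Z_up hi h3 hx)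

variable (Γ)

/-- centres of siblings (type 2) intersect trivially -/
theorem sib {γ β β' : V} (hγ : Γ.ty γ = true) (hb : Γ.adj γ β) (hb' : Γ.adj γ β') (hne : β ≠ β')
    {x : G} (hx : x ∈ Γ.Z β) (hx' : x ∈ Γ.Z β') : x = 1 := by
  have hβ : Γ.ty β = false := by rw [Γ.adj_ty hb, hγ]; rfl
  have hβ' : Γ.ty β' = false := by rw [Γ.adj_ty hb', hγ]; rfl
  have hN : Γ.Z β ⊓ Γ.Z β' = ⊥ := by
    refine Γ.faith' (u := γ) (v := β) _ hb ?_ ?_ ?_ ?_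
    · rintro n ⟨hn, -⟩
      exact ⟨Γ.Z_fix2 hβ (Γ.symm hb) hn, Γ.Z_fix hn⟩
    · rintro t - ht n hn
      have : t * n = n * t := Γ.Z_cen hβ hn.1 ht
      rw [this]; simpa using hn
    · obtain ⟨β'', hb'', h1, h2, -⟩ := Γ.third hb' hb hne.symm
      obtain ⟨g, hg, hg', hg''⟩ := Γ.swap hb' hb hb'' hne.symm h1.symm h2.symm
      refine ⟨g, hg, by rw [hg'']; exact h2, fun n hn => ?_⟩
      have : g * n = n * g := Γ.Z_cen hβ' hn.2 hg'
      rw [this]; simpa using hn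
    · obtain ⟨p, q, r, hpq, -, -, h⟩ := Γ.nb β
      obtain ⟨δ, hδ, hne'⟩ : ∃ δ, Γ.adj β δ ∧ δ ≠ γ := by
        by_cases hp : p = γ
        · exact ⟨q, (h q).2 (Or.inr (Or.inl rfl)), fun e => hpq (hp.trans e.symm)⟩
        · exact ⟨p, (h p).2 (Or.inl rfl), hp⟩
      obtain ⟨g, hg, hg'⟩ := Γ.loc (Γ.symm hb) hδ
      refine ⟨g, hg, by rw [hg']; exact hne', fun n hn => ?_⟩
      have : g * n = n * g := Γ.Z_cen hβ hn.1 hg
      rw [this]; simpa using hn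
  have : x ∈ Γ.Z β ⊓ Γ.Z β' := ⟨hx, hx'⟩
  rw [hN] at this
  exact Subgroup.mem_bot.1 this

/-- `Q γ` centralizes `Z γ` (any type) -/
theorem Q_comm {v : V} {g x : G} (hg : g ∈ Γ.Q v) (hx : x ∈ Γ.Z v) : g * x = x * g := by
  cases hv : Γ.ty v
  · exact Γ.Z_cen hv hx (Γ.Q_fix hg)
  · have := Γ.Z_gen (γ := v) (Subgroup.centralizer {g}) hv (by
      intro β hβ y hy
      rw [Subgroup.mem_centralizer_iff]
      intro k hk
      rw [Set.mem_singleton_iff] at hk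
      subst hk
      exact Γ.Z_cen (by rw [Γ.adj_ty hβ, hv]; rfl) hy (Γ.Q_fix' hg hβ))
    exact (Subgroup.mem_centralizer_iff.1 (this hx)) g rfl

/-- an element of `G_γ` commuting with some `1 ≠ x ∈ Z β` fixes `β` (β ∈ Δ(γ), γ type 1) -/
theorem fix_of_comm {γ β : V} (hγ : Γ.ty γ = true) (hb : Γ.adj γ β) {g x : G} (hg : g • γ = γ)
    (hx : x ∈ Γ.Z β) (hx1 : x ≠ 1) (hc : g * x = x * g) : g • β = β := by
  by_contra hne
  have h1 := Γ.Z_conj g hx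
  rw [hc, mul_inv_cancel_right] at h1
  exact hx1 (Γ.sib hγ hb (Γ.adj_of_fix hg hb) (Ne.symm hne) hx h1)

theorem exists_ne_one (v : V) : ∃ x ∈ Γ.Z v, x ≠ 1 := by
  by_contra hcon
  push Not at hcon
  exact Γ.Z_ne v ((Subgroup.eq_bot_iff_forall _).2 hcon)

/-- centralizer of `Z γ` in `G_γ` is `Q γ` (γ type 1) -/
theorem mem_Q_of_comm {γ : V} (hγ : Γ.ty γ = true) {g : G} (hg : g • γ = γ)
    (hc : ∀ x ∈ Γ.Z γ, g * x = x * g) : g ∈ Γ.Q γ := by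
  refine ⟨hg, fun β hβ => ?_⟩
  obtain ⟨x, hx, hx1⟩ := Γ.exists_ne_one β
  exact Γ.fix_of_comm hγ hβ hg hx hx1 (hc x (Γ.Z_up (by rw [Γ.adj_ty hβ, hγ]; rfl) (Γ.symm hβ) hx))

variable {Γ}

theorem Low.Z_le_Q {b : ℤ} (h : Γ.Low b) (hb : 1 ≤ b) {v : V} (x : G) (hx : x ∈ Γ.Z v) :
    x ∈ Γ.Q v := by
  cases hv : Γ.ty v
  · exact Z_le_Q2 hv hx
  · obtain ⟨p, q, r, -, -, -, h'⟩ := Γ.nb v
    obtain ⟨a, ha, h0, -⟩ := Γ.exists_arc ((h' p).2 (Or.inl rfl))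
    subst h0
    exact h a ha hv 0 le_rfl (by omega) hx

theorem Low.Z_comm {b : ℤ} (h : Γ.Low b) (hb : 1 ≤ b) {v : V} {x y : G} (hx : x ∈ Γ.Z v)
    (hy : y ∈ Γ.Z v) : x * y = y * x := Γ.Q_comm (h.Z_le_Q hb x hx) hy

theorem Low.Z_sq {b : ℤ} (h : Γ.Low b) (hb : 1 ≤ b) {v : V} {x : G} (hx : x ∈ Γ.Z v) :
    x * x = 1 := by
  cases hv : Γ.ty v
  · exact Γ.Z_sq2 hv hx
  · let K : Subgroup G :=
      { carrier := {x | x ∈ Γ.Z v ∧ x * x = 1}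
        one_mem' := ⟨Subgroup.one_mem _, one_mul _⟩
        mul_mem' := by
          rintro x y ⟨hx, hx'⟩ ⟨hy, hy'⟩
          refine ⟨Subgroup.mul_mem _ hx hy, ?_⟩
          rw [mul_assoc, ← mul_assoc y, ← h.Z_comm hb hx hy, mul_assoc x, ← mul_assoc x x, hx',
            one_mul, hy']
        inv_mem' := by
          rintro x ⟨hx, hx'⟩
          refine ⟨Subgroup.inv_mem _ hx, ?_⟩
          rw [← mul_inv_rev, hx', inv_one] }
    have hK : Γ.Z v ≤ K := Γ.Z_gen K hv (by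
      intro β hβ y hy
      have h2 : Γ.ty β = false := by rw [Γ.adj_ty hβ, hv]; rfl
      exact ⟨Γ.Z_up h2 (Γ.symm hβ) hy, Γ.Z_sq2 h2 hy⟩)
    exact (hK hx).2

/-- `[Z γ, G_γβ] ≤ Z β` -/
theorem Low.comm_mem {b : ℤ} (h : Γ.Low b) (hb : 1 ≤ b) {γ β : V} (hγ : Γ.ty γ = true)
    (hβ : Γ.adj γ β) {x t : G} (hx : x ∈ Γ.Z γ) (ht : t • γ = γ) (ht' : t • β = β) :
    x * (t * x * t⁻¹) ∈ Γ.Z β := by
  by_cases htQ : t ∈ Γ.Q γ
  · have h1 := Γ.Q_comm htQ hx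
    rw [h1, mul_inv_cancel_right, h.Z_sq hb hx]
    exact Subgroup.one_mem _
  · have hxt : t * x * t⁻¹ ∈ Γ.Z γ := by
      have := Γ.Z_conj t hx
      rwa [ht] at this
    have hw : x * (t * x * t⁻¹) ∈ Γ.Z γ := Subgroup.mul_mem _ hx hxt
    have hwQ := h.Z_le_Q hb _ hw
    have h2 : Γ.ty β = false := by rw [Γ.adj_ty hβ, hγ]; rfl
    refine Γ.Z_om h2 (Γ.symm hβ) (Γ.Q_fix' hwQ hβ) (Γ.Q_fix hwQ) (h.Z_sq hb hw) ?_
    intro s hs' hs
    by_cases hsQ : s ∈ Γ.Q γ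
    · exact Γ.Q_comm hsQ hw
    · have hti : t⁻¹ ∉ Γ.Q γ := fun e => htQ (by simpa using Subgroup.inv_mem _ e)
      have hq : t⁻¹ * s ∈ Γ.Q γ := Γ.mul_mem_Q hβ (inv_smul_eq_iff.2 ht.symm)
        (inv_smul_eq_iff.2 ht'.symm) hti hs hs' hsQ
      have htt : t * t ∈ Γ.Q γ := Γ.mul_mem_Q hβ ht ht' htQ ht ht' htQ
      have h3 := Γ.Q_comm hq hw
      have h4 := Γ.Q_comm htt hx
      have h5 := h.Z_comm hb hx hxt
      have h6 : t * (x * (t * x * t⁻¹)) = x * (t * x * t⁻¹) * t := by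
        calc t * (x * (t * x * t⁻¹)) = (t * x * t⁻¹) * ((t * t) * x) * t⁻¹ := by group
          _ = (t * x * t⁻¹) * (x * (t * t)) * t⁻¹ := by rw [h4]
          _ = ((t * x * t⁻¹) * x) * t := by group
          _ = x * (t * x * t⁻¹) * t := by rw [← h5]
      calc s * (x * (t * x * t⁻¹)) = t * ((t⁻¹ * s) * (x * (t * x * t⁻¹))) := by group
        _ = t * ((x * (t * x * t⁻¹)) * (t⁻¹ * s)) := by rw [h3]
        _ = (t * (x * (t * x * t⁻¹))) * (t⁻¹ * s) := by group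
        _ = (x * (t * x * t⁻¹) * t) * (t⁻¹ * s) := by rw [h6]
        _ = x * (t * x * t⁻¹) * s := by group

/-- elements of `Z γ` commuting with an element of `G_γβ` outside `Q γ` are in `Z β` -/
theorem Low.mem_of_comm {b : ℤ} (h : Γ.Low b) (hb : 1 ≤ b) {γ β : V} (hγ : Γ.ty γ = true)
    (hβ : Γ.adj γ β) {x t : G} (hx : x ∈ Γ.Z γ) (ht : t • γ = γ) (ht' : t • β = β)
    (htQ : t ∉ Γ.Q γ) (hc : t * x = x * t) : x ∈ Γ.Z β := by
  have hwQ := h.Z_le_Q hb _ hx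
  have h2 : Γ.ty β = false := by rw [Γ.adj_ty hβ, hγ]; rfl
  refine Γ.Z_om h2 (Γ.symm hβ) (Γ.Q_fix' hwQ hβ) (Γ.Q_fix hwQ) (h.Z_sq hb hx) ?_
  intro s hs' hs
  by_cases hsQ : s ∈ Γ.Q γ
  · exact Γ.Q_comm hsQ hx
  · have hti : t⁻¹ ∉ Γ.Q γ := fun e => htQ (by simpa using Subgroup.inv_mem _ e)
    have hq : t⁻¹ * s ∈ Γ.Q γ := Γ.mul_mem_Q hβ (inv_smul_eq_iff.2 ht.symm)
      (inv_smul_eq_iff.2 ht'.symm) hti hs hs' hsQ
    have h3 := Γ.Q_comm hq hx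
    calc s * x = t * ((t⁻¹ * s) * x) := by group
      _ = t * (x * (t⁻¹ * s)) := by rw [h3]
      _ = (t * x) * (t⁻¹ * s) := by group
      _ = (x * t) * (t⁻¹ * s) := by rw [hc]
      _ = x * s := by group

/-- two `Z`'s of type 1 at distance `< b` commute -/
theorem Low.comm {b : ℤ} (h : Γ.Low b) {a : ℤ → V} (ha : Γ.Arc a) {i j : ℤ}
    (hi : Γ.ty (a i) = true) (h1 : j - i < b) (h2 : i - j < b) {x y : G}
    (hx : x ∈ Γ.Z (a i)) (hy : y ∈ Γ.Z (a j)) : x * y = y * x :=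
  Γ.Q_comm (h.le ha hi h1 h2 hx) hy

variable (Γ)

/-- kernel on the ball of radius `n` -/
def Bl (n : ℤ) (v : V) : Subgroup G where
  carrier := {g | ∀ a : ℤ → V, Γ.Arc a → a 0 = v → ∀ i, 0 ≤ i → i ≤ n → g • a i = a i}
  one_mem' := fun _ _ _ _ _ _ => one_smul _ _
  mul_mem' := fun hx hy a ha h0 i hi hn => by rw [mul_smul, hy a ha h0 i hi hn, hx a ha h0 i hi hn]
  inv_mem' := fun hx a ha h0 i hi hn => by rw [inv_smul_eq_iff, hx a ha h0 i hi hn]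

/-- `N β`: kernel on the ball of radius 2, defined directly -/
def N (β : V) : Subgroup G where
  carrier := {g | g • β = β ∧ ∀ γ, Γ.adj β γ → g ∈ Γ.Q γ}
  one_mem' := ⟨one_smul _ _, fun _ _ => Subgroup.one_mem _⟩
  mul_mem' := fun hx hy => ⟨by rw [mul_smul, hy.1, hx.1],
    fun γ h => Subgroup.mul_mem _ (hx.2 γ h) (hy.2 γ h)⟩
  inv_mem' := fun hx => ⟨by rw [inv_smul_eq_iff, hx.1], fun γ h => Subgroup.inv_mem _ (hx.2 γ h)⟩

theorem mem_N {β : V} {g : G} : g ∈ Γ.N β ↔ g • β = β ∧ ∀ γ, Γ.adj β γ → g ∈ Γ.Q γ := Iff.rfl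

theorem N_le_Q {β : V} : Γ.N β ≤ Γ.Q β :=
  fun g hg => ⟨hg.1, fun γ h => (hg.2 γ h).1⟩

theorem N_conj (g : G) {v : V} {x : G} (hx : x ∈ Γ.N v) : g * x * g⁻¹ ∈ Γ.N (g • v) := by
  refine ⟨by rw [mul_smul, mul_smul, inv_smul_smul, hx.1], fun γ h => ?_⟩
  have h1 : Γ.adj v (g⁻¹ • γ) := by
    rw [← Γ.adj_smul_iff g]; simpa using h
  have := Γ.Q_conj g (hx.2 _ h1)
  simpa using this

end Geo

end Cfsg.Agent.H48.Ge
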