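import Cfsg.Agent.H48.GeB

/-! Odd `b ≥ 3`: common definitions and facts (`crit`, `K1`, `z`, ...).

Conventions: for an arc `a` and `i` with `a i` of type 2 (`false`), `crit b a i` says that
`Z (a (i-1)) ≰ Q (a (i+b-1))`; so the vertices `a i, …, a (i+b-1)` form an arc of length `b-1` between
type-2 vertices. (A): then also `Z (a (i+b)) ≰ Q (a i)`; it only depends on `a i, …, a (i+b-1)`. -/

set_option autoImplicit false

open MulAction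

namespace Cfsg.Agent.H48.Ge

variable {G V : Type*} [Group G] [MulAction G V]

namespace Geo

variable (Γ : Geo G V)

/-- `|Z β| = 2` for type 2 -/
def K1 : Prop := ∀ β, Γ.ty β = false → ∀ x ∈ Γ.Z β, ∀ y ∈ Γ.Z β, x ≠ 1 → y ≠ 1 → x = y

/-- a nontrivial element of `Z v` (the only one for type 2 under `K1`) -/
noncomputable def z (v : V) : G := Classical.choose (Γ.exists_ne_one v)

theorem z_mem (v : V) : Γ.z v ∈ Γ.Z v := (Classical.choose_spec (Γ.exists_ne_one v)).1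

theorem z_ne (v : V) : Γ.z v ≠ 1 := (Classical.choose_spec (Γ.exists_ne_one v)).2

variable {Γ}

theorem K1.eq (h : Γ.K1) {β : V} (hβ : Γ.ty β = false) {x : G} (hx : x ∈ Γ.Z β) :
    x = 1 ∨ x = Γ.z β := by
  by_cases h1 : x = 1
  · exact Or.inl h1
  · exact Or.inr (h β hβ x hx _ (Γ.z_mem β) h1 (Γ.z_ne β))

theorem K1.z_conj (h : Γ.K1) {β : V} (hβ : Γ.ty β = false) (g : G) :
    g * Γ.z β * g⁻¹ = Γ.z (g • β) := by
  have h1 := Γ.Z_conj g (Γ.z_mem β)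
  rcases h.eq (by rw [Γ.ty_smul, hβ]) h1 with h2 | h2
  · exfalso
    apply Γ.z_ne β
    have : Γ.z β = g⁻¹ * (g * Γ.z β * g⁻¹) * g := by group
    rw [this, h2]; group
  · exact h2

/-- product of the two others (Δ(γ) = {β, β', β''}, γ type 1) -/
theorem K1.mul (h : Γ.K1) (hL : Γ.Low 1) {γ β β' β'' : V} (hγ : Γ.ty γ = true)
    (h1 : Γ.adj γ β) (h2 : Γ.adj γ β') (h3 : Γ.adj γ β'') (h12 : β ≠ β') (h13 : β ≠ β'')
    (h23 : β' ≠ β'') : Γ.z β * Γ.z β' = Γ.z β'' := by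
  have hβ : Γ.ty β = false := by rw [Γ.adj_ty h1, hγ]; rfl
  have hβ' : Γ.ty β' = false := by rw [Γ.adj_ty h2, hγ]; rfl
  have hβ'' : Γ.ty β'' = false := by rw [Γ.adj_ty h3, hγ]; rfl
  obtain ⟨g, hg, hg', hg''⟩ := Γ.swap h3 h1 h2 h13.symm h23.symm h12
  have h4 := hL.comm_mem le_rfl hγ h3 (Γ.Z_up hβ (Γ.symm h1) (Γ.z_mem β)) hg hg'
  rw [h.z_conj hβ, hg''] at h4
  rcases h.eq hβ'' h4 with h5 | h5
  · exfalso
    have h6 : Γ.z β = Γ.z β' := by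
      have h7 := Γ.Z_sq2 hβ' (Γ.z_mem β')
      calc Γ.z β = Γ.z β * (Γ.z β' * Γ.z β') := by rw [h7, mul_one]
        _ = (Γ.z β * Γ.z β') * Γ.z β' := by group
        _ = Γ.z β' := by rw [h5, one_mul]
    exact Γ.z_ne β (Γ.sib hγ h1 h2 h12 (Γ.z_mem β) (h6 ▸ Γ.z_mem β'))
  · exact h5

/-- `Z γ = {1, z β, z β', z β''}` -/
theorem K1.mem_iff (h : Γ.K1) (hL : Γ.Low 1) {γ β β' β'' : V} (hγ : Γ.ty γ = true)
    (h1 : Γ.adj γ β) (h2 : Γ.adj γ β') (h3 : Γ.adj γ β'') (h12 : β ≠ β') (h13 : β ≠ β'')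
    (h23 : β' ≠ β'') {x : G} :
    x ∈ Γ.Z γ ↔ x = 1 ∨ x = Γ.z β ∨ x = Γ.z β' ∨ x = Γ.z β'' := by
  have hβ : Γ.ty β = false := by rw [Γ.adj_ty h1, hγ]; rfl
  have hβ' : Γ.ty β' = false := by rw [Γ.adj_ty h2, hγ]; rfl
  have hβ'' : Γ.ty β'' = false := by rw [Γ.adj_ty h3, hγ]; rfl
  have m1 := h.mul hL hγ h1 h2 h3 h12 h13 h23
  have m2 := h.mul hL hγ h2 h1 h3 h12.symm h23 h13
  have m3 := h.mul hL hγ h1 h3 h2 h13 h12 h23.symm
  have m4 := h.mul hL hγ h3 h1 h2 h13.symm h23.symm h12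
  have m5 := h.mul hL hγ h2 h3 h1 h23 h12.symm h13.symm
  have m6 := h.mul hL hγ h3 h2 h1 h23.symm h13.symm h12.symm
  have q1 := Γ.Z_sq2 hβ (Γ.z_mem β)
  have q2 := Γ.Z_sq2 hβ' (Γ.z_mem β')
  have q3 := Γ.Z_sq2 hβ'' (Γ.z_mem β'')
  constructor
  · intro hx
    let K : Subgroup G :=
      { carrier := {x | x = 1 ∨ x = Γ.z β ∨ x = Γ.z β' ∨ x = Γ.z β''}
        one_mem' := Or.inl rfl
        mul_mem' := by
          rintro x y (rfl | rfl | rfl | rfl) (rfl | rfl | rfl | rfl) <;>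
            simp [m1, m2, m3, m4, m5, m6, q1, q2, q3]
        inv_mem' := by
          rintro x (rfl | rfl | rfl | rfl)
          · simp
          · rw [inv_eq_of_mul_eq_one_left q1]; simp
          · rw [inv_eq_of_mul_eq_one_left q2]; simp
          · rw [inv_eq_of_mul_eq_one_left q3]; simp }
    have hK : Γ.Z γ ≤ K := Γ.Z_gen K hγ (by
      intro δ hδ y hy
      have hδ2 : Γ.ty δ = false := by rw [Γ.adj_ty hδ, hγ]; rfl
      rcases Γ.nb_cases h1 h2 h3 h12 h13 h23 hδ with rfl | rfl | rfl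
      · rcases h.eq hδ2 hy with rfl | rfl
        · exact Or.inl rfl
        · exact Or.inr (Or.inl rfl)
      · rcases h.eq hδ2 hy with rfl | rfl
        · exact Or.inl rfl
        · exact Or.inr (Or.inr (Or.inl rfl))
      · rcases h.eq hδ2 hy with rfl | rfl
        · exact Or.inl rfl
        · exact Or.inr (Or.inr (Or.inr rfl)))
    exact hK hx
  · rintro (rfl | rfl | rfl | rfl)
    · exact Subgroup.one_mem _
    · exact Γ.Z_up hβ (Γ.symm h1) (Γ.z_mem _)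
    · exact Γ.Z_up hβ' (Γ.symm h2) (Γ.z_mem _)
    · exact Γ.Z_up hβ'' (Γ.symm h3) (Γ.z_mem _)

/-- an element of `Z γ \ Z β` is `z ε` for some other neighbour `ε` of `γ` -/
theorem K1.exists_eq (h : Γ.K1) (hL : Γ.Low 1) {γ β : V} (hγ : Γ.ty γ = true)
    (h1 : Γ.adj γ β) {x : G} (hx : x ∈ Γ.Z γ) (hx' : x ∉ Γ.Z β) :
    ∃ ε, Γ.adj γ ε ∧ ε ≠ β ∧ x = Γ.z ε := by
  obtain ⟨β', hβ', hne⟩ := Γ.exists_nb_ne β γ
  obtain ⟨β'', h3, h4, h5, -⟩ := Γ.third h1 hβ' hne.symm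
  rcases (h.mem_iff hL hγ h1 hβ' h3 hne.symm h4.symm h5.symm).1 hx with rfl | rfl | rfl | rfl
  · exact absurd (Subgroup.one_mem _) hx'
  · exact absurd (Γ.z_mem _) hx'
  · exact ⟨β', hβ', hne, rfl⟩
  · exact ⟨β'', h3, h4, rfl⟩

/-- the product of two elements of `Z γ \ Z β` is in `Z β` -/
theorem K1.mul_mem (h : Γ.K1) (hL : Γ.Low 1) {γ β : V} (hγ : Γ.ty γ = true)
    (h1 : Γ.adj γ β) {x y : G} (hx : x ∈ Γ.Z γ) (hx' : x ∉ Γ.Z β) (hy : y ∈ Γ.Z γ)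
    (hy' : y ∉ Γ.Z β) : x * y ∈ Γ.Z β := by
  obtain ⟨ε, hε, hne, rfl⟩ := h.exists_eq hL hγ h1 hx hx'
  obtain ⟨η, hη, hne', rfl⟩ := h.exists_eq hL hγ h1 hy hy'
  have hε2 : Γ.ty ε = false := by rw [Γ.adj_ty hε, hγ]; rfl
  by_cases he : ε = η
  · subst he
    rw [Γ.Z_sq2 hε2 (Γ.z_mem _)]
    exact Subgroup.one_mem _
  · rw [h.mul hL hγ hε hη h1 he hne hne']
    exact Γ.z_mem _

/-- `Z γ ∩ Z δ ≤ Z β` for distinct neighbours `γ, δ` of the type-2 vertex `β` -/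
theorem K1.inter (h : Γ.K1) (hL : Γ.Low 1) {β γ δ : V} (hβ : Γ.ty β = false)
    (h1 : Γ.adj β γ) (h2 : Γ.adj β δ) (hne : γ ≠ δ) {x : G} (hx : x ∈ Γ.Z γ) (hx' : x ∈ Γ.Z δ) :
    x ∈ Γ.Z β := by
  by_contra hxβ
  have hγ : Γ.ty γ = true := by rw [Γ.adj_ty h1, hβ]; rfl
  have hδ : Γ.ty δ = true := by rw [Γ.adj_ty h2, hβ]; rfl
  -- Z γ = Z δ
  have key : ∀ {γ δ : V}, Γ.ty γ = true → Γ.adj β γ → Γ.adj β δ → x ∈ Γ.Z γ → x ∈ Γ.Z δ →
      Γ.Z γ ≤ Γ.Z δ := by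
    intro γ δ hγ h1 h2 hx hx' y hy
    by_cases hyβ : y ∈ Γ.Z β
    · exact Γ.Z_up hβ h2 hyβ
    · have h3 := h.mul_mem hL hγ (Γ.symm h1) hx hxβ hy hyβ
      have : y = x⁻¹ * (x * y) := by group
      rw [this]
      exact Subgroup.mul_mem _ (Subgroup.inv_mem _ hx') (Γ.Z_up hβ h2 h3)
  have hE : Γ.Z γ = Γ.Z δ := le_antisymm (key hγ h1 h2 hx hx') (key hδ h2 h1 hx' hx)
  have hbot : Γ.Z γ = ⊥ := by
    refine Γ.faith' (u := β) (v := γ) _ h1 ?_ ?_ ?_ ?_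
    · intro n hn
      have := hL.Z_le_Q le_rfl n hn
      exact ⟨Γ.Q_fix' this (Γ.symm h1), Γ.Q_fix this⟩
    · intro t _ ht n hn
      have := Γ.Z_conj t hn
      rwa [ht] at this
    · obtain ⟨g, hg, hg'⟩ := Γ.loc h1 h2
      refine ⟨g, hg, by rw [hg']; exact hne.symm, fun n hn => ?_⟩
      have := Γ.Z_conj g hn
      rw [hg', ← hE] at this
      exact this
    · obtain ⟨β', hβ', hne'⟩ := Γ.exists_nb_ne β γ
      obtain ⟨g, hg, hg'⟩ := Γ.loc (Γ.symm h1) hβ'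
      refine ⟨g, hg, by rw [hg']; exact hne', fun n hn => ?_⟩
      have := Γ.Z_conj g hn
      rwa [hg] at this
  exact Γ.Z_ne γ hbot

variable (Γ)

/-- critical arc of length `b - 1` between type-2 vertices, at positions `i, …, i + b - 1` -/
def crit (b : ℤ) (a : ℤ → V) (i : ℤ) : Prop := ¬ Γ.Z (a (i - 1)) ≤ Γ.Q (a (i + b - 1))

/-- standing hypotheses, odd case -/
structure OH (b : ℤ) : Prop where
  hb : 3 ≤ b
  odd : Odd b
  low : Γ.Low b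
  cr : Γ.Cr b
  big : ∀ {u v : V}, Γ.adj u v → 2 < Nat.card ↥(stabilizer G u ⊓ stabilizer G v)

/-- with `|Z β| = 2` -/
structure OK (b : ℤ) : Prop extends Γ.OH b where
  k1 : Γ.K1

variable {Γ} {b : ℤ}

theorem OH.low1 (h : Γ.OH b) : Γ.Low 1 := h.low.mono (by have := h.hb; omega)

/-- (A) in the basic form; PROVED IN GeO1 -/
def AProp (Γ : Geo G V) (b : ℤ) : Prop := ∀ (a : ℤ → V) (i : ℤ), Γ.Arc a → Γ.ty (a i) = false →
  (¬ Γ.Z (a (i - 1)) ≤ Γ.Q (a (i + b - 1)) ↔ ¬ Γ.Z (a (i + b)) ≤ Γ.Q (a i))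

/-- property (H') -/
def Hp (Γ : Geo G V) : Prop := ∀ a : ℤ → V, Γ.Arc a → Γ.ty (a 0) = true → ∀ n : ℤ, 0 ≤ n → Even n →
  ∀ x ∈ Γ.Z (a 0), (∀ i, 0 ≤ i → i ≤ n → x • a i = a i) → x ∈ Γ.Q (a n)

end Geo

end Cfsg.Agent.H48.Ge
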