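import Cfsg.Agent.H48.GeB

/-! Even `b ≥ 4` is impossible (helper39). -/

set_option autoImplicit false

open MulAction

namespace Cfsg.Agent.H48.Ge

variable {G V : Type*} [Group G] [MulAction G V]

namespace Geo

variable (Γ : Geo G V)

/-- the critical pair: steps (1) and (2) -/
theorem ev_crit {b : ℤ} (hb : 4 ≤ b) (he : Even b) (hL : Γ.Low b) {a : ℤ → V} (ha : Γ.Arc a)
    (h0 : Γ.ty (a 0) = true) (hn : ¬ Γ.Z (a 0) ≤ Γ.Q (a b)) :
    ∃ x ∈ Γ.Z (a 0), x ∉ Γ.Q (a b) ∧ ∃ t ∈ Γ.Z (a b), t ∉ Γ.Q (a 0) ∧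
      (∀ w ∈ Γ.Z (a 0), w ∈ Γ.Q (a b) → w ∈ Γ.Z (a 1)) ∧
      ∃ c, c ≠ 1 ∧ c ∈ Γ.Z (a 1) ∧ c ∈ Γ.Z (a (b - 1)) := by
  have hb1 : 1 ≤ b := by omega
  have htb : Γ.ty (a b) = true := by
    rw [ha.ty_even (i := 0) (j := b) (by rwa [sub_zero]), h0]
  have ht1 : Γ.ty (a 1) = false := by
    rw [ha.ty_odd (i := 0) (j := 1) (by decide), h0]; rfl
  have ha01 : Γ.adj (a 0) (a 1) := ha.adj' (Or.inl rfl)
  have hab : Γ.adj (a b) (a (b - 1)) := ha.adj' (Or.inr (by ring))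
  obtain ⟨x, hx, hxQ⟩ := SetLike.not_le_iff_exists.1 hn
  have hxb : x • a b = a b := hL.fix ha h0 (by omega) (by omega) hx
  have hxb1 : x • a (b - 1) = a (b - 1) := hL.fix ha h0 (by omega) (by omega) hx
  obtain ⟨t, ht, htQ⟩ : ∃ t ∈ Γ.Z (a b), t ∉ Γ.Q (a 0) := by
    by_contra hcon
    push Not at hcon
    exact hxQ (Γ.mem_Q_of_comm htb hxb (fun y hy => (Γ.Q_comm (hcon y hy) hx).symm))
  have ht0 : t • a 0 = a 0 := hL.fix ha htb (by omega) (by omega) ht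
  have ht1' : t • a 1 = a 1 := hL.fix ha htb (by omega) (by omega) ht
  have h1 : ∀ w ∈ Γ.Z (a 0), w ∈ Γ.Q (a b) → w ∈ Γ.Z (a 1) := fun w hw hwQ =>
    hL.mem_of_comm hb1 h0 ha01 hw ht0 ht1' htQ (Γ.Q_comm hwQ ht).symm
  refine ⟨x, hx, hxQ, t, ht, htQ, h1, x * (t * x * t⁻¹), ?_, ?_, ?_⟩
  · intro hc
    have hxx : x * x = 1 := hL.Z_sq hb1 hx
    have h2 : t * x * t⁻¹ = x := by
      have := eq_inv_of_mul_eq_one_right hc
      rw [this]
      exact inv_eq_of_mul_eq_one_left hxx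
    have h3 : t * x = x * t := mul_inv_eq_iff_eq_mul.1 h2
    have h4 := hL.mem_of_comm hb1 h0 ha01 hx ht0 ht1' htQ h3
    exact hxQ (hL.le2 hb1 ha (i := 1) (j := b) ht1 (by omega) (by omega) h4)
  · exact hL.comm_mem hb1 h0 ha01 hx ht0 ht1'
  · have h2 := hL.comm_mem hb1 htb hab ht hxb hxb1
    have hxx : x⁻¹ = x := inv_eq_of_mul_eq_one_left (hL.Z_sq hb1 hx)
    have htt : t⁻¹ = t := inv_eq_of_mul_eq_one_left (hL.Z_sq hb1 ht)
    have h3 : x * (t * x * t⁻¹) = (t * (x * t * x⁻¹))⁻¹ := by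
      rw [mul_inv_rev, mul_inv_rev, mul_inv_rev, inv_inv, hxx, htt]
      group
    rw [h3]
    exact (Γ.Z _).inv_mem h2

/-- `|Z β| = 2` for type 2 -/
theorem ev_two {b : ℤ} (hb : 4 ≤ b) (he : Even b) (hL : Γ.Low b) {a : ℤ → V} (ha : Γ.Arc a)
    (h0 : Γ.ty (a 0) = true) (hn : ¬ Γ.Z (a 0) ≤ Γ.Q (a b)) {β : V} (hβ : Γ.ty β = false)
    {u y : G} (hu : u ∈ Γ.Z β) (hy : y ∈ Γ.Z β) (hu1 : u ≠ 1) (hy1 : y ≠ 1) : u = y := by
  obtain ⟨x, hx, hxQ, t, ht, htQ, h1, -⟩ := Γ.ev_crit hb he hL ha h0 hn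
  have ha01 : Γ.adj (a 0) (a 1) := ha.adj' (Or.inl rfl)
  have ht1 : Γ.ty (a 1) = false := by
    rw [ha.ty_odd (i := 0) (j := 1) (by decide), h0]; rfl
  have ham : Γ.adj (a 0) (a (-1)) := ha.adj' (Or.inr (by norm_num))
  have htm : Γ.ty (a (-1)) = false := by
    rw [ha.ty_odd (i := 0) (j := -1) (by decide), h0]; rfl
  have hne : a (-1) ≠ a 1 := ha.ne' (Or.inl (by norm_num))
  have hab : Γ.adj (a b) (a (b - 1)) := ha.adj' (Or.inr (by ring))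
  -- for `a (-1)`
  have key : ∀ u ∈ Γ.Z (a (-1)), ∀ y ∈ Γ.Z (a (-1)), u ≠ 1 → y ≠ 1 → u = y := by
    intro u hu y hy hu1 hy1
    have hup := Γ.Z_up htm (Γ.symm ham)
    have hnot : ∀ w ∈ Γ.Z (a (-1)), w ≠ 1 → w ∉ Γ.Q (a b) := fun w hw hw1 hwQ =>
      hw1 (Γ.sib h0 ham ha01 hne hw (h1 w (hup hw) hwQ))
    have hfb : ∀ w ∈ Γ.Z (a (-1)), w • a b = a b := fun w hw => hL.fix ha h0 (by omega) (by omega) (hup hw)
    have hfb1 : ∀ w ∈ Γ.Z (a (-1)), w • a (b - 1) = a (b - 1) := fun w hw => hL.fix ha h0 (by omega) (by omega) (hup hw)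
    have h2 := Γ.mul_mem_Q hab (hfb u hu) (hfb1 u hu) (hnot u hu hu1) (hfb y hy) (hfb1 y hy) (hnot y hy hy1)
    have h3 : u * y ∈ Γ.Z (a (-1)) := (Γ.Z _).mul_mem hu hy
    have h4 : u * y = 1 := by
      by_contra hne1
      exact hnot _ h3 hne1 h2
    have h5 := Γ.Z_sq2 htm hu
    exact (mul_left_cancel (h4.trans h5.symm)).symm
  obtain ⟨g, hg⟩ := Γ.trans (u := β) (v := a (-1)) (by rw [hβ, htm])
  have h2 := key (g * u * g⁻¹) (by rw [← hg]; exact Γ.Z_conj g hu) (g * y * g⁻¹) (by rw [← hg]; exact Γ.Z_conj g hy)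
    (fun h => hu1 (by rwa [conj_eq_one_iff] at h)) (fun h => hy1 (by rwa [conj_eq_one_iff] at h))
  exact mul_left_cancel (mul_right_cancel h2)

theorem even_false (Γ : Geo G V) {b : ℤ} (hb : 4 ≤ b) (he : Even b) (hL : Γ.Low b)
    (hC : Γ.Cr b) : False := by
  obtain ⟨a, ha, h0, hn⟩ := hC
  have hb1 : 1 ≤ b := by omega
  obtain ⟨x, hx, hxQ, t, ht, htQ, h1, c, hc1, hcZ1, hcZb⟩ := Γ.ev_crit hb he hL ha h0 hn
  have htwo : ∀ {β : V}, Γ.ty β = false → ∀ {u y : G}, u ∈ Γ.Z β → y ∈ Γ.Z β → u ≠ 1 → y ≠ 1 → u = y := by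
    intro β hβ u y hu hy hu1 hy1
    exact Γ.ev_two hb he hL ha h0 hn hβ hu hy hu1 hy1
  have tyE : ∀ j : ℤ, Even j → Γ.ty (a j) = true := fun j hj => by
    rw [ha.ty_even (i := 0) (j := j) (by rwa [sub_zero]), h0]
  have tyO : ∀ j : ℤ, Odd j → Γ.ty (a j) = false := fun j hj => by
    rw [ha.ty_odd (i := 0) (j := j) (by rwa [sub_zero]), h0]; rfl
  have ht1 := tyO 1 (by decide)
  have htb := tyE b he
  have hb1odd : Odd (b - 1) := he.sub_odd odd_one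
  have hb3odd : Odd (b - 3) := he.sub_odd (by decide)
  have hb2even : Even (b - 2) := he.sub even_two
  have ha01 : Γ.adj (a 0) (a 1) := ha.adj' (Or.inl rfl)
  have hab : Γ.adj (a b) (a (b - 1)) := ha.adj' (Or.inr (by ring))
  have ht0 : t • a 0 = a 0 := hL.fix ha htb (by omega) (by omega) ht
  have ht1' : t • a 1 = a 1 := hL.fix ha htb (by omega) (by omega) ht
  -- (3)
  rcases eq_or_lt_of_le hb with hb4 | hb5
  · subst hb4
    exact hc1 (Γ.sib (tyE 2 (by decide)) (ha.adj' (Or.inr (by norm_num))) (ha.adj' (Or.inl (by norm_num)))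
      (ha.ne' (Or.inl (by norm_num))) hcZ1 hcZb)
  -- (4): the vertex `ε`
  obtain ⟨ε, hε, hε1⟩ : ∃ ε, Γ.adj (a 0) ε ∧ ε ≠ a 1 :=
    ⟨a (-1), ha.adj' (Or.inr (by norm_num)), ha.ne' (Or.inl (by norm_num))⟩
  have htε : Γ.ty ε = false := by rw [Γ.adj_ty hε, h0]; rfl
  have hupε := Γ.Z_up htε (Γ.symm hε)
  have hnotε : ∀ w ∈ Γ.Z ε, w ≠ 1 → w ∉ Γ.Q (a b) := fun w hw hw1 hwQ =>
    hw1 (Γ.sib h0 hε ha01 hε1 hw (h1 w (hupε hw) hwQ))
  -- arcs through `δ, ε`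
  have harc : ∀ δ, Γ.adj ε δ → δ ≠ a 0 → ∃ a2 : ℤ → V, Γ.Arc a2 ∧ (∀ i, 0 ≤ i → a2 i = a i) ∧ a2 (-1) = ε ∧ a2 (-2) = δ := by
    intro δ hδ hδ0
    obtain ⟨a1, ha1, h2, h3⟩ := ha.branch_left (n := 0) hε (by simpa using hε1)
    rw [zero_sub] at h3
    obtain ⟨a2, ha2, h4, h5⟩ := ha1.branch_left (n := -1) (w := δ) (by rw [h3]; exact hδ) (by
      rw [show (-1 : ℤ) + 1 = 0 by norm_num, h2 0 le_rfl]; exact hδ0)
    refine ⟨a2, ha2, fun i hi => ?_, ?_, ?_⟩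
    · rw [h4 i (by omega), h2 i hi]
    · rw [h4 (-1) le_rfl, h3]
    · rw [show (-1 : ℤ) - 1 = -2 by norm_num] at h5; exact h5
  have htδ : ∀ δ, Γ.adj ε δ → Γ.ty δ = true := fun δ hδ => by rw [Γ.adj_ty hδ, htε]; rfl
  -- Claim A
  have claimA : ∀ δ, Γ.adj ε δ → Γ.Z δ ≤ Γ.Q (a (b - 2)) := by
    intro δ hδ
    by_cases hδ0 : δ = a 0
    · rw [hδ0]; exact hL.le ha (i := 0) h0 (by omega) (by omega)
    obtain ⟨a2, ha2, h2, h3, h4⟩ := harc δ hδ hδ0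
    by_contra hno
    obtain ⟨-, -, -, -, -, -, -, c', hc', hc1', hcb'⟩ := Γ.ev_crit hb he hL (ha2.shift (-2))
      (by change Γ.ty (a2 (0 + -2)) = true; rw [zero_add, h4]; exact htδ δ hδ)
      (by
        change ¬ Γ.Z (a2 (0 + -2)) ≤ Γ.Q (a2 (b + -2))
        rw [zero_add, h4, h2 (b + -2) (by omega)]
        exact hno)
    change c' ∈ Γ.Z (a2 (1 + -2)) at hc1'
    change c' ∈ Γ.Z (a2 (b - 1 + -2)) at hcb'
    rw [show (1 : ℤ) + -2 = -1 by norm_num, h3] at hc1'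
    rw [h2 (b - 1 + -2) (by omega), show b - 1 + -2 = b - 3 by ring] at hcb'
    exact hnotε c' hc1' hc' (hL.le2 hb1 ha (i := b - 3) (j := b) (tyO _ hb3odd) (by omega) (by omega) hcb')
  -- Claim B
  have claimB : ∃ δ, Γ.adj ε δ ∧ ∃ v ∈ Γ.Z δ, v ∉ Γ.Q (a (b - 1)) := by
    by_contra hcon
    push Not at hcon
    let N : Subgroup G := Subgroup.closure {g | ∃ δ, Γ.adj ε δ ∧ g ∈ Γ.Z δ}
    have hZN : ∀ δ, Γ.adj ε δ → Γ.Z δ ≤ N := fun δ hδ g hg => Subgroup.subset_closure ⟨δ, hδ, hg⟩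
    have hNQ : N ≤ Γ.Q (a (b - 1)) := by
      rw [Subgroup.closure_le]
      rintro g ⟨δ, hδ, hg⟩
      exact hcon δ hδ g hg
    have hNfix : ∀ n ∈ N, n • a 0 = a 0 ∧ n • ε = ε := by
      have : N ≤ stabilizer G (a 0) ⊓ stabilizer G ε := by
        rw [Subgroup.closure_le]
        rintro g ⟨δ, hδ, hg⟩
        by_cases hδ0 : δ = a 0
        · subst hδ0
          refine ⟨?_, ?_⟩
          · exact Γ.Z_fix hg
          · exact Γ.Q_fix' (hL.Z_le_Q hb1 g hg) hε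
        · obtain ⟨a2, ha2, h2, h3, h4⟩ := harc δ hδ hδ0
          refine ⟨?_, ?_⟩
          · have := hL.fix ha2 (i := -2) (j := 0) (by rw [h4]; exact htδ δ hδ) (by omega) (by omega) (x := g) (by rw [h4]; exact hg)
            rwa [h2 0 le_rfl] at this
          · have := hL.fix ha2 (i := -2) (j := -1) (by rw [h4]; exact htδ δ hδ) (by omega) (by omega) (x := g) (by rw [h4]; exact hg)
            rwa [h3] at this
      intro n hn'
      exact this hn'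
    have hNconj : ∀ g : G, g • ε = ε → ∀ n ∈ N, g * n * g⁻¹ ∈ N := by
      intro g hg n hn'
      have : N ≤ N.comap (MulAut.conj g).toMonoidHom := by
        rw [Subgroup.closure_le]
        rintro w ⟨δ, hδ, hw⟩
        change g * w * g⁻¹ ∈ N
        exact hZN (g • δ) (Γ.adj_of_fix hg hδ) (Γ.Z_conj g hw)
      exact this hn'
    have htN : ∀ n ∈ N, t * n * t⁻¹ ∈ N := by
      intro n hn'
      have hnQ := hNQ hn'
      have htt : t⁻¹ = t := inv_eq_of_mul_eq_one_left (hL.Z_sq hb1 ht)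
      have h2 := hL.comm_mem hb1 htb hab ht (Γ.Q_fix' hnQ (Γ.symm hab)) (Γ.Q_fix hnQ)
      have h3 : t * (n * t * n⁻¹) ∈ N := by
        have h4 : t * (n * t * n⁻¹) ∈ Γ.Z (a 1) := by
          by_cases h5 : t * (n * t * n⁻¹) = 1
          · rw [h5]; exact one_mem _
          · rw [htwo (tyO _ hb1odd) h2 hcZb h5 hc1]; exact hcZ1
        exact hZN (a 0) (Γ.symm hε) (Γ.Z_up ht1 (Γ.symm ha01) h4)
      have h4 : t * n * t⁻¹ = (t * (n * t * n⁻¹)) * n := by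
        rw [htt]; group
      rw [h4]
      exact N.mul_mem h3 hn'
    have hNbot : N = ⊥ := by
      apply Γ.faith' N hε hNfix
      · intro s _ hs n hn'
        exact hNconj s hs n hn'
      · refine ⟨t, ht0, ?_, htN⟩
        intro htε'
        exact htQ (Γ.mem_Q_of_fix ha01 hε hε1.symm ht0 ht1' htε')
      · obtain ⟨p, hp, hp1⟩ : ∃ p, Γ.adj ε p ∧ p ≠ a 0 := by
          obtain ⟨p, q, r, hpq, hpr, hqr, hall⟩ := Γ.nb ε
          by_cases hp : p = a 0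
          · exact ⟨q, (hall q).2 (Or.inr (Or.inl rfl)), fun h => hpq (hp.trans h.symm)⟩
          · exact ⟨p, (hall p).2 (Or.inl rfl), hp⟩
        obtain ⟨g, hg, hg'⟩ := Γ.loc (Γ.symm hε) hp
        exact ⟨g, hg, by rw [hg']; exact hp1, hNconj g hg⟩
    apply Γ.Z_ne (a 0)
    rw [eq_bot_iff, ← hNbot]
    exact hZN (a 0) (Γ.symm hε)
  obtain ⟨δ, hδ, v, hv, hvQ⟩ := claimB
  have hδ0 : δ ≠ a 0 := by
    rintro rfl
    exact hvQ (hL.le ha (i := 0) (j := b - 1) h0 (by omega) (by omega) hv)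
  obtain ⟨a2, ha2, h2, h3, h4⟩ := harc δ hδ hδ0
  have hvA := claimA δ hδ hv
  have hExF : Γ.Ex (b + 1) false := by
    refine ⟨fun i => a2 (i + -2), ha2.shift (-2), ?_, v, ?_, ?_⟩
    · change Γ.ty (a2 (b + 1 + -2)) = false
      rw [h2 _ (by omega), show b + 1 + -2 = b - 1 by ring]
      exact tyO _ hb1odd
    · intro i hi0 hi
      change v • a2 (i + -2) = a2 (i + -2)
      rcases lt_or_ge b i with hlt | hge
      · have : i = b + 1 := by omega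
        subst this
        rw [h2 _ (by omega), show b + 1 + -2 = b - 1 by ring]
        exact Γ.Q_fix' hvA (ha.adj' (Or.inl (by ring)))
      · exact hL.fix ha2 (i := -2) (j := i + -2) (by rw [h4]; exact htδ δ hδ) (by omega) (by omega) (by rw [h4]; exact hv)
    · change v • a2 (b + 1 + 1 + -2) ≠ a2 (b + 1 + 1 + -2)
      rw [h2 _ (by omega), show b + 1 + 1 + -2 = b by ring]
      intro hvb
      apply hvQ
      exact Γ.mem_Q_of_fix (v := a (b - 1)) (a := a (b - 2)) (b := a b) (ha.adj' (Or.inr (by ring))) (Γ.symm hab)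
        (ha.ne' (Or.inl (by ring))) (Γ.Q_fix' hvA (ha.adj' (Or.inl (by ring)))) (Γ.Q_fix hvA) hvb
  have hExT : Γ.Ex b true := by
    refine ⟨a, ha, htb, x, ?_, ?_⟩
    · intro i hi0 hi
      exact hL.fix ha h0 (by omega) (by omega) hx
    · intro hxb
      apply hxQ
      exact Γ.mem_Q_of_fix (v := a b) (a := a (b - 1)) (b := a (b + 1)) hab (ha.adj' (Or.inl rfl))
        (ha.ne' (Or.inl (by ring))) (hL.fix ha h0 (by omega) (by omega) hx) (hL.fix ha h0 (by omega) (by omega) hx) hxb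
  have hTr : Γ.Tr (b + 1) := by
    apply Γ.tr_of_ex
    rintro (_ | _)
    · exact hExF.mono Γ.toGr (by omega) (by omega)
    · exact hExT
  -- the third neighbour of `a (b - 2)`
  have hadj1 : Γ.adj (a (b - 2)) (a (b - 3)) := ha.adj' (Or.inr (by ring))
  have hadj2 : Γ.adj (a (b - 2)) (a (b - 1)) := ha.adj' (Or.inl (by ring))
  obtain ⟨w, hw, hw1, hw2, -⟩ := Γ.third hadj1 hadj2 (ha.ne' (Or.inl (by ring)))
  obtain ⟨g, hg, hg'⟩ := (hTr.mono Γ.toGr (m := (b - 3) + 1) (by omega)).rot Γ.toGr (n := b - 3) (by omega) (ha.shift 1) (w := w)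
    (by change Γ.adj (a (b - 3 + 1)) w; rw [show b - 3 + 1 = b - 2 by ring]; exact hw)
    (Or.inr (by change w ≠ a (b - 3 - 1 + 1); rw [show b - 3 - 1 + 1 = b - 3 by ring]; exact hw1))
  have hg1 : g • a 1 = a 1 := by
    have := hg 0 le_rfl (by omega)
    simpa using this
  change g • a (b - 3 + 1 + 1) = w at hg'
  rw [show b - 3 + 1 + 1 = b - 1 by ring] at hg'
  have hgc := Γ.Z_cen ht1 hcZ1 hg1
  have h5 : c ∈ Γ.Z w := by
    have h6 := Γ.Z_conj g hcZb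
    rw [hg', hgc] at h6
    rwa [mul_inv_cancel_right] at h6
  exact hc1 (Γ.sib (tyE _ hb2even) hadj2 hw hw2.symm hcZb h5)

end Geo

end Cfsg.Agent.H48.Ge
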