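import Cfsg.Agent.H48.GeO1

/-! PIECE O2: facts about `crit` (helper48 does this one). -/

set_option autoImplicit false

open MulAction

namespace Cfsg.Agent.H48.Ge

variable {G V : Type*} [Group G] [MulAction G V]

namespace Geo

variable {Γ : Geo G V} {b : ℤ}

/-- both forms of `crit` -/
theorem OH.crit_iff (h : Γ.OH b) {a : ℤ → V} {i : ℤ} (ha : Γ.Arc a) (hi : Γ.ty (a i) = false) :
    Γ.crit b a i ↔ ¬ Γ.Z (a (i + b)) ≤ Γ.Q (a i) := h.A a i ha hi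

/-- `crit` depends only on positions `i, …, i + b - 1` -/
theorem OH.crit_congr (h : Γ.OH b) {a a' : ℤ → V} {i : ℤ} (ha : Γ.Arc a) (ha' : Γ.Arc a')
    (hi : Γ.ty (a i) = false) (haa : ∀ j, i ≤ j → j ≤ i + b - 1 → a j = a' j)
    (hc : Γ.crit b a i) : Γ.crit b a' i := by
  have hb := h.hb
  obtain ⟨c, hc', h1, h2⟩ := ha.branch (n := i + b - 1) (w := a' (i + b))
    (by rw [haa _ (by omega) (by omega)]; exact ha'.adj' (Or.inl (by ring)))
    (by rw [haa (i + b - 1 - 1) (by omega) (by omega)]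
        exact (ha'.ne' (Or.inl (by ring))).symm)
  rw [show i + b - 1 + 1 = i + b by ring] at h2
  have h3 : Γ.crit b c i := by
    unfold crit
    rw [h1 _ (by omega), h1 _ (by omega)]
    exact hc
  have h4 := (h.crit_iff hc' (by rw [h1 _ (by omega)]; exact hi)).1 h3
  rw [h2, h1 _ (by omega), haa _ le_rfl (by omega)] at h4
  exact (h.crit_iff ha' (by rw [← haa _ le_rfl (by omega)]; exact hi)).2 h4

/-- conjugation invariance -/
theorem OH.crit_smul (_h : Γ.OH b) {a : ℤ → V} {i : ℤ} (_ha : Γ.Arc a)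
    (_hi : Γ.ty (a i) = false)
    (g : G) (hc : Γ.crit b a i) : Γ.crit b (fun j => g • a j) i := by
  intro hle
  apply hc
  intro x hx
  have := hle (Γ.Z_conj g hx)
  exact (Γ.Q_conj_iff g).1 this

/-- shift invariance -/
theorem OH.crit_shift (_h : Γ.OH b) {a : ℤ → V} {i k : ℤ} :
    Γ.crit b (fun j => a (j + k)) i ↔ Γ.crit b a (i + k) := by
  unfold crit
  simp only
  rw [show i - 1 + k = i + k - 1 by ring, show i + b - 1 + k = i + k + b - 1 by ring]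

/-- reversal: positions `i, …, i+b-1` reversed about `k` are `k-i-b+1, …, k-i` -/
theorem OH.crit_rev (h : Γ.OH b) {a : ℤ → V} {i k : ℤ} (ha : Γ.Arc a) (hi : Γ.ty (a i) = false)
    (hc : Γ.crit b a i) : Γ.crit b (fun j => a (k - j)) (k - i - b + 1) := by
  have := (h.crit_iff ha hi).1 hc
  unfold crit
  simp only
  rw [show k - (k - i - b + 1 - 1) = i + b by ring,
    show k - (k - i - b + 1 + b - 1) = i by ring]
  exact this

/-- existence of critical arcs starting with a given edge -/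
theorem OH.exists_crit (h : Γ.OH b) {β δ : V} (i : ℤ) (hβ : Γ.ty β = false) (hδ : Γ.adj β δ) :
    ∃ a : ℤ → V, Γ.Arc a ∧ a i = β ∧ a (i + 1) = δ ∧ Γ.crit b a i := by
  obtain ⟨a, ha, ht, hc⟩ := h.cr
  have ht1 : Γ.ty (a 1) = false := by
    have := ha.ty_succ 0
    rw [ht] at this
    simpa using this
  have hc1 : Γ.crit b a 1 := by
    unfold crit
    rw [show (1 : ℤ) - 1 = 0 by norm_num, show 1 + b - 1 = b by ring]
    exact hc
  obtain ⟨c, hc', c0, c1⟩ := Γ.exists_arc hδ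
  obtain ⟨g, hg⟩ := Γ.tr_one _ c (ha.shift 1) hc' (by rw [zero_add, ht1, c0, hβ])
  have g0 := hg 0 le_rfl (by norm_num)
  have g1 := hg 1 (by norm_num) le_rfl
  rw [c0, zero_add] at g0
  rw [c1] at g1
  refine ⟨fun j => g • a (j + (1 - i)), (ha.shift (1 - i)).smul g, ?_, ?_, ?_⟩
  · simp only
    rw [show i + (1 - i) = 1 by ring]; exact g0
  · simp only
    rw [show i + 1 + (1 - i) = 1 + 1 by ring]; exact g1
  · refine h.crit_smul (ha.shift (1 - i)) ?_ g ?_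
    · rw [show i + (1 - i) = 1 by ring]; exact ht1
    · rw [h.crit_shift, show i + (1 - i) = 1 by ring]
      exact hc1

/-- with enough transitivity all arcs are critical -/
theorem OH.crit_of_tr (h : Γ.OH b) (hT : Γ.Tr (b - 1)) {a : ℤ → V} {i : ℤ} (ha : Γ.Arc a)
    (hi : Γ.ty (a i) = false) : Γ.crit b a i := by
  obtain ⟨c, hc, c0, -, hcr⟩ := h.exists_crit i hi (ha.adj i)
  obtain ⟨g, hg⟩ := hT _ _ (hc.shift i) (ha.shift i) (by rw [zero_add, c0])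
  refine h.crit_congr (a := fun j => g • c j) (hc.smul g) ha
    (by rw [Γ.ty_smul, c0]; exact hi) ?_ (h.crit_smul hc (by rw [c0]; exact hi) g hcr)
  intro j h1 h2
  have := hg (j - i) (by omega) (by omega)
  simpa using this

/-- under `crit`: `Z (a (i-1)) ∩ Q (a (i+b-1)) = Z (a i)` -/
theorem OK.notMem (h : Γ.OK b) {a : ℤ → V} {i : ℤ} (ha : Γ.Arc a) (hi : Γ.ty (a i) = false)
    (hc : Γ.crit b a i) {x : G} (hx : x ∈ Γ.Z (a (i - 1))) (hx' : x ∉ Γ.Z (a i)) :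
    x ∉ Γ.Q (a (i + b - 1)) := by
  have hb := h.hb
  have hL := h.low
  have hZ : Γ.Z (a i) ≤ Γ.Q (a (i + b - 1)) := hL.le2 (by omega) ha hi (by omega) (by omega)
  obtain ⟨x₀, hx₀, hx₀'⟩ := Set.not_subset.1 hc
  have h1 : x₀ ∉ Γ.Z (a i) := fun e => hx₀' (hZ e)
  have hadj : Γ.adj (a i) (a (i - 1)) := ha.adj' (Or.inr (by ring))
  have ht : Γ.ty (a (i - 1)) = true := by rw [Γ.adj_ty hadj, hi]; rfl
  have h2 := h.k1.mul_mem h.toOH.low1 ht (Γ.symm hadj) hx hx' hx₀ h1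
  intro e
  apply hx₀'
  have h3 : x₀ = x⁻¹ * (x * x₀) := by group
  rw [h3]
  exact Subgroup.mul_mem _ (Subgroup.inv_mem _ e) (hZ h2)

theorem OK.notMem' (h : Γ.OK b) {a : ℤ → V} {i : ℤ} (ha : Γ.Arc a) (hi : Γ.ty (a i) = false)
    (hc : Γ.crit b a i) {y : G} (hy : y ∈ Γ.Z (a (i + b))) (hy' : y ∉ Γ.Z (a (i + b - 1))) :
    y ∉ Γ.Q (a i) := by
  have hb := h.hb
  have hL := h.low
  have ht1 : Γ.ty (a (i + b - 1)) = false := by
    rw [ha.ty_even (i := i) (by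
      obtain ⟨k, hk⟩ := h.odd
      exact ⟨k, by omega⟩), hi]
  have hZ : Γ.Z (a (i + b - 1)) ≤ Γ.Q (a i) := hL.le2 (by omega) ha ht1 (by omega) (by omega)
  have hc' := (h.toOH.crit_iff ha hi).1 hc
  obtain ⟨x₀, hx₀, hx₀'⟩ := Set.not_subset.1 hc'
  have h1 : x₀ ∉ Γ.Z (a (i + b - 1)) := fun e => hx₀' (hZ e)
  have hadj : Γ.adj (a (i + b - 1)) (a (i + b)) := ha.adj' (Or.inl (by ring))
  have ht : Γ.ty (a (i + b)) = true := by rw [Γ.adj_ty hadj, ht1]; rfl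
  have h2 := h.k1.mul_mem h.toOH.low1 ht (Γ.symm hadj) hy hy' hx₀ h1
  intro e
  apply hx₀'
  have h3 : x₀ = y⁻¹ * (y * x₀) := by group
  rw [h3]
  exact Subgroup.mul_mem _ (Subgroup.inv_mem _ e) (hZ h2)

theorem Z_conj_mem_iff {β : V} {g x : G} (hg : g • β = β) : g * x * g⁻¹ ∈ Γ.Z β ↔ x ∈ Γ.Z β := by
  constructor
  · intro e
    have := Γ.Z_conj g⁻¹ e
    rw [inv_smul_eq_iff.2 hg.symm] at this
    have h9 : g⁻¹ * (g * x * g⁻¹) * g⁻¹⁻¹ = x := by group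
    rwa [h9] at this
  · intro e
    have := Γ.Z_conj g e
    rwa [hg] at this

theorem comm_nb (hL : Γ.Low 3) {β δ₁ δ₂ : V} (hβ : Γ.ty β = false) (h1 : Γ.adj β δ₁)
    (h2 : Γ.adj β δ₂) {x y : G} (hx : x ∈ Γ.Z δ₁) (hy : y ∈ Γ.Z δ₂) : x * y = y * x := by
  by_cases he : δ₁ = δ₂
  · subst he; exact hL.Z_comm (by norm_num) hx hy
  · obtain ⟨a, ha, ha1, ha2, ha3⟩ := Γ.exists_arc3 0 h1 h2 he
    have ht : Γ.ty (a (0 - 1)) = true := by rw [ha1, Γ.adj_ty h1, hβ]; rfl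
    exact hL.comm ha (i := 0 - 1) (j := 0 + 1) ht (by norm_num) (by norm_num)
      (by rw [ha1]; exact hx) (by rw [ha3]; exact hy)

/-- the basic facts about `e = x * (y * x * y⁻¹) = (x y)²`, `x ∈ Z (a (i-1)) \ Z (a i)`,
`y ∈ Z (a (i+b)) \ Z (a (i+b-1))` -/
theorem OK.e_spec (h : Γ.OK b) {a : ℤ → V} {i : ℤ} (ha : Γ.Arc a) (hi : Γ.ty (a i) = false)
    (hc : Γ.crit b a i) {x y : G} (hx : x ∈ Γ.Z (a (i - 1))) (hx' : x ∉ Γ.Z (a i))
    (hy : y ∈ Γ.Z (a (i + b))) (hy' : y ∉ Γ.Z (a (i + b - 1))) :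
    y • a i = a i ∧ y • a (i + 1) = a (i + 1) ∧ Γ.adj (a i) (y • a (i - 1)) ∧
    y • a (i - 1) ≠ a (i - 1) ∧ y • a (i - 1) ≠ a (i + 1) ∧
    y * x * y⁻¹ ∈ Γ.Z (y • a (i - 1)) ∧ y * x * y⁻¹ ∉ Γ.Z (a i) ∧
    x * (y * x * y⁻¹) ∉ Γ.Z (a i) ∧
    x * (x * (y * x * y⁻¹)) = x * (y * x * y⁻¹) * x ∧
    y * (x * (y * x * y⁻¹)) = x * (y * x * y⁻¹) * y ∧
    (x * (y * x * y⁻¹)) * (x * (y * x * y⁻¹)) = 1 ∧
    x * (y * x * y⁻¹) = (x * y * x⁻¹) * y ∧
    x • a (i + b - 1) = a (i + b - 1) ∧ x • a (i + b - 2) = a (i + b - 2) ∧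
    Γ.adj (a (i + b - 1)) (x • a (i + b)) ∧ x • a (i + b) ≠ a (i + b) ∧
    x • a (i + b) ≠ a (i + b - 2) ∧ x * y * x⁻¹ ∈ Γ.Z (x • a (i + b)) := by
  have hb := h.hb
  have hL := h.low
  have hL3 : Γ.Low 3 := hL.mono hb
  have ht1 : Γ.ty (a (i + b - 1)) = false := by
    rw [ha.ty_even (i := i) (by
      obtain ⟨k, hk⟩ := h.odd
      exact ⟨k, by omega⟩), hi]
  have hadj1 : Γ.adj (a (i + b - 1)) (a (i + b)) := ha.adj' (Or.inl (by ring))
  have hadj2 : Γ.adj (a (i + b - 1)) (a (i + b - 2)) := ha.adj' (Or.inr (by ring))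
  have hadj3 : Γ.adj (a i) (a (i - 1)) := ha.adj' (Or.inr (by ring))
  have hadj4 : Γ.adj (a i) (a (i + 1)) := ha.adj' (Or.inl (by ring))
  have hty1 : Γ.ty (a (i + b)) = true := by rw [Γ.adj_ty hadj1, ht1]; rfl
  have hty2 : Γ.ty (a (i - 1)) = true := by rw [Γ.adj_ty hadj3, hi]; rfl
  have y1 : y • a i = a i := hL.fix ha hty1 (by omega) (by omega) hy
  have y2 : y • a (i + 1) = a (i + 1) := hL.fix ha hty1 (by omega) (by omega) hy
  have x1 : x • a (i + b - 1) = a (i + b - 1) := hL.fix ha hty2 (by omega) (by omega) hx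
  have x2 : x • a (i + b - 2) = a (i + b - 2) := hL.fix ha hty2 (by omega) (by omega) hx
  have hxQ := h.notMem ha hi hc hx hx'
  have hyQ := h.notMem' ha hi hc hy hy'
  have hn1 : a (i - 1) ≠ a (i + 1) := ha.ne' (Or.inl (by ring))
  have hn2 : a (i + b) ≠ a (i + b - 2) := ha.ne' (Or.inr (by ring))
  have hA : Γ.adj (a i) (y • a (i - 1)) := Γ.adj_of_fix y1 hadj3
  have hA' : Γ.adj (a (i + b - 1)) (x • a (i + b)) := Γ.adj_of_fix x1 hadj1
  have hB : y • a (i - 1) ≠ a (i - 1) := fun e =>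
    hyQ (Γ.mem_Q_of_fix hadj3 hadj4 hn1 y1 e y2)
  have hB' : x • a (i + b) ≠ a (i + b) := fun e =>
    hxQ (Γ.mem_Q_of_fix hadj1 hadj2 hn2 x1 e x2)
  have hC : y • a (i - 1) ≠ a (i + 1) := fun e =>
    hn1 (smul_left_cancel y (e.trans y2.symm))
  have hC' : x • a (i + b) ≠ a (i + b - 2) := fun e =>
    hn2 (smul_left_cancel x (e.trans x2.symm))
  have hD : y * x * y⁻¹ ∈ Γ.Z (y • a (i - 1)) := Γ.Z_conj y hx
  have hD' : x * y * x⁻¹ ∈ Γ.Z (x • a (i + b)) := Γ.Z_conj x hy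
  have hE : y * x * y⁻¹ ∉ Γ.Z (a i) := fun e => hx' ((Z_conj_mem_iff y1).1 e)
  have hxx := hL3.Z_sq (by norm_num) hx
  have hyy := hL3.Z_sq (by norm_num) hy
  have hxx' := hL3.Z_sq (by norm_num) hD
  have hxi : x⁻¹ = x := inv_eq_of_mul_eq_one_left hxx
  have hyi : y⁻¹ = y := inv_eq_of_mul_eq_one_left hyy
  have hF : x * (y * x * y⁻¹) ∉ Γ.Z (a i) := by
    intro e
    apply hE
    refine h.k1.inter h.toOH.low1 hi hadj3 hA hB.symm ?_ hD
    have h4 : y * x * y⁻¹ = x⁻¹ * (x * (y * x * y⁻¹)) := by group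
    rw [h4]
    exact Subgroup.mul_mem _ (Subgroup.inv_mem _ hx) (Γ.Z_up hi hadj3 e)
  have hcx := comm_nb hL3 hi hadj3 hA hx hD
  have hG : x * (x * (y * x * y⁻¹)) = x * (y * x * y⁻¹) * x := by
    rw [mul_assoc x (y * x * y⁻¹) x, ← hcx]
  have hH : x * (y * x * y⁻¹) = (x * y * x⁻¹) * y := by
    rw [hxi, hyi]; group
  have hcy := comm_nb hL3 ht1 hadj1 hA' hy hD'
  have hI : y * (x * (y * x * y⁻¹)) = x * (y * x * y⁻¹) * y := by
    rw [hH, ← mul_assoc, hcy]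
  have hJ : (x * (y * x * y⁻¹)) * (x * (y * x * y⁻¹)) = 1 := by
    calc (x * (y * x * y⁻¹)) * (x * (y * x * y⁻¹))
        = (x * (y * x * y⁻¹) * x) * (y * x * y⁻¹) := by group
      _ = (x * (x * (y * x * y⁻¹))) * (y * x * y⁻¹) := by rw [hG]
      _ = (x * x) * ((y * x * y⁻¹) * (y * x * y⁻¹)) := by group
      _ = 1 := by rw [hxx, hxx', one_mul]
  exact ⟨y1, y2, hA, hB, hC, hD, hE, hF, hG, hI, hJ, hH, x1, x2, hA', hB', hC', hD'⟩

/-- some `n ∈ Q β ∩ Q γ`, `n ∉ Q δ`, for every ordered pair of neighbours of a type-2 vertex -/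
theorem OK.QQ (h : Γ.OK b) {β γ δ : V} (hβ : Γ.ty β = false) (h1 : Γ.adj β γ) (h2 : Γ.adj β δ)
    (hne : γ ≠ δ) : ∃ n ∈ Γ.Q β, n ∈ Γ.Q γ ∧ n ∉ Γ.Q δ := by
  have hb := h.hb
  have hL := h.low
  have hL3 : Γ.Low 3 := hL.mono hb
  have hL1 := h.toOH.low1
  obtain ⟨l, h3, hl1, hl2, -⟩ := Γ.third h1 h2 hne
  obtain ⟨a, ha, a0, a1, hc⟩ := h.toOH.exists_crit 0 hβ h3
  rw [zero_add] at a1
  have hi : Γ.ty (a 0) = false := by rw [a0]; exact hβ
  have hodd := h.odd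
  have ht1 : Γ.ty (a (0 + b - 1)) = false := by
    rw [ha.ty_even (i := 0) (by
      obtain ⟨k, hk⟩ := hodd
      exact ⟨k, by omega⟩), hi]
  have hadj1 : Γ.adj (a (0 + b - 1)) (a (0 + b)) := ha.adj' (Or.inl (by ring))
  have hadj3 : Γ.adj (a 0) (a (0 - 1)) := ha.adj' (Or.inr (by ring))
  have hty1 : Γ.ty (a (0 + b)) = true := by rw [Γ.adj_ty hadj1, ht1]; rfl
  have hty2 : Γ.ty (a (0 - 1)) = true := by rw [Γ.adj_ty hadj3, hi]; rfl
  -- elements x, y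
  have ex : ∀ {μ τ : V}, Γ.ty μ = true → Γ.adj μ τ → ∃ y ∈ Γ.Z μ, y ∉ Γ.Z τ := by
    intro μ τ hμ hτ
    obtain ⟨ε, hε, hne'⟩ := Γ.exists_nb_ne τ μ
    have hε2 : Γ.ty ε = false := by rw [Γ.adj_ty hε, hμ]; rfl
    exact ⟨Γ.z ε, Γ.Z_up hε2 (Γ.symm hε) (Γ.z_mem ε), fun e =>
      Γ.z_ne ε (Γ.sib hμ hε hτ hne' (Γ.z_mem ε) e)⟩
  obtain ⟨x, hx, hx'⟩ := ex hty2 (Γ.symm hadj3)
  obtain ⟨y, hy, hy'⟩ := ex hty1 (Γ.symm hadj1)
  have hyQ := h.notMem' ha hi hc hy hy'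
  obtain ⟨s1, s2, s3, s4, s5, s6, s7, s8, s9, s10, s11, s12, s13, s14, s15, s16, s17, s18⟩ :=
    h.e_spec ha hi hc hx hx' hy hy'
  rw [zero_add, a1] at s2 s5
  rw [a0] at s1 s3 s7 s8 hx' hyQ hadj3
  have hm1 : a (0 - 1) ≠ l := by
    have := ha.ne' (i := 0 - 1) (j := 1) (Or.inl (by norm_num))
    rwa [a1] at this
  set α := a (0 - 1) with hα
  set x' := y * x * y⁻¹ with hx'def
  set e := x * x' with he
  have hxQ : x ∈ Γ.Q l := by
    obtain ⟨c, hc1, c1, c2, c3⟩ := Γ.exists_arc3 0 hadj3 h3 hm1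
    have := hL3.le hc1 (i := 0 - 1) (j := 0 + 1) (by rw [c1]; exact hty2) (by norm_num)
      (by norm_num)
    rw [c1, c3] at this
    exact this hx
  have hx'Q : x' ∈ Γ.Q l := by
    obtain ⟨c, hc1, c1, c2, c3⟩ := Γ.exists_arc3 0 s3 h3 s5
    have := hL3.le hc1 (i := 0 - 1) (j := 0 + 1) (by rw [c1, Γ.ty_smul]; exact hty2)
      (by norm_num) (by norm_num)
    rw [c1, c3] at this
    exact this s6
  have heQ : e ∈ Γ.Q l := Subgroup.mul_mem _ hxQ hx'Q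
  obtain ⟨n, hn, hne2⟩ : ∃ n ∈ Γ.Q β, n * e ≠ e * n := by
    by_contra hcon
    push Not at hcon
    apply s8
    refine Γ.Z_om hβ h3 (Γ.Q_fix' heQ (Γ.symm h3)) (Γ.Q_fix heQ) s11 ?_
    intro s hs hs'
    by_cases hsQ : s ∈ Γ.Q β
    · exact hcon s hsQ
    · have hyi : y⁻¹ ∉ Γ.Q β := fun e => hyQ (by simpa using Subgroup.inv_mem _ e)
      have hq : y⁻¹ * s ∈ Γ.Q β := Γ.mul_mem_Q h3 (inv_smul_eq_iff.2 s1.symm)
        (inv_smul_eq_iff.2 s2.symm) hyi hs hs' hsQ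
      have h4 := hcon _ hq
      calc s * e = y * ((y⁻¹ * s) * e) := by group
        _ = y * (e * (y⁻¹ * s)) := by rw [h4]
        _ = (y * e) * (y⁻¹ * s) := by group
        _ = (e * y) * (y⁻¹ * s) := by rw [s10]
        _ = e * s := by group
  have hxx := hL3.Z_sq (by norm_num) hx
  have hxx' := hL3.Z_sq (by norm_num) s6
  have htα' : Γ.ty (y • α) = true := by rw [Γ.ty_smul]; exact hty2
  have one : ∀ {μ : V} {p : G}, Γ.ty μ = true → Γ.adj β μ → p ∈ Γ.Z μ → p ∉ Γ.Z β →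
      n ∉ Γ.Q μ → n * p * n⁻¹ = p * Γ.z β := by
    intro μ p hμ hβμ hp hp' hnQ
    have h4 := hL3.comm_mem (by norm_num) hμ (Γ.symm hβμ) hp (Γ.Q_fix' hn hβμ) (Γ.Q_fix hn)
    have hpp := hL3.Z_sq (by norm_num) hp
    have h6 : n * p * n⁻¹ = p * (p * (n * p * n⁻¹)) := by
      rw [← mul_assoc p p, hpp, one_mul]
    rcases h.k1.eq hβ h4 with h5 | h5
    · exfalso
      apply hp'
      refine hL3.mem_of_comm (by norm_num) hμ (Γ.symm hβμ) hp (Γ.Q_fix' hn hβμ) (Γ.Q_fix hn) hnQ ?_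
      rw [h5, mul_one] at h6
      calc n * p = (n * p * n⁻¹) * n := by group
        _ = p * n := by rw [h6]
    · rw [h6, h5]
  have two : (n ∈ Γ.Q α ∧ n ∉ Γ.Q (y • α)) ∨ (n ∈ Γ.Q (y • α) ∧ n ∉ Γ.Q α) := by
    by_cases g1 : n ∈ Γ.Q α <;> by_cases g2 : n ∈ Γ.Q (y • α)
    · exfalso
      apply hne2
      have c1 := Γ.Q_comm g1 hx
      have c2 := Γ.Q_comm g2 s6
      calc n * e = (n * x) * x' := by rw [he]; group
        _ = x * (n * x') := by rw [c1]; group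
        _ = x * (x' * n) := by rw [c2]
        _ = e * n := by rw [he]; group
    · exact Or.inl ⟨g1, g2⟩
    · exact Or.inr ⟨g2, g1⟩
    · exfalso
      apply hne2
      have c1 := one hty2 hadj3 hx hx' g1
      have c2 := one htα' s3 s6 s7 g2
      have hzz := Γ.Z_sq2 hβ (Γ.z_mem β)
      have c3 : x' * Γ.z β = Γ.z β * x' :=
        Γ.Z_cen hβ (Γ.z_mem β) (Γ.Q_fix' hx'Q (Γ.symm h3))
      have : n * e * n⁻¹ = e := by
        calc n * e * n⁻¹ = (n * x * n⁻¹) * (n * x' * n⁻¹) := by rw [he]; group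
          _ = (x * Γ.z β) * (x' * Γ.z β) := by rw [c1, c2]
          _ = x * (Γ.z β * x') * Γ.z β := by group
          _ = x * (x' * Γ.z β) * Γ.z β := by rw [c3]
          _ = x * x' * (Γ.z β * Γ.z β) := by group
          _ = e := by rw [hzz, mul_one]
      calc n * e = (n * e * n⁻¹) * n := by group
        _ = e * n := by rw [this]
  -- transfer
  have hyi : y⁻¹ = y := inv_eq_of_mul_eq_one_left (hL3.Z_sq (by norm_num) hy)
  have hyy : y • y • α = α := by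
    rw [← mul_smul, hL3.Z_sq (by norm_num) hy, one_smul]
  have cases1 : ∀ {p q : V}, Γ.adj β p → Γ.adj β q → p ≠ q → p ≠ l → q ≠ l →
      (p = α ∧ q = y • α) ∨ (p = y • α ∧ q = α) := by
    intro p q hp hq hpq hpl hql
    have c1 := Γ.nb_cases hadj3 s3 h3 s4.symm hm1 s5 hp
    have c2 := Γ.nb_cases hadj3 s3 h3 s4.symm hm1 s5 hq
    rcases c1 with c1 | c1 | c1 <;> rcases c2 with c2 | c2 | c2
    · exact absurd (c1.trans c2.symm) hpq
    · exact Or.inl ⟨c1, c2⟩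
    · exact absurd c2 hql
    · exact Or.inr ⟨c1, c2⟩
    · exact absurd (c1.trans c2.symm) hpq
    · exact absurd c2 hql
    · exact absurd c1 hpl
    · exact absurd c1 hpl
    · exact absurd c1 hpl
  have conjy : ∀ {μ : V}, n ∈ Γ.Q μ ↔ y * n * y⁻¹ ∈ Γ.Q (y • μ) := fun {μ} =>
    (Γ.Q_conj_iff y).symm
  have hnβ : y * n * y⁻¹ ∈ Γ.Q β := Γ.Q_conj' s1 hn
  rcases cases1 h1 h2 hne hl1.symm hl2.symm with ⟨rfl, rfl⟩ | ⟨rfl, rfl⟩
  · rcases two with ⟨t1, t2⟩ | ⟨t1, t2⟩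
    · exact ⟨n, hn, t1, t2⟩
    · refine ⟨y * n * y⁻¹, hnβ, ?_, ?_⟩
      · have := conjy.1 t1
        rwa [hyy] at this
      · exact fun g => t2 (conjy.2 g)
  · rcases two with ⟨t1, t2⟩ | ⟨t1, t2⟩
    · refine ⟨y * n * y⁻¹, hnβ, conjy.1 t1, ?_⟩
      intro g
      apply t2
      rw [conjy, hyy]
      exact g
    · exact ⟨n, hn, t1, t2⟩

theorem OK.tr4 (h : Γ.OK b) : Γ.Tr 4 := by
  have hb := h.hb
  refine Γ.tr_of_ex (n := 3) ?_
  intro τ
  cases τ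
  · obtain ⟨a, ha, ht, hc⟩ := h.cr
    have htb : Γ.ty (a b) = false := by
      rw [ha.ty_odd (i := 0) (j := b) (by simpa using h.odd), ht]; rfl
    have hE : Γ.Ex b false := by
      obtain ⟨x, hx, hxQ⟩ := Set.not_subset.1 hc
      have fx : ∀ j, 0 ≤ j → j ≤ b → x • a j = a j := fun j h0 hj =>
        h.low.fix ha (i := 0) ht (by omega) (by omega) hx
      refine ⟨a, ha, htb, x, fx, ?_⟩
      intro e
      exact hxQ (Γ.mem_Q_of_fix (v := a b) (a := a (b - 1)) (b := a (b + 1))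
        (ha.adj' (Or.inr (by ring))) (ha.adj b) (ha.ne' (Or.inl (by ring))) (fx b (by omega) le_rfl)
        (fx (b - 1) (by omega) (by omega)) e)
    exact Gr.Ex.mono _ hE (by norm_num) hb
  · obtain ⟨a, ha, ht, -⟩ := h.cr
    have ht1 : Γ.ty (a 1) = false := by
      have := ha.ty_succ 0
      rw [ht] at this
      simpa using this
    -- shift: positions 0..3 = a (-1) .. a 2
    have hadj1 : Γ.adj (a 1) (a 0) := ha.adj' (Or.inr (by ring))
    have hadj2 : Γ.adj (a 1) (a 2) := ha.adj' (Or.inl (by ring))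
    have hne : a 0 ≠ a 2 := ha.ne' (Or.inl (by ring))
    obtain ⟨n, hn, hn1, hn2⟩ := h.QQ ht1 hadj1 hadj2 hne
    have ht2 : Γ.ty (a 2) = true := by rw [Γ.adj_ty hadj2, ht1]; rfl
    refine ⟨fun j => a (j + (-1)), ha.shift (-1), by norm_num; exact ht2, n, ?_, ?_⟩
    · intro j h0 h3
      simp only
      have : j + -1 = -1 ∨ j + -1 = 0 ∨ j + -1 = 1 ∨ j + -1 = 2 := by omega
      rcases this with e | e | e | e <;> rw [e]
      · exact Γ.Q_fix' hn1 (ha.adj' (Or.inr (by ring)))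
      · exact Γ.Q_fix hn1
      · exact Γ.Q_fix hn
      · exact Γ.Q_fix' hn hadj2
    · intro e
      norm_num at e
      exact hn2 (Γ.mem_Q_of_fix (v := a 2) (a := a 1) (b := a 3) (Γ.symm hadj2)
        (ha.adj' (Or.inl (by ring))) (ha.ne' (Or.inl (by ring))) (Γ.Q_fix' hn hadj2) (Γ.Q_fix hn) e)

end Geo

end Cfsg.Agent.H48.Ge
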