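import Cfsg.Agent.H48.GeO2

/-! PIECE O3: the dichotomy and the shift lemma (C1).

`tr_of_not_Hp`: ¬Hp gives an arc a (ty (a 0) = true), n ≥ 0 even, x ∈ Z (a 0) fixing a 0, …, a n and
x ∉ Q (a n); by Low n ≥ b, so n ≥ b+1 (b odd); x fixes a (n-1), a n, hence moves a (n+1):
`Ex n true`, so `Ex b true` (Ex.mono). `h.cr` gives `Ex b false`. tr_of_ex: Tr (b+1).

`OK.C1`: every critical arc (positions i, …, i+b-1) can be extended to the left so that the
shift by 2 is critical.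
 If ¬Hp: Tr (b+1), all arcs are critical (crit_of_tr), take a' = a.
 If Hp: WLOG i = 1 (shift). Suppose no arc a' with a' j = a j (j ≥ 0) has crit b a' (-1), i.e. for
 all such a': Z (a' (-2)) ≤ Q (a' (b-2)). Let y ∈ Z (a (b+1)) \ Z (a b) (∉ Q (a 1), notMem'). Let
 W = closure {v | ∃ ε λ, adj (a 0) ε ∧ adj ε λ ∧ v ∈ Z λ}. Then `faith'` on the edge (a 0, a 1) with
 N = W gives W = ⊥, contradiction to Z_ne. Need: W fixes a 0, a 1 (Low: distances ≤ 3), W is
 normalized by G_{a 0}, and y (fixes a 1 and moves a 0) normalizes W: let v ∈ Z λ, λ ∈ Δ(ε).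
  - ε = a 1: y v y⁻¹ ∈ Z (y • λ), y • λ ∈ Δ(a 1). OK. (this covers λ = a 0 for any ε.)
  - ε ≠ a 1, λ ≠ a 0: arc a' with a' (-1) = ε, a' (-2) = λ, a' j = a j for j ≥ 0 (branch_left
    twice). v ∈ Q (a (b-2)), so v fixes a' (-2), …, a (b-1); by Hp (even length b+1)
    v ∈ Q (a (b-1)), so v fixes a b. z ε ∈ Z (a 0), z ε ∉ Z (a 1), so z ε ∉ Q (a b) (notMem); z ε ∈ Z λ.
    v' := v if v ∈ Q (a b), else v * z ε (∈ Q (a b) by mul_mem_Q); v' ∈ Z λ fixes λ, …, a (b+1), so
    v' ∈ Q (a (b+1)) by Hp (length b+3), so v' commutes with y (Q_comm). As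
    y (z ε) y⁻¹ ∈ Z (y • a 0) ≤ W, y v y⁻¹ ∈ W. -/

set_option autoImplicit false

open MulAction

namespace Cfsg.Agent.H48.Ge

variable {G V : Type*} [Group G] [MulAction G V]

namespace Geo

variable {Γ : Geo G V} {b : ℤ}

theorem OH.tr_of_not_Hp (h : Γ.OH b) (hn : ¬ Hp Γ) : Γ.Tr (b + 1) := by
  have hb := h.hb
  have hodd := h.odd
  refine Γ.tr_of_ex ?_
  intro τ
  cases τ
  · obtain ⟨a, ha, ht, hZ⟩ := h.cr
    obtain ⟨x, hx, hxQ⟩ := SetLike.not_le_iff_exists.1 hZ
    have hfix : ∀ i, 0 ≤ i → i ≤ b → x • a i = a i := fun i h0 hi =>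
      h.low.fix ha ht (by omega) (by omega) hx
    refine ⟨a, ha, ?_, x, hfix, ?_⟩
    · rw [ha.ty_odd (i := 0) (j := b) (by simpa using hodd), ht]; rfl
    · intro e
      exact hxQ (Γ.mem_Q_of_fix (v := a b) (a := a (b - 1)) (b := a (b + 1))
        (ha.adj' (Or.inr (by ring))) (ha.adj b) (ha.ne' (Or.inl (by ring)))
        (hfix b (by omega) le_rfl) (hfix (b - 1) (by omega) (by omega)) e)
  · unfold Hp at hn
    push Not at hn
    obtain ⟨a, ha, ht, n, hn0, hne, x, hx, hfix, hxQ⟩ := hn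
    have hnb : b ≤ n := by
      by_contra hlt
      exact hxQ (h.low a ha ht n hn0 (by omega) hx)
    have h1 : Γ.Ex n true := by
      refine ⟨a, ha, ?_, x, hfix, ?_⟩
      · rw [ha.ty_even (i := 0) (j := n) (by simpa using hne), ht]
      · intro e
        exact hxQ (Γ.mem_Q_of_fix (v := a n) (a := a (n - 1)) (b := a (n + 1))
          (ha.adj' (Or.inr (by ring))) (ha.adj n) (ha.ne' (Or.inl (by ring)))
          (hfix n (by omega) le_rfl) (hfix (n - 1) (by omega) (by omega)) e)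
    have h0b : 0 ≤ b := by omega
    exact Gr.Ex.mono Γ.toGr h1 h0b hnb

/-- type-1 centres are in `Q` at distance 2 -/
theorem Low.nearQ (h : Γ.Low b) (hb : 3 ≤ b) {u ε l : V} (hl : Γ.ty l = true) (h1 : Γ.adj u ε)
    (h2 : Γ.adj ε l) : Γ.Z l ≤ Γ.Q u := by
  by_cases hul : u = l
  · subst hul
    exact fun x hx => h.Z_le_Q (by omega) x hx
  · obtain ⟨a, ha, e1, e2, e3⟩ := Γ.exists_arc3 0 (u := l) (v := ε) (w := u) h2 (Γ.symm h1)
      (Ne.symm hul)
    have h3 := h.le ha (i := 0 - 1) (j := 0 + 1) (by rw [e1]; exact hl) (by omega) (by omega)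
    rwa [e1, e3] at h3

/-- left shift -/
theorem OK.C1 (h : Γ.OK b) (hb : 5 ≤ b) {a : ℤ → V} {i : ℤ} (ha : Γ.Arc a)
    (hi : Γ.ty (a i) = false) (hc : Γ.crit b a i) :
    ∃ a' : ℤ → V, Γ.Arc a' ∧ (∀ j, i - 1 ≤ j → a' j = a j) ∧ Γ.crit b a' (i - 2) := by
  have hodd := h.odd
  by_cases hHp : Hp Γ
  swap
  · have hT := h.toOH.tr_of_not_Hp hHp
    refine ⟨a, ha, fun _ _ => rfl, h.toOH.crit_of_tr (Gr.Tr.mono Γ.toGr hT (by omega)) ha ?_⟩
    rw [ha.ty_even (i := i) (j := i - 2) ⟨-1, by ring⟩, hi]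
  by_contra hcon
  push Not at hcon
  have hno : ∀ a' : ℤ → V, Γ.Arc a' → (∀ j, i - 1 ≤ j → a' j = a j) →
      Γ.Z (a' (i - 3)) ≤ Γ.Q (a (i + b - 3)) := by
    intro a' ha' haa
    have h1 := hcon a' ha' haa
    unfold crit at h1
    rw [not_not, show i - 2 - 1 = i - 3 by ring, show i - 2 + b - 1 = i + b - 3 by ring,
      haa (i + b - 3) (by omega)] at h1
    exact h1
  have hu : Γ.ty (a (i - 1)) = true := by
    have := ha.ty_succ (i - 1)
    rw [show i - 1 + 1 = i by ring, hi] at this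
    simpa using this.symm
  have hib : Γ.ty (a (i + b)) = true := by
    rw [ha.ty_odd (i := i) (j := i + b) (by simpa using hodd), hi]; rfl
  have hib1 : Γ.ty (a (i + b - 1)) = false := by
    rw [ha.ty_even (i := i) (j := i + b - 1)
      (by rw [show i + b - 1 - i = b - 1 by ring]; exact hodd.sub_odd odd_one), hi]
  have huv : Γ.adj (a (i - 1)) (a i) := ha.adj' (Or.inl (by ring))
  -- the element `y`
  obtain ⟨y, hy, hy'⟩ : ∃ y ∈ Γ.Z (a (i + b)), y ∉ Γ.Z (a (i + b - 1)) := by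
    obtain ⟨y, hy, hy1⟩ := Γ.exists_ne_one (a (i + b + 1))
    have hib2 : Γ.ty (a (i + b + 1)) = false := by rw [ha.ty_succ, hib]; rfl
    refine ⟨y, Γ.Z_up hib2 (ha.adj' (Or.inr rfl)) hy, fun hy2 => hy1 ?_⟩
    exact Γ.sib hib (ha.adj' (Or.inl rfl)) (ha.adj' (Or.inr (by ring))) (ha.ne' (Or.inr (by ring)))
      hy hy2
  have hyQ : y ∉ Γ.Q (a i) := h.notMem' ha hi hc hy hy'
  have hyfix : ∀ j, i ≤ j → j ≤ i + b → y • a j = a j := fun j h0 h1 =>
    h.low.fix ha hib (by omega) (by omega) hy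
  have hyu : y • a (i - 1) ≠ a (i - 1) := by
    intro e
    exact hyQ (Γ.mem_Q_of_fix (v := a i) (a := a (i + 1)) (b := a (i - 1))
      (ha.adj i) (Γ.symm huv) (ha.ne' (Or.inr (by ring)))
      (hyfix i le_rfl (by omega)) (hyfix (i + 1) (by omega) (by omega)) e)
  -- the subgroup `W`
  set S : Set G := {v | ∃ ε l, Γ.adj (a (i - 1)) ε ∧ Γ.adj ε l ∧ v ∈ Γ.Z l} with hS
  set W := Subgroup.closure S with hW
  have hconj : ∀ t : G, (∀ v ∈ S, t * v * t⁻¹ ∈ W) → ∀ n ∈ W, t * n * t⁻¹ ∈ W := by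
    intro t ht
    have h1 : W ≤ W.comap (MulAut.conj t).toMonoidHom := by
      rw [hW, Subgroup.closure_le]
      intro v hv
      exact ht v hv
    exact fun n hn => h1 hn
  have hl_ty : ∀ ε l, Γ.adj (a (i - 1)) ε → Γ.adj ε l → Γ.ty l = true := by
    intro ε l h1 h2
    rw [Γ.adj_ty h2, Γ.adj_ty h1, hu]; rfl
  have hWQ : W ≤ Γ.Q (a (i - 1)) := by
    rw [hW, Subgroup.closure_le]
    rintro v ⟨ε, l, h1, h2, hv⟩
    exact h.low.nearQ (by omega) (hl_ty ε l h1 h2) h1 h2 hv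
  have hZW : Γ.Z (a (i - 1)) ≤ W := fun x hx =>
    Subgroup.subset_closure ⟨a i, a (i - 1), huv, Γ.symm huv, hx⟩
  have hWbot : W = ⊥ := by
    refine Γ.faith' W huv ?_ ?_ ?_ ?_
    · intro n hn
      exact ⟨Γ.Q_fix (hWQ hn), Γ.Q_fix' (hWQ hn) huv⟩
    · intro t ht _
      refine hconj t ?_
      rintro v ⟨ε, l, h1, h2, hv⟩
      refine Subgroup.subset_closure ⟨t • ε, t • l, ?_, Γ.adj_smul t h2, Γ.Z_conj t hv⟩
      have := Γ.adj_smul t h1
      rwa [ht] at this
    · obtain ⟨g, hg, hg'⟩ := Γ.loc huv (ha.adj' (i := i - 1) (j := i - 2) (Or.inr (by ring)))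
      refine ⟨g, hg, by rw [hg']; exact ha.ne' (Or.inl (by ring)), hconj g ?_⟩
      rintro v ⟨ε, l, h1, h2, hv⟩
      refine Subgroup.subset_closure ⟨g • ε, g • l, ?_, Γ.adj_smul g h2, Γ.Z_conj g hv⟩
      have := Γ.adj_smul g h1
      rwa [hg] at this
    · refine ⟨y, hyfix i le_rfl (by omega), hyu, hconj y ?_⟩
      have hya : ∀ l, Γ.adj (a i) l → ∀ v ∈ Γ.Z l, y * v * y⁻¹ ∈ W := by
        intro l hl v hv
        refine Subgroup.subset_closure ⟨a i, y • l, huv, ?_, Γ.Z_conj y hv⟩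
        have := Γ.adj_smul y hl
        rwa [hyfix i le_rfl (by omega)] at this
      rintro v ⟨ε, l, h1, h2, hv⟩
      have hvW : v ∈ W := Subgroup.subset_closure ⟨ε, l, h1, h2, hv⟩
      by_cases he : ε = a i
      · subst he
        exact hya l h2 v hv
      by_cases hla : l = a (i - 1)
      · rw [hla] at hv
        exact hya (a (i - 1)) (Γ.symm huv) v hv
      -- the arc through `l`, `ε`
      obtain ⟨a1, ha1, e1, e1'⟩ := ha.branch_left (n := i - 1) (w := ε) h1
        (by rw [show i - 1 + 1 = i by ring]; exact he)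
      obtain ⟨a', ha', e2, e2'⟩ := ha1.branch_left (n := i - 1 - 1) (w := l) (by rw [e1']; exact h2)
        (by rw [show i - 1 - 1 + 1 = i - 1 by ring, e1 (i - 1) le_rfl]; exact hla)
      have haa : ∀ j, i - 1 ≤ j → a' j = a j := fun j hj => by
        rw [e2 j (by omega), e1 j hj]
      have hε : a' (i - 2) = ε := by
        rw [show i - 2 = i - 1 - 1 by ring, e2 _ le_rfl, e1']
      have hl' : a' (i - 3) = l := by
        rw [show i - 3 = i - 1 - 1 - 1 by ring, e2']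
      have hlt : Γ.ty l = true := hl_ty ε l h1 h2
      have hεt : Γ.ty ε = false := by rw [Γ.adj_ty h1, hu]; rfl
      -- `v` and `z ε`
      have hZl : Γ.Z ε ≤ Γ.Z l := Γ.Z_up hεt h2
      have hzε := Γ.z_mem ε
      have hzu : Γ.z ε ∈ Γ.Z (a (i - 1)) := Γ.Z_up hεt (Γ.symm h1) hzε
      have hzi : Γ.z ε ∉ Γ.Z (a i) := fun hz =>
        Γ.z_ne ε (Γ.sib hu h1 huv he hzε hz)
      have hzQ : Γ.z ε ∉ Γ.Q (a (i + b - 1)) := h.notMem ha hi hc hzu hzi
      have hzfix : ∀ j, i - 1 ≤ j → j ≤ i + b - 1 → Γ.z ε • a j = a j := fun j h0 h1 =>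
        h.low.fix ha hu (by omega) (by omega) hzu
      have hlowfix : ∀ w ∈ Γ.Z l, ∀ j, i - 3 ≤ j → j ≤ i - 3 + b → w • a' j = a' j := by
        intro w hw j h0 h1
        exact h.low.fix ha' (i := i - 3) (by rw [hl']; exact hlt) (by omega) (by omega)
          (by rw [hl']; exact hw)
      have hHp' : ∀ w ∈ Γ.Z l, ∀ m : ℤ, i - 3 ≤ m → Even (m - (i - 3)) →
          (∀ j, i - 3 ≤ j → j ≤ m → w • a' j = a' j) → w ∈ Γ.Q (a' m) := by
        intro w hw m hm he hf
        have h3 := hHp (fun j => a' (j + (i - 3))) (ha'.shift (i - 3))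
          (by simp only [zero_add]; rw [hl']; exact hlt) (m - (i - 3)) (by omega) he w
          (by simp only [zero_add]; rw [hl']; exact hw)
          (fun j h0 h1 => hf (j + (i - 3)) (by omega) (by omega))
        simp only [sub_add_cancel] at h3
        exact h3
      have hv1 : v ∈ Γ.Q (a (i + b - 3)) := by
        have := hno a' ha' haa
        rw [hl'] at this
        exact this hv
      have hv2 : v • a (i + b - 2) = a (i + b - 2) := Γ.Q_fix' hv1 (ha.adj' (Or.inl (by ring)))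
      have hv3 : v ∈ Γ.Q (a (i + b - 2)) := by
        rw [← haa (i + b - 2) (by omega)]
        refine hHp' v hv (i + b - 2) (by omega) ?_ ?_
        · rw [show i + b - 2 - (i - 3) = b + 1 by ring]; exact hodd.add_odd odd_one
        · intro j h0 h1
          rcases eq_or_lt_of_le h1 with rfl | h1
          · rw [haa _ (by omega)]; exact hv2
          · exact hlowfix v hv j h0 (by omega)
      have hv4 : v • a (i + b - 1) = a (i + b - 1) := Γ.Q_fix' hv3 (ha.adj' (Or.inl (by ring)))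
      -- an element of `Z l` fixing everything up to `a (i+b-1)` and in `Q (a (i+b-1))` commutes with y
      have hcomm : ∀ w ∈ Γ.Z l, w • a (i + b - 2) = a (i + b - 2) → w ∈ Γ.Q (a (i + b - 1)) →
          w * y = y * w := by
        intro w hw hw2 hwQ
        have hw3 : w ∈ Γ.Q (a (i + b)) := by
          rw [← haa (i + b) (by omega)]
          refine hHp' w hw (i + b) (by omega) ?_ ?_
          · rw [show i + b - (i - 3) = b + 3 by ring]
            exact hodd.add_odd (by decide)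
          · intro j h0 h1
            by_cases hj : j ≤ i - 3 + b
            · exact hlowfix w hw j h0 hj
            · rw [haa j (by omega)]
              rcases (by omega : j = i + b - 2 ∨ j = i + b - 1 ∨ j = i + b) with rfl | rfl | rfl
              · exact hw2
              · exact Γ.Q_fix hwQ
              · exact Γ.Q_fix' hwQ (ha.adj' (Or.inl (by ring)))
        exact Γ.Q_comm hw3 hy
      by_cases hvQ : v ∈ Γ.Q (a (i + b - 1))
      · have h3 := hcomm v hv hv2 hvQ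
        rw [← h3, mul_inv_cancel_right]
        exact hvW
      · have h4 : v * Γ.z ε ∈ Γ.Q (a (i + b - 1)) :=
          Γ.mul_mem_Q (v := a (i + b - 1)) (a := a (i + b - 2)) (ha.adj' (Or.inr (by ring)))
            hv4 hv2 hvQ (hzfix _ (by omega) (by omega)) (hzfix _ (by omega) (by omega)) hzQ
        have h5 : v * Γ.z ε ∈ Γ.Z l := Subgroup.mul_mem _ hv (hZl hzε)
        have h6 := hcomm _ h5 (by rw [mul_smul, hzfix _ (by omega) (by omega), hv2]) h4
        have h7 : y * v * y⁻¹ = (v * Γ.z ε) * (y * Γ.z ε * y⁻¹)⁻¹ := by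
          calc y * v * y⁻¹ = (y * (v * Γ.z ε)) * (Γ.z ε)⁻¹ * y⁻¹ := by group
            _ = ((v * Γ.z ε) * y) * (Γ.z ε)⁻¹ * y⁻¹ := by rw [h6]
            _ = (v * Γ.z ε) * (y * Γ.z ε * y⁻¹)⁻¹ := by group
        rw [h7]
        exact Subgroup.mul_mem _ (Subgroup.mul_mem _ hvW (hZW hzu))
          (Subgroup.inv_mem _ (hya (a (i - 1)) (Γ.symm huv) _ hzu))
  rw [hWbot, le_bot_iff] at hZW
  exact Γ.Z_ne _ hZW

end Geo

end Cfsg.Agent.H48.Ge
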