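import Cfsg.Agent.H48.GeO3

/-! PIECE O4: the groups `R β`. `Bl n v` = pointwise stabilizer of the ball of radius n about v (GeB).
`R b β = {u | u ∈ Bl b γ for all γ ∈ Δ(β)}` (β type 2) = Bl (b+1) β.

`U_inter`: {γ, δ, λ} = Δ(β), u ∈ Bl b γ ∩ Bl b δ ⇒ u ∈ Bl b λ: by exists_crit take a critical arc a
 with a 1 = β, a 2 = δ (i = 1), s ∈ Z (a (b+1)) \ Z (a b), s ∉ Q β (notMem'), s fixes β, δ (e_spec) so swaps γ, λ.
 u ∈ Bl b δ, d(δ, a (b+1)) = b-1, so u ∈ Q (a (b+1)), so u commutes with s (Q_comm).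
 u = s u s⁻¹ ∈ Bl b (s • γ) = Bl b λ.

`R_sib`: u ∈ R β ∩ R β', β ≠ β' ∈ Δ(γ), ty γ = true ⇒ u = 1. Let Δ(β) = {γ, δ, λ}. n ∈ Q β ∩ Q γ, n ∉ Q δ
 (QQ). critical arc a with a 1 = β, a 2 = λ, y ∈ Z (a (b+1)) \ Z (a b): y fixes β, λ swaps γ, δ. All
 elements of R β are in Q (a (b+1)) (distance b from β, b-1 from λ) hence commute with y; as R β is
 normalized by n, they also commute with n y n⁻¹. t = n y n⁻¹ y⁻¹ = n * (y n⁻¹ y⁻¹): y n⁻¹ y⁻¹ ∈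
 Q (y•γ) = Q δ but ∉ Q (y • δ) = Q γ, so t ∉ Q γ, t ∈ Q β. So t fixes β, γ, swaps β', β'' and
 centralizes R β. So u ∈ R β ∩ R β' ⇒ u = t u t⁻¹ ∈ R β''. So
 J = ⋂_{Δ(γ)} R = R β ∩ R β' is normalized by G_γ and centralized by y ∈ G_β, y moves γ: faith'
 on the edge (γ, β): J = ⊥.

`R_small`: from (hU): |Bl b γ : R β| ≤ 2. Let u ∈ R β', u ≠ 1, β' type 2. Pick γ ∈ Δ(β'), β ∈ Δ(γ), β ≠ β'.
 R β' ≤ Bl b γ. u1, u2 ∈ R β', ≠ 1 ⇒ ∉ R β (R_sib) ⇒ u1 u2 ∈ R β ∩ R β' = 1. So all nontrivial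
 u ∈ R β' satisfy u * z β' = 1 (z β' ∈ R β' by Low.fix2), i.e. u = z β' (z² = 1).

`hU5` (b ≥ 5): γ ∈ Δ(β), u1, u2 ∈ Bl b γ \ R β ⇒ u1 u2 ∈ R β. Let Δ(β) = {γ, δ, λ}, take a critical arc a with
 a 1 = β, a 2 = λ, and by C1 (i = 1) an arc a' with a' j = a j (j ≥ 0) and crit b a' (-1); (crit b a' 1
 by crit_congr). May assume... a 0 is γ or δ, no matter: write ω = a' (-1), so ω ∈ Δ(a 0), distance 2 from β.
 τ = a b. z τ ∈ Z (a' (b-1)), z τ ∉ Z (a' (b-2)) (sib) so z τ ∉ Q ω by notMem' for crit b a' (-1).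
 y ∈ Z (a (b+1)) \ Z (a b): fixes β, λ, swaps γ, δ.
 Let u ∈ Bl b γ ∩ Q τ: u fixes τ, a (b+1); c := y * (u * y * u⁻¹) ∈ Z τ (comm_mem). c = (y u y⁻¹) u⁻¹
 with y u y⁻¹ ∈ Bl b δ, u ∈ Bl b γ; both are in Q ω (distance from γ, δ to ω ≤ 3 ≤ b-1), so c ∈ Q ω,
 so c ≠ z τ, c = 1, u commutes with y, u ∈ Bl b δ, so u ∈ R β (U_inter). Now u1, u2 ∈ Bl b γ \ R β:
 u1, u2 ∉ Q τ, they fix τ and a (b-1) (distances b, b-1 from γ), so u1 u2 ∈ Q τ (mul_mem_Q). -/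

set_option autoImplicit false

open MulAction

namespace Cfsg.Agent.H48.Ge

variable {G V : Type*} [Group G] [MulAction G V]

namespace Geo

/-- the group `R β` -/
def R (Γ : Geo G V) (b : ℤ) (β : V) : Subgroup G where
  carrier := {g | ∀ γ, Γ.adj β γ → g ∈ Γ.Bl b γ}
  one_mem' := fun _ _ => Subgroup.one_mem _
  mul_mem' := fun hx hy γ h => Subgroup.mul_mem _ (hx γ h) (hy γ h)
  inv_mem' := fun hx γ h => Subgroup.inv_mem _ (hx γ h)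

variable {Γ : Geo G V} {b : ℤ}

theorem Bl_conj (n : ℤ) (g : G) {v : V} {x : G} (hx : x ∈ Γ.Bl n v) :
    g * x * g⁻¹ ∈ Γ.Bl n (g • v) := by
  intro a ha h0 i hi hn
  have h1 := hx (fun j => g⁻¹ • a j) (ha.smul g⁻¹) (by simp [h0]) i hi hn
  rw [mul_smul, mul_smul, h1, smul_inv_smul]

theorem R_conj (g : G) {v : V} {x : G} (hx : x ∈ Γ.R b v) :
    g * x * g⁻¹ ∈ Γ.R b (g • v) := by
  intro γ hγ
  have h1 : Γ.adj v (g⁻¹ • γ) := by
    rw [← Γ.adj_smul_iff g]; simpa using hγ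
  have h2 := Bl_conj b g (hx _ h1)
  simpa using h2

theorem R_conj' {g : G} {v : V} (hg : g • v = v) {x : G} (hx : x ∈ Γ.R b v) :
    g * x * g⁻¹ ∈ Γ.R b v := by
  have := R_conj g hx
  rwa [hg] at this

theorem Bl_fix {n : ℤ} {a : ℤ → V} {i j : ℤ} (ha : Γ.Arc a) (h1 : j - i ≤ n) (h2 : i - j ≤ n)
    {u : G} (hu : u ∈ Γ.Bl n (a i)) : u • a j = a j := by
  rcases le_total i j with hij | hij
  · have := hu _ (ha.shift i) (by simp) (j - i) (by omega) h1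
    simpa using this
  · have := hu _ (ha.rev i) (by simp) (i - j) (by omega) h2
    simpa using this

/-- elements of `Bl n γ` are in `Q (a j)` for arcs `a` with `a i = γ`, `|j - i| < n` -/
theorem Bl_le_Q {n : ℤ} {a : ℤ → V} {i j : ℤ} (ha : Γ.Arc a) (h1 : j - i < n) (h2 : i - j < n)
    {u : G} (hu : u ∈ Γ.Bl n (a i)) : u ∈ Γ.Q (a j) := by
  refine ⟨Bl_fix ha h1.le h2.le hu, fun w hw => ?_⟩
  rcases le_total i j with hij | hij
  · by_cases he : w = a (j - 1)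
    · rw [he]
      exact Bl_fix ha (by omega) (by omega) hu
    · obtain ⟨a', ha', h3, h4⟩ := ha.branch hw he
      have h5 := Bl_fix (u := u) (n := n) ha' (i := i) (j := j + 1) (by omega) (by omega)
        (by rw [h3 i hij]; exact hu)
      rwa [h4] at h5
  · by_cases he : w = a (j + 1)
    · rw [he]
      exact Bl_fix ha (by omega) (by omega) hu
    · obtain ⟨a', ha', h3, h4⟩ := ha.branch_left hw he
      have h5 := Bl_fix (u := u) (n := n) ha' (i := i) (j := j - 1) (by omega) (by omega)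
        (by rw [h3 i hij]; exact hu)
      rwa [h4] at h5

theorem R_le_Q2 (hb : 1 ≤ b) {β : V} {u : G} (hu : u ∈ Γ.R b β) : u ∈ Γ.Q β := by
  obtain ⟨p, q, r, -, -, -, h'⟩ := Γ.nb β
  have h1 : ∀ γ, Γ.adj β γ → u • γ = γ ∧ u • β = β := by
    intro γ hγ
    obtain ⟨a, ha, h0, h1⟩ := Γ.exists_arc (Γ.symm hγ)
    have h2 := hu γ hγ
    rw [← h0] at h2
    have h3 := Bl_fix ha (i := 0) (j := 0) (by omega) (by omega) h2
    have h4 := Bl_fix ha (i := 0) (j := 1) (by omega) (by omega) h2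
    rw [h0] at h3
    rw [h1] at h4
    exact ⟨h3, h4⟩
  exact ⟨(h1 p ((h' p).2 (Or.inl rfl))).2, fun w hw => (h1 w hw).1⟩

/-- elements of `R β` are in `Q (a j)` for arcs `a` with `a i = β`, `|j - i| ≤ b` -/
theorem R_le_Q (hb : 1 ≤ b) {a : ℤ → V} {i j : ℤ} (ha : Γ.Arc a) (h1 : j - i ≤ b) (h2 : i - j ≤ b)
    {u : G} (hu : u ∈ Γ.R b (a i)) : u ∈ Γ.Q (a j) := by
  rcases lt_trichotomy i j with hij | rfl | hij
  · exact Bl_le_Q ha (i := i + 1) (by omega) (by omega) (hu _ (ha.adj i))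
  · exact R_le_Q2 hb hu
  · exact Bl_le_Q ha (i := i - 1) (by omega) (by omega) (hu _ (ha.adj' (Or.inr (by ring))))

/-- a critical arc with prescribed first edge and an element of `Z` at its end -/
theorem OK.exists_y (h : Γ.OK b) {β l : V} (hβ : Γ.ty β = false) (h3 : Γ.adj β l) :
    ∃ a : ℤ → V, Γ.Arc a ∧ a 1 = β ∧ a 2 = l ∧ Γ.crit b a 1 ∧ ∃ y ∈ Γ.Z (a (b + 1)),
      y ∉ Γ.Q β ∧ y • β = β ∧ y • l = l ∧ Γ.ty (a (b + 1)) = true := by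
  have hb := h.hb
  obtain ⟨a, ha, h1, h2, hc⟩ := h.toOH.exists_crit 1 hβ h3
  have hc' := (h.toOH.crit_iff ha (by rw [h1, hβ])).1 hc
  have h2' : a 2 = l := by rw [← h2]; norm_num
  have ht : Γ.ty (a (b + 1)) = true := by
    have : Odd ((b + 1) - 1) := by
      have := h.odd
      simpa using this
    rw [ha.ty_odd this, h1, hβ]; rfl
  obtain ⟨y, hy, hy'⟩ := SetLike.not_le_iff_exists.1 hc'
  rw [show (1 : ℤ) + b = b + 1 by ring] at hy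
  refine ⟨a, ha, h1, h2', hc, y, hy, by rwa [h1] at hy', ?_, ?_, ht⟩
  · rw [← h1]
    exact h.low.fix ha ht (by omega) (by omega) hy
  · rw [← h2']
    exact h.low.fix ha ht (by omega) (by omega) hy

theorem OK.U_inter (h : Γ.OK b) {β γ δ l : V} (hβ : Γ.ty β = false) (h1 : Γ.adj β γ)
    (h2 : Γ.adj β δ) (h3 : Γ.adj β l) (h12 : γ ≠ δ) (h13 : γ ≠ l) (h23 : δ ≠ l) {u : G}
    (hu : u ∈ Γ.Bl b γ) (hu' : u ∈ Γ.Bl b δ) : u ∈ Γ.Bl b l := by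
  have hb := h.hb
  obtain ⟨a, ha, ha1, ha2, hc, s, hs, hsQ, hsβ, hsδ, ht⟩ := h.exists_y hβ h2
  have h4 := (Γ.swap_of_notMem h2 h1 h3 h12.symm h23 h13 hsβ hsδ hsQ).1
  have h5 : u ∈ Γ.Q (a (b + 1)) := by
    refine Bl_le_Q ha (i := 2) (n := b) (by omega) (by omega) ?_
    rw [ha2]; exact hu'
  have h6 := Γ.Q_comm h5 hs
  have h7 := Bl_conj b s hu
  rw [h4, ← h6, mul_inv_cancel_right] at h7
  exact h7

theorem OK.R_sib (h : Γ.OK b) {γ β β' : V} (hγ : Γ.ty γ = true) (h1 : Γ.adj γ β)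
    (h2 : Γ.adj γ β') (hne : β ≠ β') {u : G} (hu : u ∈ Γ.R b β) (hu' : u ∈ Γ.R b β') : u = 1 := by
  have hb := h.hb
  have hβ : Γ.ty β = false := by rw [Γ.adj_ty h1, hγ]; rfl
  -- the neighbours of `β`
  obtain ⟨δ, hδ, hδγ⟩ : ∃ δ, Γ.adj β δ ∧ γ ≠ δ := by
    obtain ⟨p, q, r, hpq, -, -, h'⟩ := Γ.nb β
    by_cases hp : γ = p
    · exact ⟨q, (h' q).2 (Or.inr (Or.inl rfl)), fun e => hpq (hp.symm.trans e)⟩
    · exact ⟨p, (h' p).2 (Or.inl rfl), hp⟩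
  obtain ⟨l, hl, hlγ, hlδ, -⟩ := Γ.third (Γ.symm h1) hδ hδγ
  obtain ⟨n, hn, hnγ, hnδ⟩ := h.QQ hβ (Γ.symm h1) hδ hδγ
  obtain ⟨a, ha, ha1, ha2, hc, y, hy, hyQ, hyβ, hyl, ht⟩ := h.exists_y hβ hl
  obtain ⟨hsw, hsw'⟩ := Γ.swap_of_notMem hl (Γ.symm h1) hδ hlγ hlδ hδγ hyβ hyl hyQ
  have hyc : ∀ r ∈ Γ.R b β, r * y = y * r := by
    intro r hr
    refine Γ.Q_comm ?_ hy
    refine R_le_Q (b := b) (by omega) ha (i := 1) (by omega) (by omega) ?_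
    rw [ha1]; exact hr
  have hnβ : n • β = β := Γ.Q_fix hn
  have hnβ' : n⁻¹ • β = β := inv_smul_eq_iff.2 hnβ.symm
  have hyc' : ∀ r ∈ Γ.R b β, r * (n * y * n⁻¹) = (n * y * n⁻¹) * r := by
    intro r hr
    have h3 := hyc _ (R_conj' hnβ' hr)
    rw [inv_inv] at h3
    calc r * (n * y * n⁻¹) = n * ((n⁻¹ * r * n) * y) * n⁻¹ := by group
      _ = n * (y * (n⁻¹ * r * n)) * n⁻¹ := by rw [h3]
      _ = (n * y * n⁻¹) * r := by group
  have htc : ∀ r ∈ Γ.R b β, (n * y * n⁻¹ * y⁻¹) * r * (n * y * n⁻¹ * y⁻¹)⁻¹ = r := by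
    intro r hr
    have h3 := hyc r hr
    have h4 := hyc' r hr
    calc (n * y * n⁻¹ * y⁻¹) * r * (n * y * n⁻¹ * y⁻¹)⁻¹
        = (n * y * n⁻¹) * y⁻¹ * (r * y) * (n * y * n⁻¹)⁻¹ := by group
      _ = (n * y * n⁻¹) * y⁻¹ * (y * r) * (n * y * n⁻¹)⁻¹ := by rw [h3]
      _ = ((n * y * n⁻¹) * r) * (n * y * n⁻¹)⁻¹ := by group
      _ = (r * (n * y * n⁻¹)) * (n * y * n⁻¹)⁻¹ := by rw [h4]
      _ = r := by group
  have htQ : n * y * n⁻¹ * y⁻¹ ∉ Γ.Q γ := by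
    intro hcon
    have h3 : n⁻¹ * (n * y * n⁻¹ * y⁻¹) ∈ Γ.Q γ := Subgroup.mul_mem _ (Subgroup.inv_mem _ hnγ) hcon
    have h4 : n⁻¹ * (n * y * n⁻¹ * y⁻¹) = y * n⁻¹ * y⁻¹ := by group
    rw [h4, ← hsw', Γ.Q_conj_iff] at h3
    exact hnδ (by simpa using Subgroup.inv_mem _ h3)
  have htβ : n * y * n⁻¹ * y⁻¹ ∈ Γ.Q β := by
    have h3 : n * (y * n⁻¹ * y⁻¹) ∈ Γ.Q β :=
      Subgroup.mul_mem _ hn (Γ.Q_conj' hyβ (Subgroup.inv_mem _ hn))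
    have h4 : n * (y * n⁻¹ * y⁻¹) = n * y * n⁻¹ * y⁻¹ := by group
    rwa [h4] at h3
  obtain ⟨β'', hb'', hb1, hb2, hb3⟩ := Γ.third h1 h2 hne
  have hsw2 := (Γ.swap_of_notMem h1 h2 hb'' hne hb1.symm hb2.symm
    (Γ.Q_fix' htβ (Γ.symm h1)) (Γ.Q_fix htβ) htQ).1
  -- the intersection
  let J : Subgroup G :=
    { carrier := {g | ∀ ε, Γ.adj γ ε → g ∈ Γ.R b ε}
      one_mem' := fun _ _ => Subgroup.one_mem _
      mul_mem' := fun hx hy ε h => Subgroup.mul_mem _ (hx ε h) (hy ε h)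
      inv_mem' := fun hx ε h => Subgroup.inv_mem _ (hx ε h) }
  have hJn : ∀ g : G, g • γ = γ → ∀ n ∈ J, g * n * g⁻¹ ∈ J := by
    intro g hg n hn ε hε
    have h3 : Γ.adj γ (g⁻¹ • ε) := Γ.adj_of_fix (inv_smul_eq_iff.2 hg.symm) hε
    have h4 := R_conj g (hn _ h3)
    simpa using h4
  have hJ : J = ⊥ := by
    refine Γ.faith' (u := γ) (v := β) J h1 ?_ ?_ ?_ ?_
    · intro n hn
      have h3 := R_le_Q2 (b := b) (by omega) (hn β h1)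
      exact ⟨Γ.Q_fix' h3 (Γ.symm h1), Γ.Q_fix h3⟩
    · intro t ht _ n hn
      exact hJn t ht n hn
    · obtain ⟨g, hg, hg'⟩ := Γ.loc h1 h2
      exact ⟨g, hg, by rw [hg']; exact hne.symm, hJn g hg⟩
    · refine ⟨y, hyβ, by rw [hsw]; exact hδγ.symm, fun n hn => ?_⟩
      have h3 := hyc n (hn β h1)
      rw [← h3, mul_inv_cancel_right]
      exact hn
  have huJ : u ∈ J := by
    intro ε hε
    rcases hb3 ε hε with rfl | rfl | rfl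
    · exact hu
    · exact hu'
    · have h3 := R_conj (n * y * n⁻¹ * y⁻¹) hu'
      rw [htc u hu, hsw2] at h3
      exact h3
  rw [hJ] at huJ
  exact Subgroup.mem_bot.1 huJ

theorem OK.Z_le_R (h : Γ.OK b) {β : V} (hβ : Γ.ty β = false) {x : G} (hx : x ∈ Γ.Z β) :
    x ∈ Γ.R b β := by
  have hb := h.hb
  intro γ hγ a ha h0 i hi hn
  by_cases he : β = a 1
  · subst he
    exact h.low.fix2 (by omega) ha hβ (by omega) (by omega) hx
  · obtain ⟨a', ha', h3, h4⟩ := ha.branch_left (n := 0) (w := β) (by rw [h0]; exact Γ.symm hγ)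
      (by simpa using he)
    rw [← h3 i hi]
    have h4' : a' (-1) = β := by rw [← h4]; norm_num
    refine h.low.fix2 (by omega) ha' (i := -1) (by rw [h4']; exact hβ) (by omega) (by omega) ?_
    rw [h4']; exact hx

theorem OK.R_small (h : Γ.OK b)
    (hU : ∀ β γ, Γ.ty β = false → Γ.adj β γ → ∀ u ∈ Γ.Bl b γ, ∀ v ∈ Γ.Bl b γ, u ∉ Γ.R b β →
      v ∉ Γ.R b β → u * v ∈ Γ.R b β) {β : V} (hβ : Γ.ty β = false) {u : G} (hu : u ∈ Γ.R b β) :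
    u = 1 ∨ u = Γ.z β := by
  by_cases hu1 : u = 1
  · exact Or.inl hu1
  right
  obtain ⟨γ, q, r, -, -, -, h'⟩ := Γ.nb β
  have hγ : Γ.adj β γ := (h' γ).2 (Or.inl rfl)
  have hγt : Γ.ty γ = true := by rw [Γ.adj_ty hγ, hβ]; rfl
  obtain ⟨β1, hβ1, hne⟩ : ∃ δ, Γ.adj γ δ ∧ β ≠ δ := by
    obtain ⟨p, q, r, hpq, -, -, h'⟩ := Γ.nb γ
    by_cases hp : β = p
    · exact ⟨q, (h' q).2 (Or.inr (Or.inl rfl)), fun e => hpq (hp.symm.trans e)⟩
    · exact ⟨p, (h' p).2 (Or.inl rfl), hp⟩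
  have hβ1t : Γ.ty β1 = false := by rw [Γ.adj_ty hβ1, hγt]; rfl
  have hz := h.Z_le_R hβ (Γ.z_mem β)
  have h1 : u ∉ Γ.R b β1 := fun e => hu1 (h.R_sib hγt (Γ.symm hγ) hβ1 hne hu e)
  have h2 : Γ.z β ∉ Γ.R b β1 := fun e => Γ.z_ne β (h.R_sib hγt (Γ.symm hγ) hβ1 hne hz e)
  have h3 := hU β1 γ hβ1t (Γ.symm hβ1) u (hu γ hγ) _ (hz γ hγ) h1 h2
  have h4 := h.R_sib hγt (Γ.symm hγ) hβ1 hne (Subgroup.mul_mem _ hu hz) h3
  have h5 := Γ.Z_sq2 hβ (Γ.z_mem β)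
  calc u = u * Γ.z β * (Γ.z β)⁻¹ := by group
    _ = (Γ.z β)⁻¹ := by rw [h4, one_mul]
    _ = Γ.z β := (eq_inv_of_mul_eq_one_left h5).symm

theorem OK.hU5 (h : Γ.OK b) (hb : 5 ≤ b) :
    ∀ β γ, Γ.ty β = false → Γ.adj β γ → ∀ u ∈ Γ.Bl b γ, ∀ v ∈ Γ.Bl b γ, u ∉ Γ.R b β →
      v ∉ Γ.R b β → u * v ∈ Γ.R b β := by
  intro β γ hβ hγ
  -- the neighbours of `β`
  obtain ⟨δ, hδ, hδγ⟩ : ∃ δ, Γ.adj β δ ∧ γ ≠ δ := by
    obtain ⟨p, q, r, hpq, -, -, h'⟩ := Γ.nb β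
    by_cases hp : γ = p
    · exact ⟨q, (h' q).2 (Or.inr (Or.inl rfl)), fun e => hpq (hp.symm.trans e)⟩
    · exact ⟨p, (h' p).2 (Or.inl rfl), hp⟩
  obtain ⟨l, hl, hlγ, hlδ, hall⟩ := Γ.third hγ hδ hδγ
  obtain ⟨a, ha, ha1, ha2, hc, y, hy, hyQ, hyβ, hyl, ht⟩ := h.exists_y hβ hl
  obtain ⟨hsw, hsw'⟩ := Γ.swap_of_notMem hl hγ hδ hlγ hlδ hδγ hyβ hyl hyQ
  have ha1t : Γ.ty (a 1) = false := by rw [ha1, hβ]
  obtain ⟨a', ha', haa, hc'⟩ := h.C1 hb ha ha1t hc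
  have haa' : ∀ j, 0 ≤ j → a' j = a j := fun j hj => haa j (by omega)
  have hc' : Γ.crit b a' (-1) := by simpa using hc'
  have hbt : Γ.ty (a b) = false := by
    have : Even (b - 1) := by
      have := h.odd
      exact this.sub_odd odd_one
    rw [ha.ty_even this, ha1t]
  have hbt' : Γ.ty (a (b - 1)) = true := by
    rw [Γ.adj_ty (ha.adj' (i := b) (j := b - 1) (Or.inr (by ring))), hbt]; rfl
  have hm1t : Γ.ty (a' (-1)) = false := by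
    have : Even ((-1 : ℤ) - 1) := by norm_num
    rw [ha'.ty_even this, haa' 1 (by norm_num), ha1t]
  -- `z τ ∉ Q ω`
  have hzω : Γ.z (a b) ∉ Γ.Q (a' (-1)) := by
    refine h.notMem' ha' hm1t hc' ?_ ?_
    · rw [show (-1 : ℤ) + b = b - 1 by ring, haa' _ (by omega)]
      exact Γ.Z_up hbt (ha.adj' (Or.inr (by ring))) (Γ.z_mem _)
    · rw [show (-1 : ℤ) + b - 1 = b - 2 by ring, haa' _ (by omega)]
      intro hcon
      exact Γ.z_ne _ (Γ.sib hbt' (ha.adj' (i := b - 1) (j := b) (Or.inl (by ring)))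
        (ha.adj' (i := b - 1) (j := b - 2) (Or.inr (by ring))) (ha.ne' (Or.inr (by ring)))
        (Γ.z_mem _) hcon)
  have hdist : ∀ ε, Γ.adj β ε → ε ≠ l → ∀ v ∈ Γ.Bl b ε, v ∈ Γ.Q (a' (-1)) := by
    intro ε hε hεl v hv
    by_cases he : ε = a' 0
    · refine Bl_le_Q ha' (i := 0) (n := b) (by omega) (by omega) ?_
      rw [← he]; exact hv
    · obtain ⟨a2, ha2', h3, h4⟩ := ha'.branch (n := 1) (w := ε)
        (by rw [haa' 1 (by norm_num), ha1]; exact hε) (by simpa using he)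
      rw [← h3 (-1) (by norm_num)]
      refine Bl_le_Q ha2' (i := 2) (n := b) (by omega) (by omega) ?_
      have h4' : a2 2 = ε := by rw [← h4]; norm_num
      rw [h4']; exact hv
  have key : ∀ u ∈ Γ.Bl b γ, u ∈ Γ.Q (a b) → u ∈ Γ.R b β := by
    intro u hu huQ
    have h3 : u • a (b + 1) = a (b + 1) := Γ.Q_fix' huQ (ha.adj b)
    have h4 := h.low.comm_mem (by omega) ht (Γ.symm (ha.adj b)) hy h3 (Γ.Q_fix huQ)
    have h5 : y⁻¹ = y := inv_eq_of_mul_eq_one_left (h.low.Z_sq (by omega) hy)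
    have h6 : y * (u * y * u⁻¹) = (y * u * y⁻¹) * u⁻¹ := by rw [h5]; group
    have h7 : y * u * y⁻¹ ∈ Γ.Bl b δ := by
      have := Bl_conj b y hu
      rwa [hsw] at this
    have h8 : y * (u * y * u⁻¹) ∈ Γ.Q (a' (-1)) := by
      rw [h6]
      exact Subgroup.mul_mem _ (hdist δ hδ hlδ.symm _ h7)
        (Subgroup.inv_mem _ (hdist γ hγ hlγ.symm _ hu))
    have h9 : y * (u * y * u⁻¹) = 1 := by
      rcases h.k1.eq hbt h4 with h9 | h9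
      · exact h9
      · rw [h9] at h8
        exact absurd h8 hzω
    have h10 : y * u * y⁻¹ = u := by
      rw [h6] at h9
      exact mul_inv_eq_one.1 h9
    rw [h10] at h7
    intro ε hε
    rcases hall ε hε with rfl | rfl | rfl
    · exact hu
    · exact h7
    · exact h.U_inter hβ hγ hδ hl hδγ hlγ.symm hlδ.symm hu h7
  obtain ⟨a4, ha4, h43, h44⟩ := ha.branch_left (n := 1) (w := γ) (by rw [ha1]; exact hγ)
    (by rw [show (1 : ℤ) + 1 = 2 by norm_num, ha2]; exact hlγ.symm)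
  have h44' : a4 0 = γ := by rw [← h44]; norm_num
  have hfix : ∀ u ∈ Γ.Bl b γ, u • a b = a b ∧ u • a (b - 1) = a (b - 1) := by
    intro u hu
    rw [← h44'] at hu
    have h5 := Bl_fix ha4 (i := 0) (j := b) (by omega) (by omega) hu
    have h6 := Bl_fix ha4 (i := 0) (j := b - 1) (by omega) (by omega) hu
    rw [h43 _ (by omega)] at h5 h6
    exact ⟨h5, h6⟩
  intro u hu v hv huR hvR
  refine key _ (Subgroup.mul_mem _ hu hv) ?_
  exact Γ.mul_mem_Q (ha.adj' (i := b) (j := b - 1) (Or.inr (by ring))) (hfix u hu).1 (hfix u hu).2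
    (fun e => huR (key u hu e)) (hfix v hv).1 (hfix v hv).2 (fun e => hvR (key v hv e))

end Geo

end Cfsg.Agent.H48.Ge
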