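import Cfsg.Agent.H48.GeO4

/-! PIECE O5: for b ≥ 5, `V_β / Z_β` has order 4: p ∈ Z γ \ Z β, q ∈ Z δ \ Z β ⇒ p q ∈ Z λ. (helper57) -/

set_option autoImplicit false

open MulAction

namespace Cfsg.Agent.H48.Ge

variable {G V : Type*} [Group G] [MulAction G V]

namespace Geo

variable {Γ : Geo G V} {b : ℤ}

/-- `Z (a i) ≤ N (a j)` for `i < j ≤ i + b - 2`, `a i` of type 1 -/
theorem Low.Z_N (h : Γ.Low b) {a : ℤ → V} (ha : Γ.Arc a) {i j : ℤ} (hi : Γ.ty (a i) = true)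
    (h1 : i < j) (h2 : j - i ≤ b - 2) : Γ.Z (a i) ≤ Γ.N (a j) := by
  intro x hx
  refine ⟨h.fix ha hi (by omega) (by omega) hx, fun μ hμ => ?_⟩
  by_cases he : μ = a (j - 1)
  · subst he
    exact h.le ha hi (by omega) (by omega) hx
  · obtain ⟨a', ha', h3, h4⟩ := ha.branch hμ he
    rw [← h4]
    rw [← h3 i (by omega)] at hx hi
    exact h.le ha' hi (by omega) (by omega) hx

/-- `Z μ ≤ N τ` for adjacent vertices, `μ` of type 1 -/
theorem Low.Z_N1 (h : Γ.Low b) (hb : 3 ≤ b) {μ τ : V} (hμ : Γ.ty μ = true) (hadj : Γ.adj μ τ) :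
    Γ.Z μ ≤ Γ.N τ := by
  obtain ⟨a, ha, rfl, rfl⟩ := Γ.exists_arc hadj
  exact h.Z_N ha hμ (by norm_num) (by omega)

/-- not critical: `Z (a 0) ≤ N (a b)` -/
theorem OH.Z_N_of_not_crit (h : Γ.OH b) {a : ℤ → V} (ha : Γ.Arc a) (h1 : Γ.ty (a 1) = false)
    (hc : ¬ Γ.crit b a 1) : Γ.Z (a 0) ≤ Γ.N (a b) := by
  have hb := h.hb
  have hHp : Hp Γ := by
    by_contra hn
    exact hc (h.crit_of_tr (Gr.Tr.mono _ (h.tr_of_not_Hp hn) (by omega)) ha h1)
  have h0 : Γ.ty (a 0) = true := by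
    have := ha.ty_succ 0
    rw [zero_add, h1] at this
    cases h' : Γ.ty (a 0)
    · rw [h'] at this; simp at this
    · rfl
  have hQ : Γ.Z (a 0) ≤ Γ.Q (a b) := by
    unfold crit at hc
    rw [not_not] at hc
    have e1 : (1 : ℤ) - 1 = 0 := by norm_num
    have e2 : (1 : ℤ) + b - 1 = b := by ring
    rwa [e1, e2] at hc
  have heven : Even (b + 1) := h.odd.add_odd odd_one
  intro x hx
  refine ⟨h.low.fix ha h0 (by omega) (by omega) hx, fun μ hμ => ?_⟩
  by_cases he : μ = a (b - 1)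
  · subst he
    exact h.low.le ha h0 (by omega) (by omega) hx
  · obtain ⟨a', ha', h3, h4⟩ := ha.branch hμ he
    rw [← h4]
    have h5 : a' 0 = a 0 := h3 0 (by omega)
    refine hHp a' ha' (by rw [h5]; exact h0) (b + 1) (by omega) heven x (by rw [h5]; exact hx) ?_
    intro i hi1 hi2
    rcases lt_or_eq_of_le hi2 with h6 | rfl
    · exact h.low.fix ha' (i := 0) (by rw [h5]; exact h0) (by omega) (by omega) (by rw [h5]; exact hx)
    · rw [h4]
      exact Γ.Q_fix' (hQ hx) hμ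

theorem OK.claim (h : Γ.OK b) (hb : 5 ≤ b) {a : ℤ → V} (ha : Γ.Arc a) (h1 : Γ.ty (a 1) = false)
    {w : V} (hw : Γ.adj (a 1) w) (hw0 : w ≠ a 0) (hw2 : w ≠ a 2) {x x' x'' : G} (hx : x ∈ Γ.Z (a 0))
    (hxn : x ∉ Γ.Z (a 1)) (hx' : x' ∈ Γ.Z w) (hxn' : x' ∉ Γ.Z (a 1)) (hx'' : x'' ∈ Γ.Z (a 2)) :
    x * x' * x'' ∈ Γ.N (a b) := by
  have hlow := h.low
  have hL1 := h.toOH.low1
  have h2 : Γ.ty (a 2) = true := by
    have := ha.ty_succ 1
    rw [h1] at this
    exact this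
  have hwt : Γ.ty w = true := by rw [Γ.adj_ty hw, h1]; rfl
  have hb0 : Γ.ty (a b) = false := by
    have : Even (b - 1) := h.odd.sub_odd odd_one
    rw [ha.ty_even (i := 1) this, h1]
  have hN2 : Γ.Z (a 2) ≤ Γ.N (a b) := hlow.Z_N ha h2 (by omega) (by omega)
  by_cases hc : Γ.crit b a 1
  · -- critical
    obtain ⟨y, hy, hyn⟩ : ∃ y ∈ Γ.Z (a (b + 1)), y ∉ Γ.Z (a b) := by
      have ht : Γ.ty (a (b + 1)) = true := by rw [ha.ty_succ, hb0]; rfl
      -- another neighbour of `a (b+1)`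
      refine ⟨Γ.z (a (b + 2)), ?_, ?_⟩
      · have h3 : Γ.adj (a (b + 2)) (a (b + 1)) := ha.adj' (Or.inr (by ring))
        exact Γ.Z_up (by rw [Γ.adj_ty (ha.adj' (i := b + 1) (j := b + 2) (Or.inl (by ring))), ht]; rfl) h3 (Γ.z_mem _)
      · intro hz
        have h3 : Γ.adj (a (b + 1)) (a (b + 2)) := ha.adj' (Or.inl (by ring))
        have h4 : Γ.adj (a (b + 1)) (a b) := ha.adj' (Or.inr (by ring))
        exact Γ.z_ne _ (Γ.sib ht h3 h4 (ha.ne' (Or.inr (by ring))) (Γ.z_mem _) hz)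
    have e1 : (1 : ℤ) - 1 = 0 := by norm_num
    have e2 : (1 : ℤ) + b = b + 1 := by ring
    have e3 : (1 : ℤ) + b - 1 = b := by ring
    have e4 : (1 : ℤ) + b - 2 = b - 1 := by ring
    have e5 : (1 : ℤ) + 1 = 2 := by norm_num
    have e6 : b + 1 - 1 = b := by ring
    have e7 : b + 1 - 2 = b - 1 := by ring
    obtain ⟨s1, s2, s3, s4, s5, s6, s7, s8, s9, s10, s11, s12, s13, s14, s15, s16, s17, s18⟩ :=
      h.e_spec ha h1 hc (x := x) (y := y) (by rw [e1]; exact hx) hxn (by rw [e2]; exact hy)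
        (by rw [e3]; exact hyn)
    simp only [e1, e2, e3, e4, e5, e6, e7] at s1 s2 s3 s4 s5 s6 s7 s8 s15 s16 s17 s18
    -- `y • a 0 = w`
    have hyw : y • a 0 = w := by
      obtain ⟨c, hc1, hc2, hc3, hc4⟩ := Γ.third (ha.adj' (i := 1) (j := 0) (Or.inr (by ring)))
        (ha.adj' (i := 1) (j := 2) (Or.inl (by ring))) (ha.ne' (Or.inl (by ring)))
      have h5 : w = c := by
        rcases hc4 w hw with h6 | h6 | h6
        · exact absurd h6 hw0
        · exact absurd h6 hw2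
        · exact h6
      have h7 : y • a 0 = c := by
        rcases hc4 _ s3 with h6 | h6 | h6
        · exact absurd h6 s4
        · exact absurd h6 s5
        · exact h6
      rw [h5, h7]
    rw [hyw] at s6
    have hprod : (y * x * y⁻¹) * x' ∈ Γ.Z (a 1) := h.k1.mul_mem hL1 hwt (Γ.symm hw) s6 s7 hx' hxn'
    have hprod2 : (y * x * y⁻¹) * x' ∈ Γ.Z (a 2) := Γ.Z_up h1 (ha.adj' (Or.inl (by ring))) hprod
    have hsq : (y * x * y⁻¹) * (y * x * y⁻¹) = 1 := hlow.Z_sq (by omega) s6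
    have heN : x * (y * x * y⁻¹) ∈ Γ.N (a b) := by
      rw [s12]
      have t1 : Γ.ty (a (b + 1)) = true := by rw [ha.ty_succ, hb0]; rfl
      have t2 : Γ.ty (x • a (b + 1)) = true := by rw [Γ.ty_smul, t1]
      exact mul_mem (hlow.Z_N1 (by omega) t2 (Γ.symm s15) s18)
        (hlow.Z_N1 (by omega) t1 (ha.adj' (Or.inr (by ring))) hy)
    have e : x * x' * x'' = (x * (y * x * y⁻¹)) * (((y * x * y⁻¹) * x') * x'') := by
      calc x * x' * x'' = x * ((y * x * y⁻¹) * (y * x * y⁻¹)) * x' * x'' := by rw [hsq, mul_one]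
        _ = _ := by group
    rw [e]
    exact mul_mem heN (hN2 (mul_mem hprod2 hx''))
  · -- not critical
    obtain ⟨a', ha', h3, h4⟩ := ha.branch_left (n := 1) hw (by simpa using hw2)
    have e1 : (1 : ℤ) - 1 = 0 := by norm_num
    rw [e1] at h4
    have hc' : ¬ Γ.crit b a' 1 := by
      intro hcc
      exact hc (h.toOH.crit_congr ha' ha (by rw [h3 1 le_rfl]; exact h1)
        (fun j hj _ => h3 j hj) hcc)
    have h5 := h.toOH.Z_N_of_not_crit ha h1 hc hx
    have h6 := h.toOH.Z_N_of_not_crit ha' (by rw [h3 1 le_rfl]; exact h1) hc' (x := x') (by rw [h4]; exact hx')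
    rw [h3 b (by omega)] at h6
    exact mul_mem (mul_mem h5 h6) (hN2 hx'')

/-- elements of `Z w`, `w ∈ Δ(a 1)`, fix `a j`, `1 ≤ j ≤ b` -/
theorem Low.fixball (h : Γ.Low b) (hb : 1 ≤ b) {a : ℤ → V} (ha : Γ.Arc a) (h1 : Γ.ty (a 1) = false)
    {w : V} (hw : Γ.adj (a 1) w) {x : G} (hx : x ∈ Γ.Z w) {j : ℤ} (hj : 1 ≤ j) (hjb : j ≤ b) :
    x • a j = a j := by
  have hwt : Γ.ty w = true := by rw [Γ.adj_ty hw, h1]; rfl
  by_cases hw2 : w = a 2
  · subst hw2
    exact h.fix ha hwt (by omega) (by omega) hx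
  · obtain ⟨a', ha', h3, h4⟩ := ha.branch_left (n := 1) hw (by simpa using hw2)
    have e1 : (1 : ℤ) - 1 = 0 := by norm_num
    rw [e1] at h4
    rw [← h3 j hj]
    exact h.fix ha' (i := 0) (by rw [h4]; exact hwt) (by omega) (by omega) (by rw [h4]; exact hx)

theorem OK.v4 (h : Γ.OK b) (hb : 5 ≤ b) {β γ δ l : V} (hβ : Γ.ty β = false) (h1 : Γ.adj β γ)
    (h2 : Γ.adj β δ) (h3 : Γ.adj β l) (h12 : γ ≠ δ) (h13 : γ ≠ l) (h23 : δ ≠ l) {p q : G}
    (hp : p ∈ Γ.Z γ) (hp' : p ∉ Γ.Z β) (hq : q ∈ Γ.Z δ) (hq' : q ∉ Γ.Z β) : p * q ∈ Γ.Z l := by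
  have hlow := h.low
  have hγt : Γ.ty γ = true := by rw [Γ.adj_ty h1, hβ]; rfl
  have hδt : Γ.ty δ = true := by rw [Γ.adj_ty h2, hβ]; rfl
  have hlt : Γ.ty l = true := by rw [Γ.adj_ty h3, hβ]; rfl
  -- neighbours of `β`
  have hnb : ∀ w, Γ.adj β w → w = γ ∨ w = δ ∨ w = l := by
    obtain ⟨c, hc1, hc2, hc3, hc4⟩ := Γ.third h1 h2 h12
    intro w hw
    have hl : l = c := by
      rcases hc4 l h3 with h6 | h6 | h6
      · exact absurd h6.symm h13
      · exact absurd h6.symm h23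
      · exact h6
    rw [hl]; exact hc4 w hw
  -- `r`
  obtain ⟨r, hr, hr'⟩ : ∃ r ∈ Γ.Z l, r ∉ Γ.Z β := by
    obtain ⟨a, ha, -, rfl, rfl⟩ := Γ.exists_arc3 0 h1 h3 h13
    have h4 : Γ.adj (a (0 + 1)) (a 2) := ha.adj' (Or.inl (by ring))
    have h5 : Γ.ty (a 2) = false := by rw [Γ.adj_ty h4, hlt]; rfl
    refine ⟨Γ.z (a 2), Γ.Z_up h5 (Γ.symm h4) (Γ.z_mem _), fun hz => ?_⟩
    exact Γ.z_ne _ (Γ.sib hlt h4 (Γ.symm h3) (ha.ne' (Or.inr (by ring))) (Γ.z_mem _) hz)
  -- commutation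
  have hcom : ∀ {u v : V}, Γ.adj β u → Γ.adj β v → u ≠ v → ∀ {x y : G}, x ∈ Γ.Z u → y ∈ Γ.Z v → x * y = y * x := by
    intro u v hu hv huv x y hx hy
    obtain ⟨a, ha, rfl, rfl, rfl⟩ := Γ.exists_arc3 0 hu hv huv
    exact hlow.comm ha (i := 0 - 1) (j := 0 + 1) (by rw [Γ.adj_ty hu, hβ]; rfl) (by omega) (by omega) hx hy
  have hpq : p * q = q * p := hcom h1 h2 h12 hp hq
  have hpr : p * r = r * p := hcom h1 h3 h13 hp hr
  have hqr : q * r = r * q := hcom h2 h3 h23 hq hr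
  -- the main claim on arcs from `β`
  have hmain : ∀ a : ℤ → V, Γ.Arc a → a 1 = β → ∀ j, 1 ≤ j → j ≤ b + 2 → (p * q * r) • a j = a j := by
    intro a ha ha1 j hj1 hj2
    have hN : p * q * r ∈ Γ.N (a b) := by
      have h0 : Γ.adj β (a 0) := by rw [← ha1]; exact ha.adj' (Or.inr (by ring))
      have h2' : Γ.adj β (a 2) := by rw [← ha1]; exact ha.adj' (Or.inl (by ring))
      have hne : a 0 ≠ a 2 := ha.ne' (Or.inl (by ring))
      have t1 : Γ.ty (a 1) = false := by rw [ha1]; exact hβ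
      have cl := fun (w : V) (hw : Γ.adj (a 1) w) (hw0 : w ≠ a 0) (hw2 : w ≠ a 2) (x x' x'' : G)
        (hx : x ∈ Γ.Z (a 0)) (hxn : x ∉ Γ.Z (a 1)) (hx' : x' ∈ Γ.Z w) (hxn' : x' ∉ Γ.Z (a 1))
        (hx'' : x'' ∈ Γ.Z (a 2)) => h.claim hb ha t1 hw hw0 hw2 hx hxn hx' hxn' hx''
      rw [ha1] at cl
      rcases hnb _ h0 with e0 | e0 | e0 <;> rcases hnb _ h2' with e2 | e2 | e2
      · exact absurd (e0.trans e2.symm) hne
      · rw [e0, e2] at cl
        have := cl l h3 h13.symm h23.symm p r q hp hp' hr hr' hq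
        rwa [mul_assoc, ← hqr, ← mul_assoc] at this
      · rw [e0, e2] at cl
        exact cl δ h2 h12.symm h23 p q r hp hp' hq hq' hr
      · rw [e0, e2] at cl
        have := cl l h3 h23.symm h13.symm q r p hq hq' hr hr' hp
        have e : q * r * p = p * q * r := by
          rw [mul_assoc, ← hpr, ← mul_assoc, ← hpq]
        rwa [e] at this
      · exact absurd (e0.trans e2.symm) hne
      · rw [e0, e2] at cl
        have := cl γ h1 h12 h13 q p r hq hq' hp hp' hr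
        rwa [← hpq] at this
      · rw [e0, e2] at cl
        have := cl δ h2 h23 h12.symm r q p hr hr' hq hq' hp
        have e : r * q * p = p * q * r := by
          rw [← hqr, mul_assoc, ← hpr, ← mul_assoc, ← hpq]
        rwa [e] at this
      · rw [e0, e2] at cl
        have := cl γ h1 h13 h12 r p q hr hr' hp hp' hq
        have e : r * p * q = p * q * r := by
          rw [← hpr, mul_assoc, ← hqr, ← mul_assoc]
        rwa [e] at this
      · exact absurd (e0.trans e2.symm) hne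
    rcases lt_or_ge b j with hjb | hjb
    · have hQ : p * q * r ∈ Γ.Q (a (b + 1)) := hN.2 _ (ha.adj b)
      rcases eq_or_lt_of_le (show b + 1 ≤ j by omega) with rfl | h6
      · exact Γ.Q_fix hQ
      · have : j = b + 2 := by omega
        subst this
        exact Γ.Q_fix' hQ (ha.adj' (Or.inl (by ring)))
    · have t1 : Γ.ty (a 1) = false := by rw [ha1]; exact hβ
      rw [mul_smul, mul_smul, hlow.fixball (by omega) ha t1 (by rw [ha1]; exact h3) hr hj1 hjb,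
        hlow.fixball (by omega) ha t1 (by rw [ha1]; exact h2) hq hj1 hjb,
        hlow.fixball (by omega) ha t1 (by rw [ha1]; exact h1) hp hj1 hjb]
  have hR : p * q * r ∈ Γ.R b β := by
    intro γ' hγ' a ha ha0 i hi0 hib
    by_cases ha1 : a 1 = β
    · rcases eq_or_lt_of_le hi0 with rfl | hi
      · have := hmain _ (ha.rev 2) (by simpa using ha1) 2 (by norm_num) (by omega)
        simpa using this
      · exact hmain a ha ha1 i (by omega) (by omega)
    · obtain ⟨a', ha', h4, h5⟩ := ha.branch_left (n := 0) (w := β) (by rw [ha0]; exact Γ.symm hγ')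
        (by simpa using (Ne.symm ha1))
      have := hmain _ (ha'.shift (-2)) (by simpa using h5) (i + 2) (by omega) (by omega)
      have e : i + 2 + -2 = i := by ring
      simp only [e] at this
      rwa [h4 i hi0] at this
  rcases h.R_small (h.hU5 hb) hβ hR with h6 | h6
  · have : p * q = r⁻¹ := mul_eq_one_iff_eq_inv.1 h6
    rw [this]; exact inv_mem hr
  · have : p * q = Γ.z β * r⁻¹ := by rw [← h6]; group
    rw [this]
    exact mul_mem (Γ.Z_up hβ h3 (Γ.z_mem β)) (inv_mem hr)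

end Geo

end Cfsg.Agent.H48.Ge
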