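import Cfsg.Agent.H48.GeO3

/-! PIECE O6: contradiction for b ≥ 5 from `V4` (V4 is proved in GeO5).

E-lemma: crit b a i ⇒ with x ∈ Z (a (i-1)) \ Z (a i), y ∈ Z (a (i+b)) \ Z (a (i+b-1)),
 e = x (y x y⁻¹) = (x y x⁻¹) y: e ∈ Z (a (i+1)) \ Z (a i) and e ∈ Z (a (i+b-2)) (V4 for β = a i and neighbours
 a (i-1), y•a (i-1), third = a (i+1); V4 for a (i+b-1), neighbours x • a (i+b), a (i+b), third a (i+b-2)); use e_spec.
F-lemma: crit b a i and crit b a (i+2) ⇒ e = z (a (i+2)), in particular z (a (i+2)) ∈ Z (a (i+b-2)): e ∈ Z (a (i+b-2)) ≤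
 Q (a (i+b+1)) (distance 3 < b), e ∈ Z (a (i+1)); by notMem for crit b a (i+2): e ∈ Z (a (i+2)), e ≠ 1.
b ≥ 7: start with a critical at i = 1; by C1 twice (and crit_congr) an arc a critical at
 i = 1, -1, -3. F-lemma (i = -3): z (a (-1)) ∈ Z (a (b-5)) ≤ Q (a b) (distance 5 < b). But notMem
 for crit b a 1: z (a (-1)) ∈ Z (a 0) \ Z (a 1) (sib) so ∉ Q (a b). Contradiction.
b = 5: Tr 4 (OK.tr4) so all arcs are critical (crit_of_tr). F-lemma: for every arc a with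
 ty (a 0) = true: (z (a (-1)) * z (a 7))² = z (a 3)   (x = z (a (-1)) ∈ Z (a 0) \ Z (a 1), y = z (a 7) ∈
 Z (a 6) \ Z (a 5)). Let p = z (a (-1)), q = z (a 9). p fixes a 4, a 5 (Low.fix2, distance 6 = b+1)
 and p ∉ Q (a 5) (notMem, crit b a 1) so p • a 6 ≠ a 6. The arc c (j) = a (5+j) for j ≥ 0,
 c (j) = p • a (5-j) for j ≤ 0 is an arc, and the above for c (shifted) gives
 (z (p • a 9) * z (a 9))² = z (a 5), i.e. (p q p⁻¹ q)² = (p q)^4 = z (a 5). Reversing the arc: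
 (q p)^4 = z (a 3). (q p)^4 = ((p q)^4)⁻¹ = z (a 5). So z (a 3) = z (a 5): contradiction to sib (γ = a 4). -/

set_option autoImplicit false

open MulAction

namespace Cfsg.Agent.H48.Ge

variable {G V : Type*} [Group G] [MulAction G V]

namespace Geo

variable {Γ : Geo G V} {b : ℤ}

/-- the property proved in GeO5 -/
def V4P (Γ : Geo G V) : Prop := ∀ (β γ δ l : V), Γ.ty β = false → Γ.adj β γ → Γ.adj β δ →
  Γ.adj β l → γ ≠ δ → γ ≠ l → δ ≠ l → ∀ (p q : G), p ∈ Γ.Z γ → p ∉ Γ.Z β → q ∈ Γ.Z δ →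
  q ∉ Γ.Z β → p * q ∈ Γ.Z l

theorem z_up {γ ε : V} (hγ : Γ.ty γ = true) (h1 : Γ.adj γ ε) : Γ.z ε ∈ Γ.Z γ := by
  have : Γ.ty ε = false := by rw [Γ.adj_ty h1, hγ]; rfl
  exact Γ.Z_up this (Γ.symm h1) (Γ.z_mem ε)

theorem z_notMem {γ β ε : V} (hγ : Γ.ty γ = true) (h1 : Γ.adj γ ε) (h2 : Γ.adj γ β)
    (hne : ε ≠ β) : Γ.z ε ∉ Γ.Z β :=
  fun h => Γ.z_ne ε (Γ.sib hγ h1 h2 hne (Γ.z_mem ε) h)

theorem OK.e_mem (h : Γ.OK b) (v4 : V4P Γ) {a : ℤ → V} {i : ℤ} (ha : Γ.Arc a)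
    (hi : Γ.ty (a i) = false) (hc : Γ.crit b a i) {x y : G} (hx : x ∈ Γ.Z (a (i - 1)))
    (hx' : x ∉ Γ.Z (a i)) (hy : y ∈ Γ.Z (a (i + b))) (hy' : y ∉ Γ.Z (a (i + b - 1))) :
    x * (y * x * y⁻¹) ∈ Γ.Z (a (i + 1)) ∧ x * (y * x * y⁻¹) ∈ Γ.Z (a (i + b - 2)) := by
  obtain ⟨e1, e2, e3, e4, e5, e6, e7, -, -, -, -, e8, e9, -, e10, e11, e12, e13⟩ :=
    h.e_spec ha hi hc hx hx' hy hy'
  refine ⟨?_, ?_⟩
  · exact v4 (a i) (a (i - 1)) (y • a (i - 1)) (a (i + 1)) hi (ha.adj' (Or.inr (by omega))) e3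
      (ha.adj i) e4.symm (ha.ne' (Or.inl (by omega))) e5 x _ hx hx' e6 e7
  · rw [e8]
    have hb1 : Γ.ty (a (i + b - 1)) = false := by
      rw [ha.ty_even (i := i) (j := i + b - 1), hi]
      obtain ⟨k, hk⟩ := h.odd
      exact ⟨k, by omega⟩
    refine v4 (a (i + b - 1)) (x • a (i + b)) (a (i + b)) (a (i + b - 2)) hb1 e10
      (ha.adj' (Or.inl (by omega))) (ha.adj' (Or.inr (by omega))) e11 e12
      (ha.ne' (Or.inr (by omega))) _ y e13 ?_ hy hy'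
    intro hcon
    apply hy'
    have h1 := Γ.Z_conj x⁻¹ hcon
    rw [inv_smul_eq_iff.2 e9.symm] at h1
    have h2 : x⁻¹ * (x * y * x⁻¹) * x⁻¹⁻¹ = y := by group
    rwa [h2] at h1

theorem OK.e_eq (h : Γ.OK b) (hb : 5 ≤ b) (v4 : V4P Γ) {a : ℤ → V} {i : ℤ} (ha : Γ.Arc a)
    (hi : Γ.ty (a i) = false) (hc : Γ.crit b a i) (hc2 : Γ.crit b a (i + 2)) {x y : G}
    (hx : x ∈ Γ.Z (a (i - 1)))
    (hx' : x ∉ Γ.Z (a i)) (hy : y ∈ Γ.Z (a (i + b))) (hy' : y ∉ Γ.Z (a (i + b - 1))) :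
    x * (y * x * y⁻¹) = Γ.z (a (i + 2)) ∧ Γ.z (a (i + 2)) ∈ Γ.Z (a (i + b - 2)) := by
  obtain ⟨h1, h2⟩ := h.e_mem v4 ha hi hc hx hx' hy hy'
  have h3 : x * (y * x * y⁻¹) ∉ Γ.Z (a i) := (h.e_spec ha hi hc hx hx' hy hy').2.2.2.2.2.2.2.1
  have h4 : Γ.ty (a (i + 2)) = false := by
    rw [ha.ty_even (i := i) (j := i + 2) ⟨1, by omega⟩, hi]
  have h5 : Γ.ty (a (i + b - 2)) = true := by
    rw [ha.ty_odd (i := i) (j := i + b - 2), hi]; · rfl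
    obtain ⟨k, hk⟩ := h.odd
    exact ⟨k - 1, by omega⟩
  have h6 : x * (y * x * y⁻¹) ∈ Γ.Z (a (i + 2)) := by
    by_contra hcon
    have h7 := h.notMem ha (i := i + 2) h4 hc2
      (by rw [show i + 2 - 1 = i + 1 by ring]; exact h1) hcon
    exact h7 (h.low.le ha h5 (by omega) (by omega) h2)
  have h8 : x * (y * x * y⁻¹) = Γ.z (a (i + 2)) := by
    rcases h.k1.eq h4 h6 with h9 | h9
    · exact absurd (h9 ▸ Subgroup.one_mem _) h3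
    · exact h9
  exact ⟨h8, h8 ▸ h2⟩

/-- all arcs critical: `(z (a (-1)) z (a (b+2)))² = z (a 3)` -/
theorem OK.sq_eq (h : Γ.OK b) (hb : 5 ≤ b) (v4 : V4P Γ)
    (hall : ∀ (a : ℤ → V) (i : ℤ), Γ.Arc a → Γ.ty (a i) = false → Γ.crit b a i)
    {a : ℤ → V} (ha : Γ.Arc a) (h0 : Γ.ty (a 0) = true) :
    (Γ.z (a (-1)) * Γ.z (a (b + 2))) * (Γ.z (a (-1)) * Γ.z (a (b + 2))) = Γ.z (a 3) := by
  obtain ⟨k, hk⟩ := h.odd
  have t1 : Γ.ty (a 1) = false := by rw [ha.ty_odd (i := 0) (j := 1) ⟨0, by omega⟩, h0]; rfl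
  have t3 : Γ.ty (a 3) = false := by rw [ha.ty_odd (i := 0) (j := 3) ⟨1, by omega⟩, h0]; rfl
  have tb : Γ.ty (a (b + 1)) = true := by
    rw [ha.ty_even (i := 0) (j := b + 1) ⟨k + 1, by omega⟩, h0]
  have tb2 : Γ.ty (a (b + 2)) = false := by
    rw [ha.ty_odd (i := 0) (j := b + 2) ⟨k + 1, by omega⟩, h0]; rfl
  have hx : Γ.z (a (-1)) ∈ Γ.Z (a (1 - 1)) := by
    rw [show (1 : ℤ) - 1 = 0 by norm_num]
    exact z_up h0 (ha.adj' (Or.inr (by omega)))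
  have hx' : Γ.z (a (-1)) ∉ Γ.Z (a 1) :=
    z_notMem h0 (ha.adj' (Or.inr (by omega))) (ha.adj' (Or.inl (by omega)))
      (ha.ne' (Or.inl (by omega)))
  have hy : Γ.z (a (b + 2)) ∈ Γ.Z (a (1 + b)) := by
    rw [show 1 + b = b + 1 by ring]
    exact z_up tb (ha.adj' (Or.inl (by omega)))
  have hy' : Γ.z (a (b + 2)) ∉ Γ.Z (a (1 + b - 1)) := by
    rw [show 1 + b - 1 = b by ring]
    exact z_notMem tb (ha.adj' (Or.inl (by omega))) (ha.adj' (Or.inr (by omega)))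
      (ha.ne' (Or.inr (by omega)))
  have h1 := (h.e_eq hb v4 ha (i := 1) t1 (hall a 1 ha t1) (hall a (1 + 2) ha (by
    rw [show (1 : ℤ) + 2 = 3 by norm_num]; exact t3)) hx hx' hy hy').1
  rw [show (1 : ℤ) + 2 = 3 by norm_num] at h1
  have h2 : (Γ.z (a (b + 2)))⁻¹ = Γ.z (a (b + 2)) :=
    inv_eq_of_mul_eq_one_left (Γ.Z_sq2 tb2 (Γ.z_mem _))
  rw [h2] at h1
  rw [← h1]
  group

theorem OK.false_ge7 (h : Γ.OK b) (hb : 7 ≤ b) (v4 : V4P Γ) : False := by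
  obtain ⟨k, hk⟩ := h.odd
  obtain ⟨a, ha, h0, hca⟩ := h.cr
  have t1 : Γ.ty (a 1) = false := by rw [ha.ty_odd (i := 0) (j := 1) ⟨0, by omega⟩, h0]; rfl
  have hc1 : Γ.crit b a 1 := by
    unfold crit
    rw [show (1 : ℤ) - 1 = 0 by norm_num, show 1 + b - 1 = b by ring]
    exact hca
  obtain ⟨a', ha', haa', hc'⟩ := h.C1 (by omega) ha t1 hc1
  have t1' : Γ.ty (a' 1) = false := by rw [haa' 1 (by omega), t1]
  have hc1' : Γ.crit b a' 1 :=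
    h.crit_congr ha ha' t1 (fun j hj _ => (haa' j (by omega)).symm) hc1
  have tm1' : Γ.ty (a' (1 - 2)) = false := by
    rw [ha'.ty_even (i := 1) (j := 1 - 2) ⟨-1, by omega⟩, t1']
  obtain ⟨c, hc, hca', hcc⟩ := h.C1 (by omega) ha' tm1' hc'
  have s1 : Γ.ty (c 1) = false := by rw [hca' 1 (by omega), t1']
  have cr1 : Γ.crit b c 1 :=
    h.crit_congr ha' hc t1' (fun j hj _ => (hca' j (by omega)).symm) hc1'
  have cr2 : Γ.crit b c (1 - 2) :=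
    h.crit_congr ha' hc tm1' (fun j hj _ => (hca' j (by omega)).symm) hc'
  -- positions: crit at 1, -1, -3
  have e1 : (1 : ℤ) - 2 = -1 := by norm_num
  have e3 : (1 : ℤ) - 2 - 2 = -3 := by norm_num
  rw [e3] at hcc
  rw [e1] at cr2
  have s0 : Γ.ty (c 0) = true := by
    rw [hc.ty_odd (i := 1) (j := 0) ⟨-1, by omega⟩, s1]; rfl
  have sm3 : Γ.ty (c (-3)) = false := by
    rw [hc.ty_even (i := 1) (j := -3) ⟨-2, by omega⟩, s1]
  have sm4 : Γ.ty (c (-4)) = true := by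
    rw [hc.ty_odd (i := 1) (j := -4) ⟨-3, by omega⟩, s1]; rfl
  have sb : Γ.ty (c (-3 + b)) = true := by
    rw [hc.ty_odd (i := 1) (j := -3 + b) ⟨k - 2, by omega⟩, s1]; rfl
  have hx : Γ.z (c (-5)) ∈ Γ.Z (c (-3 - 1)) := by
    rw [show (-3 : ℤ) - 1 = -4 by norm_num]
    exact z_up sm4 (hc.adj' (Or.inr (by omega)))
  have hx' : Γ.z (c (-5)) ∉ Γ.Z (c (-3)) :=
    z_notMem sm4 (hc.adj' (Or.inr (by omega))) (hc.adj' (Or.inl (by omega)))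
      (hc.ne' (Or.inl (by omega)))
  have hy : Γ.z (c (-3 + b + 1)) ∈ Γ.Z (c (-3 + b)) := z_up sb (hc.adj' (Or.inl (by omega)))
  have hy' : Γ.z (c (-3 + b + 1)) ∉ Γ.Z (c (-3 + b - 1)) :=
    z_notMem sb (hc.adj' (Or.inl (by omega))) (hc.adj' (Or.inr (by omega)))
      (hc.ne' (Or.inr (by omega)))
  have h1 := (h.e_eq (by omega) v4 hc (i := -3) sm3 hcc (by
    rw [show (-3 : ℤ) + 2 = -1 by norm_num]; exact cr2) hx hx' hy hy').2
  rw [show (-3 : ℤ) + 2 = -1 by norm_num] at h1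
  have sb5 : Γ.ty (c (-3 + b - 2)) = true := by
    rw [hc.ty_odd (i := 1) (j := -3 + b - 2) ⟨k - 3, by omega⟩, s1]; rfl
  have h2 : Γ.z (c (-1)) ∈ Γ.Q (c b) := h.low.le hc sb5 (by omega) (by omega) h1
  have h3 : Γ.z (c (-1)) ∈ Γ.Z (c (1 - 1)) := by
    rw [show (1 : ℤ) - 1 = 0 by norm_num]
    exact z_up s0 (hc.adj' (Or.inr (by omega)))
  have h4 : Γ.z (c (-1)) ∉ Γ.Z (c 1) :=
    z_notMem s0 (hc.adj' (Or.inr (by omega))) (hc.adj' (Or.inl (by omega)))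
      (hc.ne' (Or.inl (by omega)))
  have h5 := h.notMem hc s1 cr1 h3 h4
  rw [show 1 + b - 1 = b by ring] at h5
  exact h5 h2

/-- b = 5: `(z (a (-1)) z (a 9))⁴ = z (a 5)` -/
theorem OK.four_eq (h : Γ.OK 5) (v4 : V4P Γ)
    (hall : ∀ (a : ℤ → V) (i : ℤ), Γ.Arc a → Γ.ty (a i) = false → Γ.crit 5 a i)
    {a : ℤ → V} (ha : Γ.Arc a) (h0 : Γ.ty (a 0) = true) :
    (Γ.z (a (-1)) * Γ.z (a 9)) * (Γ.z (a (-1)) * Γ.z (a 9)) *
      ((Γ.z (a (-1)) * Γ.z (a 9)) * (Γ.z (a (-1)) * Γ.z (a 9))) = Γ.z (a 5) := by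
  have t1 : Γ.ty (a 1) = false := by rw [ha.ty_odd (i := 0) (j := 1) ⟨0, by omega⟩, h0]; rfl
  have tm1 : Γ.ty (a (-1)) = false := by
    rw [ha.ty_odd (i := 0) (j := -1) ⟨-1, by omega⟩, h0]; rfl
  have t8 : Γ.ty (a 8) = true := by rw [ha.ty_even (i := 0) (j := 8) ⟨4, by omega⟩, h0]
  have t9 : Γ.ty (a 9) = false := by rw [ha.ty_odd (i := 0) (j := 9) ⟨4, by omega⟩, h0]; rfl
  set p := Γ.z (a (-1)) with hp
  have hpZ : p ∈ Γ.Z (a (-1)) := Γ.z_mem _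
  have hp4 : p • a 4 = a 4 := h.low.fix2 (by omega) ha tm1 (by omega) (by omega) hpZ
  have hp5 : p • a 5 = a 5 := h.low.fix2 (by omega) ha tm1 (by omega) (by omega) hpZ
  have hpx : p ∈ Γ.Z (a (1 - 1)) := by
    rw [show (1 : ℤ) - 1 = 0 by norm_num]
    exact z_up h0 (ha.adj' (Or.inr (by omega)))
  have hpx' : p ∉ Γ.Z (a 1) :=
    z_notMem h0 (ha.adj' (Or.inr (by omega))) (ha.adj' (Or.inl (by omega)))
      (ha.ne' (Or.inl (by omega)))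
  have hpQ : p ∉ Γ.Q (a 5) := by
    have := h.notMem ha t1 (hall a 1 ha t1) hpx hpx'
    rwa [show (1 : ℤ) + 5 - 1 = 5 by norm_num] at this
  have hp6 : p • a 6 ≠ a 6 := by
    intro e
    exact hpQ (Γ.mem_Q_of_fix (v := a 5) (a := a 4) (b := a 6) (ha.adj' (Or.inr (by omega)))
      (ha.adj' (Or.inl (by omega))) (ha.ne' (Or.inl (by omega))) hp5 hp4 e)
  -- the folded arc
  let c : ℤ → V := fun j => if 0 ≤ j then a (5 + j) else p • a (5 - j)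
  have cpos : ∀ j : ℤ, 0 ≤ j → c j = a (5 + j) := fun j hj => if_pos hj
  have cneg : ∀ j : ℤ, j ≤ 0 → c j = p • a (5 - j) := by
    intro j hj
    rcases hj.eq_or_lt with rfl | hj
    · rw [cpos 0 le_rfl, show (5 : ℤ) + 0 = 5 by norm_num, show (5 : ℤ) - 0 = 5 by norm_num, hp5]
    · exact if_neg (by omega)
  have hc : Γ.Arc c := by
    refine ⟨fun j => ?_, fun j => ?_⟩
    · by_cases hj : 0 ≤ j
      · rw [cpos j hj, cpos (j + 1) (by omega)]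
        exact ha.adj' (Or.inl (by omega))
      · rw [cneg j (by omega), cneg (j + 1) (by omega)]
        exact Γ.adj_smul p (ha.adj' (Or.inr (by omega)))
    · by_cases hj : 0 ≤ j
      · rw [cpos j hj, cpos (j + 2) (by omega)]
        exact ha.ne' (Or.inl (by omega))
      · by_cases hj2 : j = -1
        · subst hj2
          rw [cneg (-1) (by omega), cpos (-1 + 2) (by omega),
            show (5 : ℤ) - -1 = 6 by norm_num, show (5 : ℤ) + (-1 + 2) = 6 by norm_num]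
          exact hp6
        · rw [cneg j (by omega), cneg (j + 2) (by omega)]
          intro e
          exact ha.ne' (i := 5 - j) (j := 5 - (j + 2)) (Or.inr (by omega)) (smul_left_cancel p e)
  have h1 := h.sq_eq (by omega) v4 hall (hc.shift (-3)) (by
    show Γ.ty (c (0 + -3)) = true
    rw [cneg _ (by omega), Γ.ty_smul, show (5 : ℤ) - (0 + -3) = 8 by norm_num, t8])
  simp only [show (-1 : ℤ) + -3 = -4 by norm_num, show (5 : ℤ) + 2 + -3 = 4 by norm_num,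
    show (3 : ℤ) + -3 = 0 by norm_num] at h1
  rw [cneg (-4) (by omega), cpos 4 (by omega), cpos 0 (by omega),
    show (5 : ℤ) - -4 = 9 by norm_num, show (5 : ℤ) + 4 = 9 by norm_num,
    show (5 : ℤ) + 0 = 5 by norm_num, ← h.k1.z_conj t9] at h1
  have h2 : p⁻¹ = p := inv_eq_of_mul_eq_one_left (Γ.Z_sq2 tm1 hpZ)
  rw [h2] at h1
  rw [← h1]
  group

theorem OK.false_five (h : Γ.OK 5) (v4 : V4P Γ) : False := by
  have hall : ∀ (a : ℤ → V) (i : ℤ), Γ.Arc a → Γ.ty (a i) = false → Γ.crit 5 a i :=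
    fun a i ha hi => h.crit_of_tr (by rw [show (5 : ℤ) - 1 = 4 by norm_num]; exact h.tr4) ha hi
  obtain ⟨a, ha, h0, -⟩ := h.cr
  have tm1 : Γ.ty (a (-1)) = false := by
    rw [ha.ty_odd (i := 0) (j := -1) ⟨-1, by omega⟩, h0]; rfl
  have t4 : Γ.ty (a 4) = true := by rw [ha.ty_even (i := 0) (j := 4) ⟨2, by omega⟩, h0]
  have t5 : Γ.ty (a 5) = false := by rw [ha.ty_odd (i := 0) (j := 5) ⟨2, by omega⟩, h0]; rfl
  have t8 : Γ.ty (a 8) = true := by rw [ha.ty_even (i := 0) (j := 8) ⟨4, by omega⟩, h0]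
  have t9 : Γ.ty (a 9) = false := by rw [ha.ty_odd (i := 0) (j := 9) ⟨4, by omega⟩, h0]; rfl
  have h1 := h.four_eq v4 hall ha h0
  have h2 := h.four_eq v4 hall (ha.rev 8) (by
    show Γ.ty (a (8 - 0)) = true
    rw [show (8 : ℤ) - 0 = 8 by norm_num, t8])
  simp only [show (8 : ℤ) - -1 = 9 by norm_num, show (8 : ℤ) - 9 = -1 by norm_num,
    show (8 : ℤ) - 5 = 3 by norm_num] at h2
  have hp : (Γ.z (a (-1)))⁻¹ = Γ.z (a (-1)) :=
    inv_eq_of_mul_eq_one_left (Γ.Z_sq2 tm1 (Γ.z_mem _))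
  have hq : (Γ.z (a 9))⁻¹ = Γ.z (a 9) :=
    inv_eq_of_mul_eq_one_left (Γ.Z_sq2 t9 (Γ.z_mem _))
  have h5 : (Γ.z (a 5))⁻¹ = Γ.z (a 5) :=
    inv_eq_of_mul_eq_one_left (Γ.Z_sq2 t5 (Γ.z_mem _))
  have h3 : Γ.z (a 3) = Γ.z (a 5) := by
    rw [← h5, ← h1, ← h2]
    simp only [mul_inv_rev, hp, hq]
  apply Γ.z_ne (a 3)
  refine Γ.sib t4 (β := a 3) (β' := a 5) (ha.adj' (Or.inr (by omega)))
    (ha.adj' (Or.inl (by omega))) (ha.ne' (Or.inl (by omega))) (Γ.z_mem _) ?_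
  rw [h3]
  exact Γ.z_mem _

theorem OK.false_of_v4 (h : Γ.OK b) (hb : 5 ≤ b)
    (v4 : ∀ {β γ δ l : V}, Γ.ty β = false → Γ.adj β γ → Γ.adj β δ → Γ.adj β l → γ ≠ δ → γ ≠ l →
      δ ≠ l → ∀ {p q : G}, p ∈ Γ.Z γ → p ∉ Γ.Z β → q ∈ Γ.Z δ → q ∉ Γ.Z β → p * q ∈ Γ.Z l) :
    False := by
  have v4' : V4P Γ := fun β γ δ l h1 h2 h3 h4 h5 h6 h7 p q h8 h9 h10 h11 =>
    v4 h1 h2 h3 h4 h5 h6 h7 h8 h9 h10 h11
  rcases hb.eq_or_lt with rfl | hb'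
  · exact h.false_five v4'
  · obtain ⟨k, hk⟩ := h.odd
    exact h.false_ge7 (by omega) v4'

end Geo

end Cfsg.Agent.H48.Ge
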