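import Cfsg.Agent.H48.GeO2

/-! PIECE O7a (helper48): b = 3, commutator facts. -/

set_option autoImplicit false

open MulAction

namespace Cfsg.Agent.H48.Ge

variable {G V : Type*} [Group G] [MulAction G V]

namespace Geo

variable {Γ : Geo G V}

theorem ty_nb {β γ : V} (hβ : Γ.ty β = false) (h : Γ.adj β γ) : Γ.ty γ = true := by
  rw [Γ.adj_ty h, hβ]; rfl

theorem ty_nb' {β γ : V} (hβ : Γ.ty β = true) (h : Γ.adj β γ) : Γ.ty γ = false := by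
  rw [Γ.adj_ty h, hβ]; rfl

/-- `Z δ₁ ≤ Q δ₂` for neighbours of a type-2 vertex -/
theorem mem_Q2 (hL : Γ.Low 3) {β δ₁ δ₂ : V} (hβ : Γ.ty β = false) (h1 : Γ.adj β δ₁)
    (h2 : Γ.adj β δ₂) {x : G} (hx : x ∈ Γ.Z δ₁) : x ∈ Γ.Q δ₂ := by
  by_cases he : δ₁ = δ₂
  · subst he; exact hL.Z_le_Q (by norm_num) x hx
  · obtain ⟨a, ha, ha1, ha2, ha3⟩ := Γ.exists_arc3 0 h1 h2 he
    have ht : Γ.ty (a (0 - 1)) = true := by rw [ha1]; exact ty_nb hβ h1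
    have := hL.le ha (i := 0 - 1) (j := 0 + 1) ht (by norm_num) (by norm_num)
    rw [ha1, ha3] at this
    exact this hx

theorem comm2 (hL : Γ.Low 3) {β δ₁ δ₂ : V} (hβ : Γ.ty β = false) (h1 : Γ.adj β δ₁)
    (h2 : Γ.adj β δ₂) {x y : G} (hx : x ∈ Γ.Z δ₁) (hy : y ∈ Γ.Z δ₂) : x * y = y * x :=
  Γ.Q_comm (mem_Q2 hL hβ h1 h2 hx) hy

/-- half of the b = 3 argument -/
theorem half (hL : Γ.Low 3) {γ β δ δ' : V} (hγ : Γ.ty γ = true) (hβ : Γ.adj γ β)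
    (h1 : Γ.adj β δ) (h2 : Γ.adj β δ') {p p' : G} (hp : p ∈ Γ.Z δ) (hp' : p' ∈ Γ.Z δ') :
    ∀ n, n ∈ Γ.Q β → (p * p') * (n * (p * p') * n⁻¹) ∈ Γ.Z β := by
  intro n hn
  have hβ2 : Γ.ty β = false := ty_nb' hγ hβ
  have h3 := hL.comm_mem (by norm_num) (ty_nb hβ2 h1) (Γ.symm h1) hp (Γ.Q_fix' hn h1) (Γ.Q_fix hn)
  have h4 := hL.comm_mem (by norm_num) (ty_nb hβ2 h2) (Γ.symm h2) hp' (Γ.Q_fix' hn h2)
    (Γ.Q_fix hn)
  have h5 : n * p * n⁻¹ ∈ Γ.Z δ := by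
    have := Γ.Z_conj n hp
    rwa [Γ.Q_fix' hn h1] at this
  have h6 := comm2 hL hβ2 h1 h2 h5 hp'
  have : (p * p') * (n * (p * p') * n⁻¹) = (p * (n * p * n⁻¹)) * (p' * (n * p' * n⁻¹)) := by
    calc (p * p') * (n * (p * p') * n⁻¹) = p * (p' * (n * p * n⁻¹)) * (n * p' * n⁻¹) := by group
      _ = p * ((n * p * n⁻¹) * p') * (n * p' * n⁻¹) := by rw [h6]
      _ = (p * (n * p * n⁻¹)) * (p' * (n * p' * n⁻¹)) := by group
  rw [this]
  exact Subgroup.mul_mem _ h3 h4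

theorem half' (hL : Γ.Low 3) {γ β δ δ' : V} (hγ : Γ.ty γ = true) (hβ : Γ.adj γ β)
    (h1 : Γ.adj β δ) (h2 : Γ.adj β δ') {p p' q : G} (hp : p ∈ Γ.Z δ) (hp' : p' ∈ Γ.Z δ')
    (hq : q • β = β) (hqγ : q • γ = γ) (hqQ : q ∉ Γ.Q β) (hc : q * (p * p') = p * p' * q) :
    ∀ n, n ∈ Γ.Q γ → (p * p') * (n * (p * p') * n⁻¹) ∈ Γ.Z β := by
  intro n hn
  have hβ2 : Γ.ty β = false := ty_nb' hγ hβ
  by_cases hnQ : n ∈ Γ.Q β
  · exact half hL hγ hβ h1 h2 hp hp' n hnQ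
  · have h3 : q * n ∈ Γ.Q β := Γ.mul_mem_Q (Γ.symm hβ) hq hqγ hqQ (Γ.Q_fix' hn hβ)
      (Γ.Q_fix hn) hnQ
    have h4 := half hL hγ hβ h1 h2 hp hp' _ h3
    have h5 := Γ.Z_cen hβ2 h4 hq
    have h6 : (p * p') * (n * (p * p') * n⁻¹) =
        q⁻¹ * ((p * p') * ((q * n) * (p * p') * (q * n)⁻¹)) * q := by
      have : q⁻¹ * (p * p') = p * p' * q⁻¹ := by
        calc q⁻¹ * (p * p') = q⁻¹ * ((p * p') * q) * q⁻¹ := by group
          _ = q⁻¹ * (q * (p * p')) * q⁻¹ := by rw [hc]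
          _ = p * p' * q⁻¹ := by group
      calc (p * p') * (n * (p * p') * n⁻¹)
          = (p * p') * q⁻¹ * ((q * n) * (p * p') * (q * n)⁻¹) * q := by group
        _ = q⁻¹ * (p * p') * ((q * n) * (p * p') * (q * n)⁻¹) * q := by rw [this]
        _ = _ := by group
    rw [h6, mul_assoc, ← h5, inv_mul_cancel_left]
    exact h4

theorem OK.tr2 (_h : Γ.OK 3) : Γ.Tr (3 - 1) := by
  have := Γ.tr_two
  norm_num
  exact this

/-- arcs through five given vertices -/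
theorem arc5 {δ β γ β' μ : V} (h1 : Γ.adj γ β) (h2 : Γ.adj γ β') (h12 : β ≠ β')
    (hδ : Γ.adj β δ) (hδγ : δ ≠ γ) (hμ : Γ.adj β' μ) (hμγ : μ ≠ γ) :
    ∃ a : ℤ → V, Γ.Arc a ∧ a 0 = δ ∧ a 1 = β ∧ a 2 = γ ∧ a 3 = β' ∧ a 4 = μ := by
  obtain ⟨a, ha, ha1, ha2, ha3⟩ := Γ.exists_arc3 2 h1 h2 h12
  norm_num at ha1 ha3
  obtain ⟨a', ha', h3, h4⟩ := ha.branch (n := 3) (w := μ) (by rw [ha3]; exact hμ)
    (by norm_num; rw [ha2]; exact hμγ)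
  norm_num at h4
  obtain ⟨a'', ha'', h5, h6⟩ := ha'.branch_left (n := 1) (w := δ)
    (by rw [h3 1 (by norm_num), ha1]; exact hδ)
    (by norm_num; rw [h3 2 (by norm_num), ha2]; exact hδγ)
  norm_num at h6
  refine ⟨a'', ha'', h6, ?_, ?_, ?_, ?_⟩
  · rw [h5 1 (by norm_num), h3 1 (by norm_num), ha1]
  · rw [h5 2 (by norm_num), h3 2 (by norm_num), ha2]
  · rw [h5 3 (by norm_num), h3 3 (by norm_num), ha3]
  · rw [h5 4 (by norm_num), h4]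

/-- path δ - β - γ - β' - μ (types 1,2,1,2,1), Δ(γ) = {β, β', β''} -/
theorem OK.comm3 (h : Γ.OK 3) {δ β γ β' μ β'' : V} (hγ : Γ.ty γ = true) (h1 : Γ.adj γ β)
    (h2 : Γ.adj γ β') (h3 : Γ.adj γ β'') (h12 : β ≠ β') (h13 : β ≠ β'') (h23 : β' ≠ β'')
    (hδ : Γ.adj β δ) (hδγ : δ ≠ γ) (hμ : Γ.adj β' μ) (hμγ : μ ≠ γ) {x y : G} (hx : x ∈ Γ.Z δ)
    (hx' : x ∉ Γ.Z β) (hy : y ∈ Γ.Z μ) (hy' : y ∉ Γ.Z β') :
    x * (y * x * y⁻¹) = Γ.z β'' := by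
  have hL := h.low
  have hL1 := h.toOH.low1
  have hβ : Γ.ty β = false := ty_nb' hγ h1
  have hβ' : Γ.ty β' = false := ty_nb' hγ h2
  obtain ⟨a, ha, a0, a1, a2, a3, a4⟩ := arc5 h1 h2 h12 hδ hδγ hμ hμγ
  have hi : Γ.ty (a 1) = false := by rw [a1]; exact hβ
  have hc : Γ.crit 3 a 1 := h.toOH.crit_of_tr h.tr2 ha hi
  have hs := h.e_spec (i := 1) (x := x) (y := y) ha hi hc (by norm_num; rw [a0]; exact hx)
    (by rw [a1]; exact hx') (by norm_num; rw [a4]; exact hy) (by norm_num; rw [a3]; exact hy')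
  norm_num at hs
  rw [a0, a1, a2, a3, a4] at hs
  obtain ⟨s1, s2, s3, s4, s5, s6, s7, s8, s9, s10, s11, s12, s13, s14, s15, s16, s17, s18⟩ := hs
  have hxQ : x ∉ Γ.Q β' := by
    have := h.notMem (i := 1) ha hi hc (x := x) (by norm_num; rw [a0]; exact hx)
      (by rw [a1]; exact hx')
    norm_num at this
    rwa [a3] at this
  have hyQ : y ∉ Γ.Q β := by
    have := h.notMem' (i := 1) ha hi hc (y := y) (by norm_num; rw [a4]; exact hy)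
      (by norm_num; rw [a3]; exact hy')
    rwa [a1] at this
  set x' := y * x * y⁻¹ with hx'def
  set e := x * x' with he
  have key1 : ∀ n, n ∈ Γ.Q γ → e * (n * e * n⁻¹) ∈ Γ.Z β :=
    half' hL hγ h1 hδ s3 hx s6 s1 s2 hyQ s10
  have key2 : ∀ n, n ∈ Γ.Q γ → e * (n * e * n⁻¹) ∈ Γ.Z β' := by
    have := half' hL hγ h2 s15 hμ s18 hy s13 s14 hxQ (by rw [← s12]; exact s9)
    intro n hn
    have h6 := this n hn
    rw [← s12] at h6
    exact h6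
  have key3 : ∀ n, n ∈ Γ.Q γ → n * e = e * n := by
    intro n hn
    have h4 := Γ.sib hγ h1 h2 h12 (key1 n hn) (key2 n hn)
    have h5 : n * e * n⁻¹ = e := by
      calc n * e * n⁻¹ = e * e * (n * e * n⁻¹) := by rw [s11, one_mul]
        _ = e * (e * (n * e * n⁻¹)) := by group
        _ = e := by rw [h4, mul_one]
    calc n * e = (n * e * n⁻¹) * n := by group
      _ = e * n := by rw [h5]
  have heQ : e ∈ Γ.Q γ := Subgroup.mul_mem _ (mem_Q2 hL hβ hδ (Γ.symm h1) hx)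
    (mem_Q2 hL hβ s3 (Γ.symm h1) s6)
  -- membership criterion
  obtain ⟨t, htβ, htγ⟩ := Γ.exists_Q_notMem (Γ.symm h1) (h.big (Γ.symm h1))
  have crit : ∀ u : G, u ∈ Γ.Q γ → u * u = 1 → (∀ n, n ∈ Γ.Q γ → n * u = u * n) →
      t * u = u * t → u ∈ Γ.Z β := by
    intro u hu huu hun hut
    refine Γ.Z_om hβ (Γ.symm h1) (Γ.Q_fix' hu h1) (Γ.Q_fix hu) huu ?_
    intro s hs' hs
    by_cases hsQ : s ∈ Γ.Q γ
    · exact hun s hsQ
    · have htf : t • γ = γ := Γ.Q_fix' htβ (Γ.symm h1)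
      have htf' : t • β = β := Γ.Q_fix htβ
      have hti : t⁻¹ ∉ Γ.Q γ := fun e => htγ (by simpa using Subgroup.inv_mem _ e)
      have hq : t⁻¹ * s ∈ Γ.Q γ := Γ.mul_mem_Q h1 (inv_smul_eq_iff.2 htf.symm)
        (inv_smul_eq_iff.2 htf'.symm) hti hs hs' hsQ
      have h3 := hun _ hq
      calc s * u = t * ((t⁻¹ * s) * u) := by group
        _ = t * (u * (t⁻¹ * s)) := by rw [h3]
        _ = (t * u) * (t⁻¹ * s) := by group
        _ = (u * t) * (t⁻¹ * s) := by rw [hut]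
        _ = u * s := by group
  have htf : t • γ = γ := Γ.Q_fix' htβ (Γ.symm h1)
  have htf' : t • β = β := Γ.Q_fix htβ
  have hζ := half hL hγ h1 hδ s3 hx s6 t htβ
  rw [← he] at hζ
  have hζ1 : e * (t * e * t⁻¹) = Γ.z β := by
    rcases h.k1.eq hβ hζ with h4 | h4
    · exfalso
      apply s8
      refine crit e heQ s11 key3 ?_
      have h5 : t * e * t⁻¹ = e := by
        calc t * e * t⁻¹ = e * e * (t * e * t⁻¹) := by rw [s11, one_mul]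
          _ = e * (e * (t * e * t⁻¹)) := by group
          _ = e := by rw [h4, mul_one]
      calc t * e = (t * e * t⁻¹) * t := by group
        _ = e * t := by rw [h5]
    · exact h4
  have hwγ : Γ.z β' ∈ Γ.Z γ := Γ.Z_up hβ' (Γ.symm h2) (Γ.z_mem β')
  have hwβ : Γ.z β' ∉ Γ.Z β := fun h4 => Γ.z_ne β' (Γ.sib hγ h2 h1 h12.symm (Γ.z_mem β') h4)
  set w := Γ.z β' with hw
  have hww : w * w = 1 := Γ.Z_sq2 hβ' (Γ.z_mem β')
  have hw1 : w * (t * w * t⁻¹) = Γ.z β := by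
    rcases h.k1.eq hβ (hL.comm_mem (by norm_num) hγ h1 hwγ htf htf') with h4 | h4
    · exfalso
      apply hwβ
      refine hL.mem_of_comm (by norm_num) hγ h1 hwγ htf htf' htγ ?_
      have h5 : t * w * t⁻¹ = w := by
        calc t * w * t⁻¹ = w * w * (t * w * t⁻¹) := by rw [hww, one_mul]
          _ = w * (w * (t * w * t⁻¹)) := by group
          _ = w := by rw [h4, mul_one]
      calc t * w = (t * w * t⁻¹) * t := by group
        _ = w * t := by rw [h5]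
    · exact h4
  have hwQ : w ∈ Γ.Q γ := hL.Z_le_Q (by norm_num) w hwγ
  have hew : e * w = w * e := Γ.Q_comm heQ hwγ
  have hzz : Γ.z β * Γ.z β = 1 := Γ.Z_sq2 hβ (Γ.z_mem β)
  have hzw : w * Γ.z β = Γ.z β * w := Γ.Z_cen hβ (Γ.z_mem β) (Γ.Q_fix' hwQ h1)
  have hte : t * e * t⁻¹ = e * Γ.z β := by
    calc t * e * t⁻¹ = e * e * (t * e * t⁻¹) := by rw [s11, one_mul]
      _ = e * (e * (t * e * t⁻¹)) := by group
      _ = e * Γ.z β := by rw [hζ1]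
  have htw : t * w * t⁻¹ = w * Γ.z β := by
    calc t * w * t⁻¹ = w * w * (t * w * t⁻¹) := by rw [hww, one_mul]
      _ = w * (w * (t * w * t⁻¹)) := by group
      _ = w * Γ.z β := by rw [hw1]
  have hu : e * w ∈ Γ.Z β := by
    refine crit (e * w) (Subgroup.mul_mem _ heQ hwQ) ?_ ?_ ?_
    · calc e * w * (e * w) = e * (w * e) * w := by group
        _ = e * (e * w) * w := by rw [hew]
        _ = (e * e) * (w * w) := by group
        _ = 1 := by rw [s11, hww, one_mul]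
    · intro n hn
      have h5 := key3 n hn
      have h6 := Γ.Q_comm hn hwγ
      calc n * (e * w) = (n * e) * w := by group
        _ = e * (n * w) := by rw [h5]; group
        _ = e * w * n := by rw [h6]; group
    · have : t * (e * w) * t⁻¹ = e * w := by
        calc t * (e * w) * t⁻¹ = (t * e * t⁻¹) * (t * w * t⁻¹) := by group
          _ = (e * Γ.z β) * (w * Γ.z β) := by rw [hte, htw]
          _ = e * (Γ.z β * w) * Γ.z β := by group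
          _ = e * (w * Γ.z β) * Γ.z β := by rw [hzw]
          _ = e * w * (Γ.z β * Γ.z β) := by group
          _ = e * w := by rw [hzz, mul_one]
      calc t * (e * w) = (t * (e * w) * t⁻¹) * t := by group
        _ = e * w * t := by rw [this]
  have heγ : e ∈ Γ.Z γ := by
    have : e = (e * w) * w := by rw [mul_assoc, hww, mul_one]
    rw [this]
    exact Subgroup.mul_mem _ (Γ.Z_up hβ (Γ.symm h1) hu) hwγ
  -- not in Z β'
  have heβ' : e ∉ Γ.Z β' := by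
    intro h4
    have h5 : x * y * x⁻¹ ∈ Γ.Z μ := by
      have h6 : x * y * x⁻¹ = e * y := by
        have hyy := hL.Z_sq (by norm_num) hy
        rw [s12, mul_assoc (x * y * x⁻¹) y y, hyy, mul_one]
      rw [h6]
      exact Subgroup.mul_mem _ (Γ.Z_up hβ' hμ h4) hy
    have h6 := h.k1.inter hL1 hβ' s15 hμ s16 s18 h5
    have h7 := Γ.Z_conj x⁻¹ h6
    rw [inv_smul_eq_iff.2 s13.symm] at h7
    apply hy'
    have h8 : x⁻¹ * (x * y * x⁻¹) * x⁻¹⁻¹ = y := by group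
    rwa [h8] at h7
  rcases (h.k1.mem_iff hL1 hγ h1 h2 h3 h12 h13 h23).1 heγ with h4 | h4 | h4 | h4
  · exact absurd (h4 ▸ Subgroup.one_mem _) s8
  · exact absurd (h4 ▸ Γ.z_mem β) s8
  · exact absurd (h4 ▸ Γ.z_mem β') heβ'
  · exact h4

/-- in the same situation `y ∉ Q β` (all arcs are critical) -/
theorem OK.notMem3 (h : Γ.OK 3) {β γ β' μ : V} (hγ : Γ.ty γ = true) (h1 : Γ.adj γ β)
    (h2 : Γ.adj γ β') (h12 : β ≠ β') (hμ : Γ.adj β' μ) (hμγ : μ ≠ γ) {y : G}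
    (hy : y ∈ Γ.Z μ) (hy' : y ∉ Γ.Z β') : y ∉ Γ.Q β := by
  have hβ : Γ.ty β = false := ty_nb' hγ h1
  obtain ⟨δ, hδ, hδγ⟩ := Γ.exists_nb_ne γ β
  obtain ⟨a, ha, a0, a1, a2, a3, a4⟩ := arc5 h1 h2 h12 hδ hδγ hμ hμγ
  have hi : Γ.ty (a 1) = false := by rw [a1]; exact hβ
  have hc : Γ.crit 3 a 1 := h.toOH.crit_of_tr h.tr2 ha hi
  have := h.notMem' (i := 1) ha hi hc (y := y) (by norm_num; rw [a4]; exact hy)
    (by norm_num; rw [a3]; exact hy')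
  rwa [a1] at this

/-- Δ(β) = {γ, δ, δ'}: p ∈ Z δ \ Z β, q ∈ Z δ' \ Z β ⇒ p q ∈ Z γ -/
theorem OK.v43 (h : Γ.OK 3) {β γ δ δ' : V} (hβ : Γ.ty β = false) (h1 : Γ.adj β γ)
    (h2 : Γ.adj β δ) (h3 : Γ.adj β δ') (h12 : γ ≠ δ) (h13 : γ ≠ δ') (h23 : δ ≠ δ') {p q : G}
    (hp : p ∈ Γ.Z δ) (hp' : p ∉ Γ.Z β) (hq : q ∈ Γ.Z δ') (hq' : q ∉ Γ.Z β) : p * q ∈ Γ.Z γ := by
  have hL := h.low
  have hL1 := h.toOH.low1
  have hγ : Γ.ty γ = true := ty_nb hβ h1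
  obtain ⟨β', hβ'γ, hβ'⟩ := Γ.exists_nb_ne β γ
  obtain ⟨β'', h4, h5, h6, -⟩ := Γ.third (Γ.symm h1) hβ'γ hβ'.symm
  have hβ'2 : Γ.ty β' = false := ty_nb' hγ hβ'γ
  obtain ⟨μ, hμ, hμγ⟩ := Γ.exists_nb_ne γ β'
  have hμ1 : Γ.ty μ = true := ty_nb hβ'2 hμ
  obtain ⟨ε, hε, hεβ'⟩ := Γ.exists_nb_ne β' μ
  have hy : Γ.z ε ∈ Γ.Z μ := Γ.Z_up (ty_nb' hμ1 hε) (Γ.symm hε) (Γ.z_mem ε)
  have hy' : Γ.z ε ∉ Γ.Z β' := fun e =>
    Γ.z_ne ε (Γ.sib hμ1 hε (Γ.symm hμ) hεβ' (Γ.z_mem ε) e)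
  set y := Γ.z ε
  have hc := h.comm3 hγ (Γ.symm h1) hβ'γ h4 hβ'.symm h5.symm h6.symm h2 h12.symm hμ hμγ hp hp' hy
    hy'
  have hyQ := h.notMem3 hγ (Γ.symm h1) hβ'γ hβ'.symm hμ hμγ hy hy'
  have hyγQ : y ∈ Γ.Q γ := mem_Q2 hL hβ'2 hμ (Γ.symm hβ'γ) hy
  have hyγ : y • γ = γ := Γ.Q_fix hyγQ
  have hyβ : y • β = β := Γ.Q_fix' hyγQ (Γ.symm h1)
  obtain ⟨hs, -⟩ := Γ.swap_of_notMem h1 h2 h3 h12 h13 h23 hyβ hyγ hyQ
  have h7 : y * p * y⁻¹ ∈ Γ.Z δ' := by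
    have := Γ.Z_conj y hp
    rwa [hs] at this
  have h8 : y * p * y⁻¹ ∉ Γ.Z β := by
    intro e
    have := Γ.Z_conj y⁻¹ e
    rw [inv_smul_eq_iff.2 hyβ.symm] at this
    apply hp'
    have h9 : y⁻¹ * (y * p * y⁻¹) * y⁻¹⁻¹ = p := by group
    rwa [h9] at this
  have h9 := h.k1.mul_mem hL1 (ty_nb hβ h3) (Γ.symm h3) h7 h8 hq hq'
  have h10 := hL.Z_sq (by norm_num) h7
  have : p * q = (p * (y * p * y⁻¹)) * ((y * p * y⁻¹) * q) := by
    calc p * q = p * ((y * p * y⁻¹) * (y * p * y⁻¹)) * q := by rw [h10, mul_one]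
      _ = _ := by group
  rw [this, hc]
  exact Subgroup.mul_mem _ (Γ.Z_up (ty_nb' hγ h4) (Γ.symm h4) (Γ.z_mem β''))
    (Γ.Z_up hβ h1 h9)

/-- `[Q γ, Z δ] ≤ Z γ` for d(γ, δ) = 2 (path γ - β - δ) -/
theorem OK.vmem (h : Γ.OK 3) {β γ δ : V} (hβ : Γ.ty β = false) (h1 : Γ.adj β γ)
    (h2 : Γ.adj β δ) {n s : G} (hn : n ∈ Γ.Q γ) (hs : s ∈ Γ.Z δ) : n * s * n⁻¹ * s⁻¹ ∈ Γ.Z γ := by
  have hL := h.low
  have hγ : Γ.ty γ = true := ty_nb hβ h1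
  have hδ : Γ.ty δ = true := ty_nb hβ h2
  have hnβ : n • β = β := Γ.Q_fix' hn (Γ.symm h1)
  by_cases hsβ : s ∈ Γ.Z β
  · rw [Γ.Z_cen hβ hsβ hnβ, mul_inv_cancel_right, mul_inv_cancel]
    exact Subgroup.one_mem _
  have hss := hL.Z_sq (by norm_num) hs
  have hsi : s⁻¹ = s := inv_eq_of_mul_eq_one_left hss
  by_cases hnδ : n • δ = δ
  · have h3 := hL.comm_mem (by norm_num) hδ (Γ.symm h2) hs hnδ hnβ
    have h4 : n * s * n⁻¹ ∈ Γ.Z δ := by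
      have := Γ.Z_conj n hs
      rwa [hnδ] at this
    rw [hsi, ← hL.Z_comm (by norm_num) hs h4]
    exact Γ.Z_up hβ h1 h3
  · have hδγ : γ ≠ δ := by
      rintro rfl
      exact hnδ (Γ.Q_fix hn)
    have hnδ' : Γ.adj β (n • δ) := Γ.adj_of_fix hnβ h2
    have hnγ : γ ≠ n • δ := by
      intro e
      apply hδγ
      have := Γ.Q_fix hn
      rw [e] at this
      rw [e]
      exact smul_left_cancel n this
    have h3 := Γ.Z_conj n hs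
    have h4 : n * s * n⁻¹ ∉ Γ.Z β := by
      intro e
      have := Γ.Z_conj n⁻¹ e
      rw [inv_smul_eq_iff.2 hnβ.symm] at this
      apply hsβ
      have h9 : n⁻¹ * (n * s * n⁻¹) * n⁻¹⁻¹ = s := by group
      rwa [h9] at this
    rw [hsi]
    exact h.v43 hβ h1 hnδ' h2 hnγ hδγ hnδ h3 h4 hs hsβ

/-- an element of `Q γ` commuting with `s ∈ Z δ \ Z β` is in `N β` -/
theorem OK.memN (h : Γ.OK 3) {β γ δ : V} (hβ : Γ.ty β = false) (h1 : Γ.adj β γ)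
    (h2 : Γ.adj β δ) (hne : γ ≠ δ) {n s : G} (hn : n ∈ Γ.Q γ) (hs : s ∈ Γ.Z δ) (hs' : s ∉ Γ.Z β)
    (hc : n * s = s * n) : n ∈ Γ.N β := by
  have hL := h.low
  have hL1 := h.toOH.low1
  have hγ : Γ.ty γ = true := ty_nb hβ h1
  have hδ : Γ.ty δ = true := ty_nb hβ h2
  have hnβ : n • β = β := Γ.Q_fix' hn (Γ.symm h1)
  have hnδ : n • δ = δ := by
    by_contra hnδ
    have h3 := Γ.Z_conj n hs
    rw [hc, mul_inv_cancel_right] at h3
    exact hs' (h.k1.inter hL1 hβ (Γ.adj_of_fix hnβ h2) h2 hnδ h3 hs)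
  have hnQ : n ∈ Γ.Q β := Γ.mem_Q_of_fix h1 h2 hne hnβ (Γ.Q_fix hn) hnδ
  have hss := hL.Z_sq (by norm_num) hs
  have hQδ : n ∈ Γ.Q δ := by
    refine Γ.mem_Q_of_comm hδ hnδ fun x hx => ?_
    by_cases hxβ : x ∈ Γ.Z β
    · exact Γ.Z_cen hβ hxβ hnβ
    · have h3 := h.k1.mul_mem hL1 hδ (Γ.symm h2) hx hxβ hs hs'
      have h4 := Γ.Z_cen hβ h3 hnβ
      have : x = (x * s) * s := by rw [mul_assoc, hss, mul_one]
      calc n * x = n * (x * s) * s := by rw [mul_assoc, ← this]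
        _ = (x * s) * (n * s) := by rw [h4]; group
        _ = (x * s) * s * n := by rw [hc]; group
        _ = x * n := by rw [← this]
  refine ⟨hnβ, fun δ' hδ' => ?_⟩
  by_cases e1 : δ' = γ
  · rw [e1]; exact hn
  by_cases e2 : δ' = δ
  · rw [e2]; exact hQδ
  refine Γ.mem_Q_of_comm (ty_nb hβ hδ') (Γ.Q_fix' hnQ hδ') fun x hx => ?_
  by_cases hxβ : x ∈ Γ.Z β
  · exact Γ.Z_cen hβ hxβ hnβ
  · have h3 := h.v43 hβ h1 hδ' h2 (Ne.symm e1) hne e2 hx hxβ hs hs'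
    have h4 := Γ.Q_comm hn h3
    have : x = (x * s) * s := by rw [mul_assoc, hss, mul_one]
    calc n * x = n * (x * s) * s := by rw [mul_assoc, ← this]
      _ = (x * s) * (n * s) := by rw [h4]; group
      _ = (x * s) * s * n := by rw [hc]; group
      _ = x * n := by rw [← this]

end Geo

end Cfsg.Agent.H48.Ge
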