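import Cfsg.Agent.H48.GeO7a

/-! PIECE O7b: b = 3, `N β ∩ N β' ≤ N β''` for Δ(γ) = {β, β', β''} (proved by helper43). -/

set_option autoImplicit false

open MulAction

namespace Cfsg.Agent.H48.Ge

variable {G V : Type*} [Group G] [MulAction G V]

namespace Geo

variable {Γ : Geo G V}

/-- an element of `Z κ \ Z ω` for a neighbour `κ` of the type-2 vertex `ω` -/
theorem exists_mem_notMem {ω κ : V} (hω : Γ.ty ω = false) (h : Γ.adj ω κ) :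
    ∃ p ∈ Γ.Z κ, p ∉ Γ.Z ω := by
  have hκ : Γ.ty κ = true := by rw [Γ.adj_ty h, hω]; rfl
  obtain ⟨ω₂, h2, hne⟩ := Γ.exists_nb_ne ω κ
  have hω₂ : Γ.ty ω₂ = false := by rw [Γ.adj_ty h2, hκ]; rfl
  refine ⟨Γ.z ω₂, Γ.Z_up hω₂ (Γ.symm h2) (Γ.z_mem ω₂), fun hc => ?_⟩
  exact Γ.z_ne ω₂ (Γ.sib hκ h2 (Γ.symm h) hne (Γ.z_mem ω₂) hc)

/-- `Z κ ≤ Q λ` for a path κ - ω - λ (types 1,2,1) -/
theorem OK.Z_le_Q2' (h : Γ.OK 3) {κ ω l : V} (hκ : Γ.ty κ = true) (h1 : Γ.adj ω κ)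
    (h2 : Γ.adj ω l) (hne : κ ≠ l) : Γ.Z κ ≤ Γ.Q l := by
  obtain ⟨a, ha, e0, -, e2⟩ := Γ.exists_arc3 1 h1 h2 hne
  have e0' : a 0 = κ := by simpa using e0
  have e2' : a 2 = l := by simpa using e2
  have := h.low a ha (by rw [e0', hκ]) 2 (by norm_num) (by norm_num)
  rwa [e0', e2'] at this

/-- `Z κ ≤ Q ω` for adjacent κ - ω (types 1,2) -/
theorem OK.Z_le_Q1' (h : Γ.OK 3) {κ ω : V} (hκ : Γ.ty κ = true) (h1 : Γ.adj κ ω) :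
    Γ.Z κ ≤ Γ.Q ω := by
  obtain ⟨a, ha, e0, e1⟩ := Γ.exists_arc h1
  have := h.low a ha (by rw [e0, hκ]) 1 (by norm_num) (by norm_num)
  rwa [e0, e1] at this

theorem OK.M1 (h : Γ.OK 3) {γ β β' β'' κ : V} (hγ : Γ.ty γ = true) (h1 : Γ.adj γ β)
    (h2 : Γ.adj γ β') (h3 : Γ.adj γ β'') (h12 : β ≠ β') (h13 : β ≠ β'') (h23 : β' ≠ β'') {n s : G}
    (hn : n ∈ Γ.N β) (hn' : n ∈ Γ.N β') (hκ : Γ.adj β'' κ) (hκγ : κ ≠ γ) (hs : s ∈ Γ.Z κ)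
    (hs' : s ∉ Γ.Z β'') : n * s * n⁻¹ * s⁻¹ ∈ Γ.Z β' := by
  have hβ : Γ.ty β = false := by rw [Γ.adj_ty h1, hγ]; rfl
  have hβ' : Γ.ty β' = false := by rw [Γ.adj_ty h2, hγ]; rfl
  have hβ'' : Γ.ty β'' = false := by rw [Γ.adj_ty h3, hγ]; rfl
  have hκt : Γ.ty κ = true := by rw [Γ.adj_ty hκ, hβ'']; rfl
  obtain ⟨l, hl, hlγ⟩ := Γ.exists_nb_ne γ β
  have hlt : Γ.ty l = true := by rw [Γ.adj_ty hl, hβ]; rfl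
  obtain ⟨ω, ω', hω, hω', hβω, hβω', hωω'⟩ := Γ.others (Γ.symm hl)
  have hωt : Γ.ty ω = false := by rw [Γ.adj_ty hω, hlt]; rfl
  have hωt' : Γ.ty ω' = false := by rw [Γ.adj_ty hω', hlt]; rfl
  obtain ⟨κ₁, hκ₁, hκ₁l⟩ := Γ.exists_nb_ne l ω
  obtain ⟨κ₂, hκ₂, hκ₂l⟩ := Γ.exists_nb_ne l ω'
  have hκ₁t : Γ.ty κ₁ = true := by rw [Γ.adj_ty hκ₁, hωt]; rfl
  have hκ₂t : Γ.ty κ₂ = true := by rw [Γ.adj_ty hκ₂, hωt']; rfl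
  obtain ⟨p, hp, hpω⟩ := exists_mem_notMem hωt hκ₁
  obtain ⟨p', hp', hpω'⟩ := exists_mem_notMem hωt' hκ₂
  have hpl : p ∈ Γ.Q l := h.Z_le_Q2' hκ₁t hκ₁ (Γ.symm hω) hκ₁l hp
  have hpl' : p' ∈ Γ.Q l := h.Z_le_Q2' hκ₂t hκ₂ (Γ.symm hω') hκ₂l hp'
  have hpβ : p ∉ Γ.Q β := h.notMem3 hlt (Γ.symm hl) hω hβω hκ₁ hκ₁l hp hpω
  have hpβ' : p' ∉ Γ.Q β := h.notMem3 hlt (Γ.symm hl) hω' hβω' hκ₂ hκ₂l hp' hpω'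
  have htβ : p * p' ∈ Γ.Q β := Γ.mul_mem_Q hl (Γ.Q_fix' hpl (Γ.symm hl)) (Γ.Q_fix hpl) hpβ
    (Γ.Q_fix' hpl' (Γ.symm hl)) (Γ.Q_fix hpl') hpβ'
  -- conjugation of `x = z β'`
  have hx : Γ.z β' ∈ Γ.Z γ := Γ.Z_up hβ' (Γ.symm h2) (Γ.z_mem β')
  have hxβ : Γ.z β' ∉ Γ.Z β := fun hc => Γ.z_ne β' (Γ.sib hγ h2 h1 h12.symm (Γ.z_mem β') hc)
  have hx2 : Γ.z β' * Γ.z β' = 1 := Γ.Z_sq2 hβ' (Γ.z_mem β')
  have e1 := h.comm3 hlt (Γ.symm hl) hω' hω hβω' hβω hωω'.symm (Γ.symm h1) hlγ.symm hκ₂ hκ₂l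
    hx hxβ hp' hpω'
  have e2 := h.comm3 hlt (Γ.symm hl) hω hω' hβω hβω' hωω' (Γ.symm h1) hlγ.symm hκ₁ hκ₁l
    hx hxβ hp hpω
  have e1' : p' * Γ.z β' * p'⁻¹ = Γ.z β' * Γ.z ω := by
    rw [← e1, ← mul_assoc, hx2, one_mul]
  have e2' : p * Γ.z β' * p⁻¹ = Γ.z β' * Γ.z ω' := by
    rw [← e2, ← mul_assoc, hx2, one_mul]
  have e3 : p * Γ.z ω = Γ.z ω * p := Γ.Z_cen hωt (Γ.z_mem ω)
    (Γ.Q_fix (h.Z_le_Q1' hκ₁t (Γ.symm hκ₁) hp))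
  have e4 : Γ.z ω' * Γ.z ω = Γ.z β := h.k1.mul h.low1 hlt hω' hω (Γ.symm hl) hωω'.symm
    hβω'.symm hβω.symm
  have e5 : (p * p') * Γ.z β' * (p * p')⁻¹ = Γ.z β' * Γ.z β := by
    calc (p * p') * Γ.z β' * (p * p')⁻¹ = p * (p' * Γ.z β' * p'⁻¹) * p⁻¹ := by group
      _ = (p * Γ.z β' * p⁻¹) * ((p * Γ.z ω) * p⁻¹) := by rw [e1']; group
      _ = Γ.z β' * (Γ.z ω' * Γ.z ω) := by rw [e2', e3]; group
      _ = _ := by rw [e4]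
  have htγ : p * p' ∉ Γ.Q γ := by
    intro hc
    have h5 := Γ.Q_comm hc hx
    rw [h5, mul_inv_cancel_right] at e5
    exact Γ.z_ne β (by
      have := congrArg (fun y => (Γ.z β')⁻¹ * y) e5
      simpa using this.symm)
  have htγf : (p * p') • γ = γ := Γ.Q_fix' htβ (Γ.symm h1)
  have hsw := (Γ.swap_of_notMem h1 h2 h3 h12 h13 h23 htγf (Γ.Q_fix htβ) htγ).1
  -- conjugate of `n`
  have hnl : n ∈ Γ.Q l := hn.2 l hl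
  have v1 := h.vmem hωt (Γ.symm hω) hκ₁ hnl hp
  have v2 := h.vmem hωt' (Γ.symm hω') hκ₂ hnl hp'
  set u := n * p * n⁻¹ * p⁻¹ with hu
  set u' := n * p' * n⁻¹ * p'⁻¹ with hu'
  have c1 : p * u'⁻¹ = u'⁻¹ * p := Γ.Q_comm hpl (Subgroup.inv_mem _ v2)
  have e6 : (p * p') * n * (p * p')⁻¹ = (u'⁻¹ * u⁻¹) * n := by
    calc (p * p') * n * (p * p')⁻¹ = (p * u'⁻¹) * n * p⁻¹ := by rw [hu']; group
      _ = u'⁻¹ * (p * n * p⁻¹) := by rw [c1]; group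
      _ = (u'⁻¹ * u⁻¹) * n := by rw [hu]; group
  have hw : u'⁻¹ * u⁻¹ ∈ Γ.Z l := Subgroup.mul_mem _ (Subgroup.inv_mem _ v2)
    (Subgroup.inv_mem _ v1)
  generalize u'⁻¹ * u⁻¹ = w at e6 hw
  have h7 := Γ.N_conj (p * p') hn'
  rw [hsw, e6] at h7
  have h8 : (w * n) * s = s * (w * n) := Γ.Q_comm (h7.2 κ hκ) hs
  have hw2 : w * w = 1 := h.low1.Z_sq le_rfl hw
  have hwi : w⁻¹ = w := inv_eq_of_mul_eq_one_right hw2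
  have h9 : n * s * n⁻¹ * s⁻¹ = w * (s * w * s⁻¹) := by
    calc n * s * n⁻¹ * s⁻¹ = w⁻¹ * ((w * n) * s) * n⁻¹ * s⁻¹ := by group
      _ = w⁻¹ * (s * (w * n)) * n⁻¹ * s⁻¹ := by rw [h8]
      _ = w⁻¹ * (s * w * s⁻¹) := by group
      _ = w * (s * w * s⁻¹) := by rw [hwi]
  rw [h9]
  by_cases hwβ : w ∈ Γ.Z β
  · have hwκ : w ∈ Γ.Q κ := h.Z_le_Q2' hγ (Γ.symm h3) hκ hκγ.symm (Γ.Z_up hβ (Γ.symm h1) hwβ)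
    have h10 : w * s = s * w := Γ.Q_comm hwκ hs
    rw [← h10, mul_inv_cancel_right, hw2]
    exact Subgroup.one_mem _
  · rw [h.comm3 hγ h1 h3 h2 h13 h12 h23.symm hl hlγ hκ hκγ hw hwβ hs hs']
    exact Γ.z_mem β'

theorem OK.N_inter (h : Γ.OK 3) {γ β β' β'' : V} (hγ : Γ.ty γ = true) (h1 : Γ.adj γ β)
    (h2 : Γ.adj γ β') (h3 : Γ.adj γ β'') (h12 : β ≠ β') (h13 : β ≠ β'') (h23 : β' ≠ β'') {n : G}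
    (hn : n ∈ Γ.N β) (hn' : n ∈ Γ.N β') : n ∈ Γ.N β'' := by
  have hβ'' : Γ.ty β'' = false := by rw [Γ.adj_ty h3, hγ]; rfl
  obtain ⟨κ, hκ, hκγ⟩ := Γ.exists_nb_ne γ β''
  obtain ⟨s, hs, hs'⟩ := exists_mem_notMem hβ'' hκ
  have m1 := h.M1 hγ h1 h2 h3 h12 h13 h23 hn hn' hκ hκγ hs hs'
  have m2 := h.M1 hγ h2 h1 h3 h12.symm h23 h13 hn' hn hκ hκγ hs hs'
  have m3 := Γ.sib hγ h1 h2 h12 m2 m1
  have hc : n * s = s * n := by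
    have h4 : n * s * n⁻¹ = s := mul_inv_eq_one.1 m3
    exact mul_inv_eq_iff_eq_mul.1 h4
  exact h.memN hβ'' (Γ.symm h3) hκ hκγ.symm (hn.2 γ (Γ.symm h1)) hs hs' hc

end Geo

end Cfsg.Agent.H48.Ge
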