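import Cfsg.Agent.H48.GeO7b
import Cfsg.Agent.H48.GeO4

/-! PIECE O7c: b = 3, hU3 (helper10). card_b3 is in GeO7d (helper12). -/

set_option autoImplicit false

open MulAction

namespace Cfsg.Agent.H48.Ge

variable {G V : Type*} [Group G] [MulAction G V]

namespace Geo

variable {Γ : Geo G V}

theorem OK.hU3 (h : Γ.OK 3) :
    ∀ β γ, Γ.ty β = false → Γ.adj β γ → ∀ u ∈ Γ.Bl 3 γ, ∀ v ∈ Γ.Bl 3 γ, u ∉ Γ.R 3 β →
      v ∉ Γ.R 3 β → u * v ∈ Γ.R 3 β := by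
  intro β γ hβ hβγ
  have hlow := h.low
  obtain ⟨δ, l, hβδ, hβl, hγδ, hγl, hδl⟩ := Γ.others hβγ
  have hl : Γ.ty l = true := by rw [Γ.adj_ty hβl, hβ]; rfl
  have hδ : Γ.ty δ = true := by rw [Γ.adj_ty hβδ, hβ]; rfl
  obtain ⟨ρ, hlρ, hρβ⟩ := Γ.exists_nb_ne β l
  have hρ : Γ.ty ρ = false := by rw [Γ.adj_ty hlρ, hl]; rfl
  obtain ⟨κ, hρκ, hκl⟩ := Γ.exists_nb_ne l ρ
  have hκ : Γ.ty κ = true := by rw [Γ.adj_ty hρκ, hρ]; rfl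
  -- an element `s`
  obtain ⟨s, hs, hs'⟩ : ∃ s ∈ Γ.Z κ, s ∉ Γ.Z ρ := by
    obtain ⟨ρ', hκρ', hne⟩ := Γ.exists_nb_ne ρ κ
    have hρ' : Γ.ty ρ' = false := by rw [Γ.adj_ty hκρ', hκ]; rfl
    obtain ⟨s, hs, hs1⟩ := Γ.exists_ne_one ρ'
    exact ⟨s, Γ.Z_up hρ' (Γ.symm hκρ') hs, fun h1 => hs1 (Γ.sib hκ hκρ' (Γ.symm hρκ) hne hs h1)⟩
  have hsQ : s ∉ Γ.Q β := h.notMem3 hl (Γ.symm hβl) hlρ hρβ.symm hρκ hκl hs hs'
  -- the arc `κ ρ l β`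
  obtain ⟨a0, ha0, e0, e1, e2⟩ := Γ.exists_arc3 1 hρκ (Γ.symm hlρ) hκl
  obtain ⟨a, ha, f1, f2⟩ := ha0.branch (n := 2) (w := β)
    (by rw [show (2 : ℤ) = 1 + 1 by norm_num, e2]; exact Γ.symm hβl)
    (by rw [show (2 : ℤ) - 1 = 1 by norm_num, e1]; exact hρβ.symm)
  have c0 : a 0 = κ := by rw [f1 0 (by norm_num)]; simpa using e0
  have c2 : a 2 = l := by rw [f1 2 le_rfl]; simpa using e2
  have c3 : a 3 = β := by simpa using f2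
  have hκ0 : Γ.ty (a 0) = true := by rw [c0]; exact hκ
  have hs0 : s ∈ Γ.Z (a 0) := by rw [c0]; exact hs
  have hsβ : s • β = β := by
    have := hlow.fix ha (j := 3) hκ0 (by norm_num) (by norm_num) hs0
    rwa [c3] at this
  have hsl : s • l = l := by
    have := hlow.fix ha (j := 2) hκ0 (by norm_num) (by norm_num) hs0
    rwa [c2] at this
  obtain ⟨hsγ, hsδ⟩ := Γ.swap_of_notMem hβl hβγ hβδ hγl.symm hδl.symm hγδ hsβ hsl hsQ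
  -- `Bl 3 γ ≤ Q l`
  have hBQ : ∀ u ∈ Γ.Bl 3 γ, u ∈ Γ.Q l := by
    intro u hu
    obtain ⟨a', ha', g0, g1, g2⟩ := Γ.exists_arc3 1 hβγ hβl hγl
    have g0' : a' 0 = γ := by simpa using g0
    have g2' : a' 2 = l := by simpa using g2
    rw [← g2']
    exact Bl_le_Q ha' (i := 0) (n := 3) (by norm_num) (by norm_num) (by rw [g0']; exact hu)
  have hf : ∀ u ∈ Γ.Bl 3 γ, u * s * u⁻¹ * s⁻¹ ∈ Γ.Z l := fun u hu =>
    h.vmem hρ (Γ.symm hlρ) hρκ (hBQ u hu) hs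
  have hZB : ∀ x ∈ Γ.Z β, x ∈ Γ.Bl 3 δ := by
    intro x hx a' ha' g0 i hi0 hi3
    exact hlow.fix ha' (i := 0) (by rw [g0]; exact hδ) (by omega) (by omega)
      (by rw [g0]; exact Γ.Z_up hβ hβδ hx)
  have key : ∀ u ∈ Γ.Bl 3 γ, u * s * u⁻¹ * s⁻¹ ∈ Γ.Z β → u ∈ Γ.R 3 β := by
    intro u hu hfu
    have h1 : s * u * s⁻¹ ∈ Γ.Bl 3 δ := by
      have := Bl_conj 3 s hu
      rwa [hsγ] at this
    have h2 : u ∈ Γ.Bl 3 δ := by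
      have h3 : u = (u * s * u⁻¹ * s⁻¹) * (s * u * s⁻¹) := by group
      rw [h3]
      exact Subgroup.mul_mem _ (hZB _ hfu) h1
    have h3 := h.U_inter hβ hβγ hβδ hβl hγδ hγl hδl hu h2
    intro w hw
    rcases Γ.nb_cases hβγ hβδ hβl hγδ hγl hδl hw with rfl | rfl | rfl
    · exact hu
    · exact h2
    · exact h3
  intro u hu v hv huR hvR
  refine key _ (Subgroup.mul_mem _ hu hv) ?_
  have hfu : u * s * u⁻¹ * s⁻¹ ∉ Γ.Z β := fun h1 => huR (key u hu h1)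
  have hfv : v * s * v⁻¹ * s⁻¹ ∉ Γ.Z β := fun h1 => hvR (key v hv h1)
  have h1 : (u * v) * s * (u * v)⁻¹ * s⁻¹ = (v * s * v⁻¹ * s⁻¹) * (u * s * u⁻¹ * s⁻¹) := by
    have h2 := Γ.Q_comm (hBQ u hu) (hf v hv)
    calc (u * v) * s * (u * v)⁻¹ * s⁻¹ = (u * (v * s * v⁻¹ * s⁻¹)) * s * u⁻¹ * s⁻¹ := by group
      _ = ((v * s * v⁻¹ * s⁻¹) * u) * s * u⁻¹ * s⁻¹ := by rw [h2]
      _ = _ := by group
  rw [h1]
  exact h.k1.mul_mem h.low1 hl (Γ.symm hβl) (hf v hv) hfv (hf u hu) hfu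

end Geo

end Cfsg.Agent.H48.Ge
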