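import Cfsg.Agent.H48.GeO7c

/-! PIECE O7d (helper12): b = 3, final count `card_b3`. -/

set_option autoImplicit false

open MulAction

namespace Cfsg.Agent.H48.Ge

variable {G V : Type*} [Group G] [MulAction G V]

namespace Geo

variable {Γ : Geo G V}

theorem card_le_four_mul {X Y : Subgroup G} [Finite X] (c : G → G) (p q r : G)
    (hc : ∀ x ∈ X, c x = 1 ∨ c x = p ∨ c x = q ∨ c x = r) (hY : Y ≤ X)
    (hf : ∀ x ∈ X, ∀ y ∈ X, c x = c y → x⁻¹ * y ∈ Y) :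
    Nat.card X ≤ 4 * Nat.card Y := by
  classical
  have h := Gr.card_le_mul (X := X) (Y := Y) (A := Fin 4)
    (fun x => if c x = 1 then 0 else if c x = p then 1 else if c x = q then 2 else 3) hY ?_
  · simpa using h
  · intro x hx y hy hxy
    refine hf x hx y hy ?_
    skip
    have h1 := hc x hx
    have h2 := hc y hy
    split_ifs at hxy with a1 a2 a3 a4 a5 a6 a7 a8 a9 a10 a11 a12 a13 a14 a15
    all_goals first
      | (exact absurd hxy (by decide))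
      | (simp_all)

theorem exists_third_elt {β δ : V} (hβ : Γ.ty β = false) (hδ : Γ.adj β δ) :
    ∃ s ∈ Γ.Z δ, s ∉ Γ.Z β := by
  have hδt : Γ.ty δ = true := by rw [Γ.adj_ty hδ, hβ]; rfl
  obtain ⟨ε, hε, hne⟩ := Γ.exists_nb_ne β δ
  have hεt : Γ.ty ε = false := by rw [Γ.adj_ty hε, hδt]; rfl
  refine ⟨Γ.z ε, Γ.Z_up hεt (Γ.symm hε) (Γ.z_mem ε), fun h => ?_⟩
  exact Γ.z_ne ε (Γ.sib hδt hε (Γ.symm hδ) hne (Γ.z_mem ε) h)

theorem Bl_fix0 {n : ℤ} (hn : 0 ≤ n) {γ : V} {g : G} (hg : g ∈ Γ.Bl n γ) : g • γ = γ := by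
  obtain ⟨p, q, r, -, -, -, h⟩ := Γ.nb γ
  obtain ⟨a, ha, h0, -⟩ := Γ.exists_arc ((h p).2 (Or.inl rfl))
  have := hg a ha h0 0 le_rfl hn
  rwa [h0] at this

theorem OK.card_b3' (h : Γ.OK 3) {γ β : V} (hγ : Γ.ty γ = true) (huv : Γ.adj γ β) :
    Nat.card ↥(stabilizer G γ ⊓ stabilizer G β) ≤ 128 := by
  classical
  haveI := Γ.fin γ
  have hβ : Γ.ty β = false := by rw [Γ.adj_ty huv, hγ]; rfl
  obtain ⟨β', β'', h2, h3, h12, h13, h23⟩ := Γ.others huv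
  have hβ' : Γ.ty β' = false := by rw [Γ.adj_ty h2, hγ]; rfl
  have fin_of : ∀ X : Subgroup G, (∀ x ∈ X, x • γ = γ) → Finite X := fun X hX =>
    Finite.of_injective (Subgroup.inclusion (show X ≤ stabilizer G γ from
      fun x hx => mem_stabilizer_iff.2 (hX x hx))) (Subgroup.inclusion_injective _)
  have card_mono : ∀ X Y : Subgroup G, X ≤ Y → (∀ x ∈ Y, x • γ = γ) →
      Nat.card X ≤ Nat.card Y := fun X Y hXY hY => by
    haveI := fin_of Y hY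
    exact Nat.card_le_card_of_injective _ (Subgroup.inclusion_injective hXY)
  -- step 1
  have s1 := Γ.card_le_two_mul huv (stabilizer G γ ⊓ stabilizer G β)
    (fun x hx => ⟨mem_stabilizer_iff.1 hx.1, mem_stabilizer_iff.1 hx.2⟩)
  have s1' := card_mono (stabilizer G γ ⊓ stabilizer G β ⊓ Γ.Q γ) (Γ.Q γ) inf_le_right
    (fun x hx => Γ.Q_fix hx)
  -- `Z γ`
  have hZ : ∀ x ∈ Γ.Z γ, x = 1 ∨ x = Γ.z β ∨ x = Γ.z β' ∨ x = Γ.z β'' := fun x hx =>
    (h.k1.mem_iff h.low1 hγ huv h2 h3 h12 h13 h23).1 hx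
  -- step 2
  obtain ⟨δ, hδ, hδγ⟩ := Γ.exists_nb_ne γ β
  obtain ⟨s, hs, hs'⟩ := exists_third_elt hβ hδ
  have s2 : Nat.card (Γ.Q γ) ≤ 4 * Nat.card (Γ.N β) := by
    haveI := fin_of (Γ.Q γ) (fun x hx => Γ.Q_fix hx)
    refine card_le_four_mul (fun n => n * s * n⁻¹ * s⁻¹) (Γ.z β) (Γ.z β') (Γ.z β'')
      (fun n hn => hZ _ (h.vmem hβ (Γ.symm huv) hδ hn hs))
      (fun n hn => hn.2 γ (Γ.symm huv)) (fun n hn m hm hnm => ?_)
    refine h.memN hβ (Γ.symm huv) hδ hδγ.symm (Subgroup.mul_mem _ (Subgroup.inv_mem _ hn) hm) hs hs' ?_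
    have h5 : n * s * n⁻¹ = m * s * m⁻¹ := mul_right_cancel hnm
    calc n⁻¹ * m * s = n⁻¹ * (m * s * m⁻¹) * m := by group
      _ = n⁻¹ * (n * s * n⁻¹) * m := by rw [h5]
      _ = s * (n⁻¹ * m) := by group
  -- step 3
  obtain ⟨δ', hδ', hδγ'⟩ := Γ.exists_nb_ne γ β'
  obtain ⟨s', hs1, hs1'⟩ := exists_third_elt hβ' hδ'
  have s3 : Nat.card (Γ.N β) ≤ 4 * Nat.card ↥(Γ.N β ⊓ Γ.N β') := by
    haveI := fin_of (Γ.N β) (fun x hx => Γ.Q_fix (hx.2 γ (Γ.symm huv)))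
    refine card_le_four_mul (fun n => n * s' * n⁻¹ * s'⁻¹) (Γ.z β) (Γ.z β') (Γ.z β'')
      (fun n hn => hZ _ (h.vmem hβ' (Γ.symm h2) hδ' (hn.2 γ (Γ.symm huv)) hs1))
      inf_le_left (fun n hn m hm hnm => ?_)
    have hq : n⁻¹ * m ∈ Γ.N β := Subgroup.mul_mem _ (Subgroup.inv_mem _ hn) hm
    refine ⟨hq, h.memN hβ' (Γ.symm h2) hδ' hδγ'.symm (hq.2 γ (Γ.symm huv)) hs1 hs1' ?_⟩
    have h5 : n * s' * n⁻¹ = m * s' * m⁻¹ := mul_right_cancel hnm
    calc n⁻¹ * m * s' = n⁻¹ * (m * s' * m⁻¹) * m := by group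
      _ = n⁻¹ * (n * s' * n⁻¹) * m := by rw [h5]
      _ = s' * (n⁻¹ * m) := by group
  -- step 4
  have s4 : Nat.card ↥(Γ.N β ⊓ Γ.N β') ≤ Nat.card (Γ.Bl 3 γ) := by
    refine card_mono _ _ ?_ (fun x hx => Bl_fix0 (by norm_num) hx)
    intro n hn
    have hall : ∀ ε, Γ.adj γ ε → n ∈ Γ.N ε := by
      intro ε hε
      rcases Γ.nb_cases huv h2 h3 h12 h13 h23 hε with rfl | rfl | rfl
      · exact hn.1
      · exact hn.2
      · exact h.N_inter hγ huv h2 h3 h12 h13 h23 hn.1 hn.2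
    intro a ha h0 i hi hi3
    have e1 : Γ.adj γ (a 1) := by rw [← h0]; exact ha.adj' (Or.inl (by norm_num))
    have e2 : Γ.adj (a 1) (a 2) := ha.adj' (Or.inl (by norm_num))
    have e3 : Γ.adj (a 2) (a 3) := ha.adj' (Or.inl (by norm_num))
    have n1 := hall _ e1
    rcases (show i = 0 ∨ i = 1 ∨ i = 2 ∨ i = 3 by omega) with rfl | rfl | rfl | rfl
    · rw [h0]; exact Γ.Q_fix (n1.2 γ (Γ.symm e1))
    · exact n1.1
    · exact Γ.Q_fix (n1.2 _ e2)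
    · exact Γ.Q_fix' (n1.2 _ e2) e3
  -- step 5
  have s5 : Nat.card (Γ.Bl 3 γ) ≤ 2 * Nat.card (Γ.R 3 β) := by
    haveI := fin_of (Γ.Bl 3 γ) (fun x hx => Bl_fix0 (by norm_num) hx)
    have := Gr.card_le_mul (X := Γ.Bl 3 γ) (Y := Γ.R 3 β) (A := Bool)
      (fun x => decide (x ∈ Γ.R 3 β)) (fun x hx => hx γ (Γ.symm huv)) (fun x hx y hy hxy => ?_)
    · simpa using this
    · have h' : (x ∈ Γ.R 3 β ↔ y ∈ Γ.R 3 β) := by simpa using hxy
      by_cases hxR : x ∈ Γ.R 3 β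
      · exact Subgroup.mul_mem _ (Subgroup.inv_mem _ hxR) (h'.1 hxR)
      · have hyR : y ∉ Γ.R 3 β := fun hy' => hxR (h'.2 hy')
        exact h.hU3 β γ hβ (Γ.symm huv) _ (Subgroup.inv_mem _ hx) _ hy
          (fun e => hxR (by simpa using Subgroup.inv_mem _ e)) hyR
  -- step 6
  have s6 : Nat.card (Γ.R 3 β) ≤ 2 := by
    have hR : ∀ x : Γ.R 3 β, (x : G) = 1 ∨ (x : G) = Γ.z β := fun x =>
      h.R_small h.hU3 hβ x.2
    have := Nat.card_le_card_of_injective (fun x : Γ.R 3 β => decide ((x : G) = 1))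
      (fun x y hxy => by
        have h' : ((x : G) = 1 ↔ (y : G) = 1) := by simpa using hxy
        apply Subtype.ext
        rcases hR x with h1 | h1 <;> rcases hR y with h2 | h2
        · rw [h1, h2]
        · rw [h1, h'.1 h1]
        · rw [h2, h'.2 h2]
        · rw [h1, h2])
    simpa using this
  omega

theorem OK.card_b3 (h : Γ.OK 3) {u v : V} (huv : Γ.adj u v) :
    Nat.card ↥(stabilizer G u ⊓ stabilizer G v) ≤ 128 := by
  cases hu : Γ.ty u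
  · have hv : Γ.ty v = true := by rw [Γ.adj_ty huv, hu]; rfl
    rw [inf_comm]
    exact h.card_b3' hv (Γ.symm huv)
  · exact h.card_b3' hu huv

end Geo

end Cfsg.Agent.H48.Ge
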