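import Cfsg.Agent.H48.GeB

/-! Pieces b = 0, 1 of the Goldschmidt amalgam bound -/

set_option autoImplicit false

open MulAction

namespace Cfsg.Agent.H48.Ge

variable {G V : Type*} [Group G] [MulAction G V]

namespace Gr

variable (Γ : Gr G V)

theorem finite_Q (v : V) : Finite ↥(Γ.Q v) := by
  haveI := Γ.fin v
  exact Finite.of_injective (Subgroup.inclusion (show Γ.Q v ≤ stabilizer G v from
    fun x hx => mem_stabilizer_iff.2 (Γ.Q_fix hx))) (Subgroup.inclusion_injective _)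

theorem card_mono {X Y : Subgroup G} (h : X ≤ Y) [Finite Y] : Nat.card X ≤ Nat.card Y :=
  Nat.card_le_card_of_injective _ (Subgroup.inclusion_injective h)

theorem card_T_le {u v : V} (h : Γ.adj u v) :
    Nat.card ↥(stabilizer G u ⊓ stabilizer G v) ≤ 2 * Nat.card ↥(Γ.Q u) := by
  have h1 := Γ.card_le_two_mul h (stabilizer G u ⊓ stabilizer G v)
    (fun x hx => ⟨mem_stabilizer_iff.1 hx.1, mem_stabilizer_iff.1 hx.2⟩)
  haveI := Γ.finite_Q u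
  exact h1.trans (Nat.mul_le_mul_left _ (card_mono inf_le_right))

end Gr

namespace Geo

variable (Γ : Geo G V)

theorem card_Q_le {v : V} : Nat.card ↥(Γ.Q v) ≤ 8 * Nat.card ↥(Γ.N v) := by
  haveI := Γ.finite_Q v
  obtain ⟨a, b, c, -, -, -, h⟩ := Γ.nb v
  have ha : Γ.adj v a := (h a).2 (Or.inl rfl)
  have hb : Γ.adj v b := (h b).2 (Or.inr (Or.inl rfl))
  have hc : Γ.adj v c := (h c).2 (Or.inr (Or.inr rfl))
  have h1 := Γ.card_le_two_mul (Γ.symm ha) (Γ.Q v)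
    (fun x hx => ⟨Γ.Q_fix' hx ha, Γ.Q_fix hx⟩)
  have h2 := Γ.card_le_two_mul (Γ.symm hb) (Γ.Q v ⊓ Γ.Q a)
    (fun x hx => ⟨Γ.Q_fix' hx.1 hb, Γ.Q_fix hx.1⟩)
  have h3 := Γ.card_le_two_mul (Γ.symm hc) (Γ.Q v ⊓ Γ.Q a ⊓ Γ.Q b)
    (fun x hx => ⟨Γ.Q_fix' hx.1.1 hc, Γ.Q_fix hx.1.1⟩)
  haveI : Finite ↥(Γ.N v) := Finite.of_injective (Subgroup.inclusion (Γ.N_le_Q (β := v)))
    (Subgroup.inclusion_injective _)
  have h4 : Nat.card ↥(Γ.Q v ⊓ Γ.Q a ⊓ Γ.Q b ⊓ Γ.Q c) ≤ Nat.card ↥(Γ.N v) := by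
    refine Gr.card_mono ?_
    rintro x ⟨⟨⟨hx, hxa⟩, hxb⟩, hxc⟩
    refine ⟨Γ.Q_fix hx, fun w hw => ?_⟩
    rcases (h w).1 hw with rfl | rfl | rfl
    · exact hxa
    · exact hxb
    · exact hxc
  omega

theorem card_b0 (Γ : Geo G V) (hC : Γ.Cr 0) {u v : V} (h : Γ.adj u v) :
    Nat.card ↥(stabilizer G u ⊓ stabilizer G v) ≤ 128 := by
  have key : ∀ γ β, Γ.ty γ = true → Γ.adj γ β → ∃ z ∈ Γ.Z β, z ∉ Γ.Q γ := by
    obtain ⟨a, ha, ht, hn⟩ := hC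
    have h1 : ∃ β, Γ.adj (a 0) β ∧ ∃ z ∈ Γ.Z β, z ∉ Γ.Q (a 0) := by
      by_contra hcon
      push Not at hcon
      exact hn (Γ.Z_gen _ ht (fun β hβ z hz => hcon β hβ z hz))
    obtain ⟨β0, hβ0, z, hz, hzQ⟩ := h1
    intro γ β hγ hβ
    obtain ⟨g, hg⟩ := Γ.trans (u := a 0) (v := γ) (by rw [ht, hγ])
    obtain ⟨k, hk, hk'⟩ := Γ.loc (v := γ) (a := g • β0) (b := β)
      (by have := Γ.adj_smul g hβ0; rwa [hg] at this) hβ
    refine ⟨(k * g) * z * (k * g)⁻¹, ?_, ?_⟩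
    · have := Γ.Z_conj (k * g) hz
      rwa [mul_smul, hk'] at this
    · intro hh
      have h2 : (k * g) • a 0 = γ := by rw [mul_smul, hg, hk]
      rw [← h2] at hh
      exact hzQ ((Γ.Q_conj_iff (k * g)).1 hh)
  have hN : ∀ β, Γ.ty β = false → Γ.N β = ⊥ := by
    intro β hβ
    obtain ⟨γ, γ', -, hγ, hγ', -, -, hne⟩ : ∃ γ γ' : V, ∃ _ : Unit, Γ.adj β γ ∧ Γ.adj β γ' ∧
        True ∧ True ∧ γ ≠ γ' := by
      obtain ⟨p, q, r, hpq, -, -, hh⟩ := Γ.nb β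
      exact ⟨p, q, (), (hh p).2 (Or.inl rfl), (hh q).2 (Or.inr (Or.inl rfl)), trivial, trivial,
        hpq⟩
    have htγ : Γ.ty γ = true := by rw [Γ.adj_ty hγ, hβ]; rfl
    obtain ⟨β', -, hβ', -, hne', -, -⟩ := Γ.others (Γ.symm hγ)
    have htβ' : Γ.ty β' = false := by rw [Γ.adj_ty hβ', htγ]; rfl
    obtain ⟨z, hz, hzQ⟩ := key γ β' htγ hβ'
    have hzγ : z • γ = γ := Γ.Z_fix2 htβ' (Γ.symm hβ') hz
    have hzβ' : z • β' = β' := Γ.Z_fix hz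
    refine Γ.faith' (u := β) (v := γ) _ hγ ?_ ?_ ?_ ?_
    · intro n hn
      exact ⟨hn.1, Γ.Q_fix (hn.2 γ hγ)⟩
    · intro t ht _ n hn
      have := Γ.N_conj t hn
      rwa [ht] at this
    · obtain ⟨g, hg, hg'⟩ := Γ.loc hγ hγ'
      refine ⟨g, hg, by rw [hg']; exact hne.symm, fun n hn => ?_⟩
      have := Γ.N_conj g hn
      rwa [hg] at this
    · refine ⟨z, hzγ, fun e => hzQ (Γ.mem_Q_of_fix hβ' (Γ.symm hγ) hne'.symm hzγ hzβ' e),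
        fun n hn => ?_⟩
      have h1 : n • β' = β' := Γ.Q_fix' (hn.2 γ hγ) hβ'
      have h2 : n * z = z * n := Γ.Z_cen htβ' hz h1
      rw [← h2, mul_inv_cancel_right]
      exact hn
  have fin : ∀ {u v : V}, Γ.adj u v → Γ.ty u = false →
      Nat.card ↥(stabilizer G u ⊓ stabilizer G v) ≤ 128 := by
    intro u v h hu
    have h1 := Γ.card_T_le h
    have h2 := Γ.card_Q_le (v := u)
    rw [hN u hu, Subgroup.card_bot] at h2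
    omega
  cases hu : Γ.ty u
  · exact fin h hu
  · rw [inf_comm]
    exact fin (Γ.symm h) (by rw [Γ.adj_ty h, hu]; rfl)

theorem card_b1 (Γ : Geo G V) (hL : Γ.Low 1) (hC : Γ.Cr 1) {u v : V} (h : Γ.adj u v) :
    Nat.card ↥(stabilizer G u ⊓ stabilizer G v) ≤ 128 := by
  have key : ∀ α β, Γ.ty α = true → Γ.adj α β → ∃ z ∈ Γ.Z α, z ∉ Γ.Q β := by
    obtain ⟨a, ha, ht, hn⟩ := hC
    obtain ⟨z, hz, hzQ⟩ : ∃ z ∈ Γ.Z (a 0), z ∉ Γ.Q (a 1) := by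
      by_contra hcon
      push Not at hcon
      exact hn hcon
    intro α β hα hβ
    obtain ⟨g, hg⟩ := Γ.trans (u := a 0) (v := α) (by rw [ht, hα])
    obtain ⟨k, hk, hk'⟩ := Γ.loc (v := α) (a := g • a 1) (b := β)
      (by have := Γ.adj_smul g (ha.adj 0); rw [hg] at this; simpa using this) hβ
    refine ⟨(k * g) * z * (k * g)⁻¹, ?_, ?_⟩
    · have := Γ.Z_conj (k * g) hz
      rwa [mul_smul, hg, hk] at this
    · intro hh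
      have h2 : (k * g) • a 1 = β := by rw [mul_smul, hk']
      rw [← h2] at hh
      exact hzQ ((Γ.Q_conj_iff (k * g)).1 hh)
  have hZQ : ∀ {α : V} {z : G}, z ∈ Γ.Z α → z ∈ Γ.Q α := fun hz => hL.Z_le_Q le_rfl _ hz
  -- index of `N β` in subgroups of `Q α`
  have idx : ∀ {α β : V}, Γ.ty α = true → Γ.adj α β → ∀ X : Subgroup G, X ≤ Γ.Q α →
      Nat.card X ≤ 4 * Nat.card ↥(X ⊓ Γ.N β) := by
    intro α β hα hβ X hX
    haveI := Γ.finite_Q α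
    haveI : Finite X := Finite.of_injective (Subgroup.inclusion hX)
      (Subgroup.inclusion_injective _)
    obtain ⟨δ, δ', hδ, hδ', h1, h2, h3⟩ := Γ.others (Γ.symm hβ)
    obtain ⟨z, hz, hzQ⟩ := key α β hα hβ
    have hzα := hZQ hz
    obtain ⟨hs, -⟩ := Γ.swap_of_notMem (Γ.symm hβ) hδ hδ' h1 h2 h3 (Γ.Q_fix' hzα hβ)
      (Γ.Q_fix hzα) hzQ
    have e1 := Γ.card_le_two_mul (Γ.symm hβ) X
      (fun x hx => ⟨Γ.Q_fix' (hX hx) hβ, Γ.Q_fix (hX hx)⟩)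
    have e2 := Γ.card_le_two_mul (Γ.symm hδ) (X ⊓ Γ.Q β)
      (fun x hx => ⟨Γ.Q_fix' hx.2 hδ, Γ.Q_fix hx.2⟩)
    haveI : Finite ↥(X ⊓ Γ.N β) := Finite.of_injective
      (Subgroup.inclusion (inf_le_left : X ⊓ Γ.N β ≤ X)) (Subgroup.inclusion_injective _)
    have e3 : Nat.card ↥(X ⊓ Γ.Q β ⊓ Γ.Q δ) ≤ Nat.card ↥(X ⊓ Γ.N β) := by
      refine Gr.card_mono ?_
      rintro x ⟨⟨hx, hxβ⟩, hxδ⟩
      have hxα := hX hx
      refine ⟨hx, Γ.Q_fix hxβ, fun w hw => ?_⟩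
      rcases Γ.nb_cases (Γ.symm hβ) hδ hδ' h1 h2 h3 hw with rfl | rfl | rfl
      · exact hxα
      · exact hxδ
      · have h5 : x * z = z * x := Γ.Q_comm hxα hz
        have h6 := Γ.Q_conj z hxδ
        rw [hs, ← h5, mul_inv_cancel_right] at h6
        exact h6
    omega
  have fin : ∀ {u v : V}, Γ.adj u v → Γ.ty u = true →
      Nat.card ↥(stabilizer G u ⊓ stabilizer G v) ≤ 128 := by
    intro α β hβ hα
    obtain ⟨β₂, β₃, hβ₂, hβ₃, h12, h13, h23⟩ := Γ.others hβ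
    have h0 := Γ.card_T_le hβ
    have h1 := idx hα hβ (Γ.Q α) le_rfl
    have h2 := idx hα hβ₂ (Γ.Q α ⊓ Γ.N β) inf_le_left
    have h3 := idx hα hβ₃ (Γ.Q α ⊓ Γ.N β ⊓ Γ.N β₂) (inf_le_left.trans inf_le_left)
    have hmem : ∀ n, n ∈ Γ.Q α ⊓ Γ.N β ⊓ Γ.N β₂ ⊓ Γ.N β₃ ↔
        n ∈ Γ.Q α ∧ ∀ b, Γ.adj α b → n ∈ Γ.N b := by
      intro n
      constructor
      · rintro ⟨⟨⟨h1, h2⟩, h3⟩, h4⟩
        refine ⟨h1, fun b hb => ?_⟩
        rcases Γ.nb_cases hβ hβ₂ hβ₃ h12 h13 h23 hb with rfl | rfl | rfl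
        · exact h2
        · exact h3
        · exact h4
      · rintro ⟨h1, h2⟩
        exact ⟨⟨⟨h1, h2 _ hβ⟩, h2 _ hβ₂⟩, h2 _ hβ₃⟩
    have hnorm : ∀ t : G, t • α = α → ∀ n ∈ Γ.Q α ⊓ Γ.N β ⊓ Γ.N β₂ ⊓ Γ.N β₃,
        t * n * t⁻¹ ∈ Γ.Q α ⊓ Γ.N β ⊓ Γ.N β₂ ⊓ Γ.N β₃ := by
      intro t ht n hn
      rw [hmem] at hn ⊢
      refine ⟨Γ.Q_conj' ht hn.1, fun b hb => ?_⟩
      have hb' : Γ.adj α (t⁻¹ • b) := Γ.adj_of_fix (inv_smul_eq_iff.2 ht.symm) hb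
      have := Γ.N_conj t (hn.2 _ hb')
      rwa [smul_inv_smul] at this
    have hbot : Γ.Q α ⊓ Γ.N β ⊓ Γ.N β₂ ⊓ Γ.N β₃ = ⊥ := by
      refine Γ.faith' (u := α) (v := β) _ hβ ?_ (fun t ht _ => hnorm t ht) ?_ ?_
      · intro n hn
        exact ⟨Γ.Q_fix ((hmem n).1 hn).1, (((hmem n).1 hn).2 β hβ).1⟩
      · obtain ⟨g, hg, hg'⟩ := Γ.loc hβ hβ₂
        exact ⟨g, hg, by rw [hg']; exact h12.symm, hnorm g hg⟩
      · obtain ⟨δ, hδ, hδne⟩ := Γ.exists_nb_ne α β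
        have htβ : Γ.ty β = false := by rw [Γ.adj_ty hβ, hα]; rfl
        have htδ : Γ.ty δ = true := by rw [Γ.adj_ty hδ, htβ]; rfl
        obtain ⟨z, hz, hzQ⟩ := key δ β htδ (Γ.symm hδ)
        have hzδ := hZQ hz
        have hzβ : z • β = β := Γ.Q_fix' hzδ (Γ.symm hδ)
        refine ⟨z, hzβ, fun e => hzQ (Γ.mem_Q_of_fix hδ (Γ.symm hβ) hδne hzβ (Γ.Q_fix hzδ) e),
          fun n hn => ?_⟩
        have h5 : n ∈ Γ.Q δ := (((hmem n).1 hn).2 β hβ).2 δ hδ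
        have h6 : n * z = z * n := Γ.Q_comm h5 hz
        rw [← h6, mul_inv_cancel_right]
        exact hn
    rw [hbot, Subgroup.card_bot] at h3
    omega
  cases hu : Γ.ty u
  · rw [inf_comm]
    exact fin (Γ.symm h) (by rw [Γ.adj_ty h, hu]; rfl)
  · exact fin h hu

end Geo

end Cfsg.Agent.H48.Ge
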