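import Cfsg.Agent.H48.GeB

/-! The case b = 2 of the geometry `Geo` (helper43) -/

set_option autoImplicit false

open MulAction

namespace Cfsg.Agent.H48.Ge

variable {G V : Type*} [Group G] [MulAction G V]

theorem exists_central_invol {T M : Subgroup G} [Finite T] (hT : IsPGroup 2 T) (hM : M ≤ T)
    (hMT : ∀ t ∈ T, ∀ m ∈ M, t * m * t⁻¹ ∈ M) (hM1 : M ≠ ⊥) :
    ∃ m ∈ M, m ≠ 1 ∧ m * m = 1 ∧ ∀ t ∈ T, t * m = m * t := by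
  haveI : Fact (Nat.Prime 2) := ⟨Nat.prime_two⟩
  letI act : MulAction T M :=
    { smul := fun t m => ⟨t * m * (t : G)⁻¹, hMT t t.2 m m.2⟩
      one_smul := fun m => Subtype.ext (by
        show ((1 : T) : G) * m * ((1 : T) : G)⁻¹ = m
        simp)
      mul_smul := fun s t m => Subtype.ext (by
        show ((s * t : T) : G) * m * ((s * t : T) : G)⁻¹ = s * (t * m * (t : G)⁻¹) * (s : G)⁻¹
        push_cast
        group) }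
  haveI : Finite M := Finite.of_injective (Subgroup.inclusion hM) (Subgroup.inclusion_injective _)
  have hMp : IsPGroup 2 M := hT.to_le hM
  haveI : Nontrivial M := (Subgroup.nontrivial_iff_ne_bot M).2 hM1
  have hdvd : 2 ∣ Nat.card M := by
    obtain ⟨n, hn, hc⟩ := hMp.nontrivial_iff_card.1 inferInstance
    rw [hc]
    exact dvd_pow_self 2 hn.ne'
  have h1 : (1 : M) ∈ fixedPoints T M := fun t => Subtype.ext (by
    show (t : G) * ((1 : M) : G) * (t : G)⁻¹ = ((1 : M) : G)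
    simp)
  obtain ⟨b, hb, hb1⟩ := hT.exists_fixed_point_of_prime_dvd_card_of_fixed_point M hdvd h1
  have hbc : ∀ t ∈ T, t * (b : G) = b * t := by
    intro t ht
    have := congrArg Subtype.val (hb ⟨t, ht⟩)
    have h2 : t * (b : G) * t⁻¹ = b := this
    rw [mul_inv_eq_iff_eq_mul] at h2
    exact h2
  -- a power of `b` of order two
  obtain ⟨k, hk⟩ := (IsPGroup.iff_orderOf.1 hMp) b
  have hk0 : k ≠ 0 := by
    rintro rfl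
    rw [pow_zero, orderOf_eq_one_iff] at hk
    exact hb1 hk.symm
  obtain ⟨j, rfl⟩ := Nat.exists_eq_succ_of_ne_zero hk0
  refine ⟨((b ^ 2 ^ j : M) : G), (b ^ 2 ^ j : M).2, ?_, ?_, ?_⟩
  · intro h
    have h2 : b ^ 2 ^ j = 1 := Subtype.ext h
    have h3 := orderOf_dvd_of_pow_eq_one h2
    rw [hk] at h3
    have h4 := Nat.le_of_dvd (by positivity) h3
    rw [pow_succ] at h4
    have : 0 < 2 ^ j := by positivity
    omega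
  · have h2 : b ^ 2 ^ (j + 1) = 1 := by
      have := pow_orderOf_eq_one b
      rwa [hk] at this
    rw [pow_succ, pow_mul, pow_two] at h2
    have := congrArg Subtype.val h2
    simpa using this
  · intro t ht
    have hc : Commute t (b : G) := hbc t ht
    have := hc.pow_right (2 ^ j)
    simpa using this.eq

namespace Geo

theorem b2_crit (Γ : Geo G V) (hC : Γ.Cr 2) {γ β δ : V} (hδ : Γ.ty δ = true) (h1 : Γ.adj β δ)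
    (h2 : Γ.adj β γ) (hne : δ ≠ γ) : ∃ x ∈ Γ.Z δ, x ∉ Γ.Q γ := by
  obtain ⟨a, ha, h0, hn⟩ := hC
  obtain ⟨a', ha', e0, -, e2⟩ := Γ.exists_arc3 1 h1 h2 hne
  have e0' : a' 0 = δ := by simpa using e0
  have e2' : a' 2 = γ := by simpa using e2
  obtain ⟨g, hg⟩ := Γ.tr_two a a' ha ha' (by rw [h0, e0', hδ])
  by_contra hcon
  push Not at hcon
  refine hn fun y hy => ?_
  have h3 := Γ.Z_conj g hy
  rw [hg 0 le_rfl (by norm_num), e0'] at h3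
  have h4 := hcon _ h3
  rw [← e2', ← hg 2 (by norm_num) le_rfl] at h4
  exact (Γ.Q_conj_iff g).1 h4

/-- the swapping element -/
theorem b2_elt (Γ : Geo G V) (hL : Γ.Low 2) (hC : Γ.Cr 2) {γ β β' β'' : V}
    (hγ : Γ.ty γ = true) (h1 : Γ.adj γ β) (h2 : Γ.adj γ β') (h3 : Γ.adj γ β'') (h12 : β ≠ β')
    (h13 : β ≠ β'') (h23 : β' ≠ β'') : ∃ x : G, x • γ = γ ∧ x • β = β'' ∧ x • β' = β' ∧
      ∀ n ∈ Γ.N β', x * n = n * x := by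
  obtain ⟨δ, hδ, hne⟩ := Γ.exists_nb_ne γ β'
  have hβ' : Γ.ty β' = false := by rw [Γ.adj_ty h2, hγ]; rfl
  have hδt : Γ.ty δ = true := by rw [Γ.adj_ty hδ, hβ']; rfl
  obtain ⟨x, hx, hxγ⟩ := Γ.b2_crit hC hδt hδ (Γ.symm h2) hne
  obtain ⟨a, ha, e0, e1, -⟩ := Γ.exists_arc3 1 hδ (Γ.symm h2) hne
  have e0' : a 0 = δ := by simpa using e0
  have hxQ : x ∈ Γ.Q β' := by
    have := hL a ha (by rw [e0', hδt]) 1 (by norm_num) (by norm_num)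
    rw [e0', e1] at this
    exact this hx
  have hx1 : x • γ = γ := Γ.Q_fix' hxQ (Γ.symm h2)
  have hx2 : x • β' = β' := Γ.Q_fix hxQ
  refine ⟨x, hx1, (Γ.swap_of_notMem h2 h1 h3 h12.symm h23 h13 hx1 hx2 hxγ).1, hx2, ?_⟩
  intro n hn
  exact (Γ.Q_comm (hn.2 δ hδ) hx).symm

theorem b2_third (Γ : Geo G V) (hL : Γ.Low 2) (hC : Γ.Cr 2) {γ β β' β'' : V}
    (hγ : Γ.ty γ = true) (h1 : Γ.adj γ β) (h2 : Γ.adj γ β') (h3 : Γ.adj γ β'') (h12 : β ≠ β')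
    (h13 : β ≠ β'') (h23 : β' ≠ β'') {n : G} (hn : n ∈ Γ.N β) (hn' : n ∈ Γ.N β') :
    n ∈ Γ.N β'' := by
  obtain ⟨x, hx1, hx2, hx3, hx4⟩ := Γ.b2_elt hL hC hγ h1 h2 h3 h12 h13 h23
  have h5 := Γ.N_conj x hn
  rwa [hx2, hx4 n hn', mul_inv_cancel_right] at h5

theorem b2_bot (Γ : Geo G V) (hL : Γ.Low 2) (hC : Γ.Cr 2) {γ β β' : V}
    (hγ : Γ.ty γ = true) (h1 : Γ.adj γ β) (h2 : Γ.adj γ β') (h12 : β ≠ β') :
    Γ.N β ⊓ Γ.N β' = ⊥ := by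
  obtain ⟨β'', h3, h31, h32, -⟩ := Γ.third h1 h2 h12
  have hβ : Γ.ty β = false := by rw [Γ.adj_ty h1, hγ]; rfl
  by_contra hM1
  haveI := Γ.fin γ
  haveI : Finite ↥(stabilizer G γ ⊓ stabilizer G β) :=
    Finite.of_injective (Subgroup.inclusion (inf_le_left (a := stabilizer G γ)
      (b := stabilizer G β))) (Subgroup.inclusion_injective _)
  have key : ∀ n ∈ Γ.N β ⊓ Γ.N β', ∀ w, Γ.adj γ w → n ∈ Γ.N w := by
    rintro n ⟨hn, hn'⟩ w hw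
    rcases Γ.nb_cases h1 h2 h3 h12 h31.symm h32.symm hw with rfl | rfl | rfl
    · exact hn
    · exact hn'
    · exact Γ.b2_third hL hC hγ h1 h2 h3 h12 h31.symm h32.symm hn hn'
  obtain ⟨m, hm, hm1, hm2, hmc⟩ := exists_central_invol (T := stabilizer G γ ⊓ stabilizer G β)
    (M := Γ.N β ⊓ Γ.N β') (Γ.two h1) (fun n hn => ⟨mem_stabilizer_iff.2 (hn.1.2 γ (Γ.symm h1)).1,
      mem_stabilizer_iff.2 hn.1.1⟩) (by
    rintro t ⟨ht1, ht2⟩ m hm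
    replace ht1 : t • γ = γ := mem_stabilizer_iff.1 ht1
    replace ht2 : t • β = β := mem_stabilizer_iff.1 ht2
    have h4 : ∀ w, Γ.adj γ w → t * m * t⁻¹ ∈ Γ.N w := by
      intro w hw
      have hti : t⁻¹ • γ = γ := inv_smul_eq_iff.2 ht1.symm
      have := Γ.N_conj t (key m hm _ (Γ.adj_of_fix hti hw))
      rwa [smul_inv_smul] at this
    exact ⟨h4 β h1, h4 β' h2⟩) hM1
  have hmγ : m • γ = γ := (hm.1.2 γ (Γ.symm h1)).1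
  have hmβ : m • β = β := hm.1.1
  have hmZ : m ∈ Γ.Z β := Γ.Z_om hβ (Γ.symm h1) hmβ hmγ hm2 (fun t ht ht' =>
    hmc t ⟨mem_stabilizer_iff.2 ht', mem_stabilizer_iff.2 ht⟩)
  have hz : ∀ {g : G}, g * m = m * g → ∀ n ∈ Subgroup.zpowers m, g * n * g⁻¹ ∈
      Subgroup.zpowers m := by
    intro g hg n hn
    obtain ⟨k, rfl⟩ := Subgroup.mem_zpowers_iff.1 hn
    have : Commute g m := hg
    rw [(this.zpow_right k).eq, mul_inv_cancel_right]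
    exact hn
  have hbot : Subgroup.zpowers m = ⊥ := by
    refine Γ.faith' (u := γ) (v := β) _ h1 ?_ ?_ ?_ ?_
    · intro n hn
      obtain ⟨k, rfl⟩ := Subgroup.mem_zpowers_iff.1 hn
      have e1 : m ∈ stabilizer G γ := mem_stabilizer_iff.2 hmγ
      have e2 : m ∈ stabilizer G β := mem_stabilizer_iff.2 hmβ
      exact ⟨mem_stabilizer_iff.1 (Subgroup.zpow_mem _ e1 k),
        mem_stabilizer_iff.1 (Subgroup.zpow_mem _ e2 k)⟩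
    · intro t _ ht'
      exact hz (Γ.Z_cen hβ hmZ ht')
    · obtain ⟨x, hx1, hx2, hx3, hx4⟩ := Γ.b2_elt hL hC hγ h1 h2 h3 h12 h31.symm h32.symm
      exact ⟨x, hx1, by rw [hx2]; exact h31, hz (hx4 m hm.2)⟩
    · obtain ⟨δ, hδ, hne⟩ := Γ.exists_nb_ne γ β
      obtain ⟨g, hg, hg'⟩ := Γ.loc (Γ.symm h1) hδ
      exact ⟨g, hg, by rw [hg']; exact hne, hz (Γ.Z_cen hβ hmZ hg)⟩
  exact hm1 (by
    have : m ∈ Subgroup.zpowers m := Subgroup.mem_zpowers m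
    rw [hbot] at this
    exact Subgroup.mem_bot.1 this)

theorem card_b2_aux (Γ : Geo G V) (hL : Γ.Low 2) (hC : Γ.Cr 2) {γ β : V} (hγ : Γ.ty γ = true)
    (h : Γ.adj γ β) : Nat.card ↥(stabilizer G γ ⊓ stabilizer G β) ≤ 128 := by
  obtain ⟨β', hβ', hne⟩ := Γ.exists_nb_ne β γ
  obtain ⟨γ₂, γ₃, g2, g3, g12, g13, g23⟩ := Γ.others (Γ.symm h)
  obtain ⟨δ, δ', d2, d3, d12, d13, d23⟩ := Γ.others (Γ.symm hβ')
  set T := stabilizer G γ ⊓ stabilizer G β with hT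
  have hTm : ∀ x ∈ T, x • γ = γ ∧ x • β = β := fun x hx =>
    ⟨mem_stabilizer_iff.1 hx.1, mem_stabilizer_iff.1 hx.2⟩
  -- the chain
  have c0 := Γ.card_le_two_mul (Γ.symm h) T (fun x hx => (hTm x hx).symm)
  have c1 := Γ.card_le_two_mul h (T ⊓ Γ.Q β) (fun x hx => hTm x hx.1)
  have c2 := Γ.card_le_two_mul (Γ.symm g2) (T ⊓ Γ.Q β ⊓ Γ.Q γ)
    (fun x hx => ⟨Γ.Q_fix' hx.1.2 g2, (hTm x hx.1.1).2⟩)
  have c3 := Γ.card_le_two_mul (Γ.symm g3) (T ⊓ Γ.Q β ⊓ Γ.Q γ ⊓ Γ.Q γ₂)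
    (fun x hx => ⟨Γ.Q_fix' hx.1.1.2 g3, (hTm x hx.1.1.1).2⟩)
  have c4 := Γ.card_le_two_mul (Γ.symm hβ') (T ⊓ Γ.Q β ⊓ Γ.Q γ ⊓ Γ.Q γ₂ ⊓ Γ.Q γ₃)
    (fun x hx => ⟨Γ.Q_fix' hx.1.1.2 hβ', (hTm x hx.1.1.1.1).1⟩)
  have c5 := Γ.card_le_two_mul (Γ.symm d2) (T ⊓ Γ.Q β ⊓ Γ.Q γ ⊓ Γ.Q γ₂ ⊓ Γ.Q γ₃ ⊓ Γ.Q β')
    (fun x hx => ⟨Γ.Q_fix' hx.2 d2, Γ.Q_fix hx.2⟩)
  have c6 := Γ.card_le_two_mul (Γ.symm d3)
    (T ⊓ Γ.Q β ⊓ Γ.Q γ ⊓ Γ.Q γ₂ ⊓ Γ.Q γ₃ ⊓ Γ.Q β' ⊓ Γ.Q δ)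
    (fun x hx => ⟨Γ.Q_fix' hx.1.2 d3, Γ.Q_fix hx.1.2⟩)
  have hbot : T ⊓ Γ.Q β ⊓ Γ.Q γ ⊓ Γ.Q γ₂ ⊓ Γ.Q γ₃ ⊓ Γ.Q β' ⊓ Γ.Q δ ⊓ Γ.Q δ' = ⊥ := by
    rw [eq_bot_iff, ← Γ.b2_bot hL hC hγ h hβ' hne.symm]
    rintro x ⟨⟨⟨⟨⟨⟨⟨hx0, hx1⟩, hx2⟩, hx3⟩, hx4⟩, hx5⟩, hx6⟩, hx7⟩
    refine ⟨⟨(hTm x hx0).2, fun w hw => ?_⟩, ⟨Γ.Q_fix hx5, fun w hw => ?_⟩⟩
    · rcases Γ.nb_cases (Γ.symm h) g2 g3 g12 g13 g23 hw with rfl | rfl | rfl
      · exact hx2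
      · exact hx3
      · exact hx4
    · rcases Γ.nb_cases (Γ.symm hβ') d2 d3 d12 d13 d23 hw with rfl | rfl | rfl
      · exact hx2
      · exact hx6
      · exact hx7
  rw [hbot, Subgroup.card_bot] at c6
  omega

theorem card_b2 (Γ : Geo G V) (hL : Γ.Low 2) (hC : Γ.Cr 2) {u v : V} (h : Γ.adj u v) :
    Nat.card ↥(stabilizer G u ⊓ stabilizer G v) ≤ 128 := by
  cases hu : Γ.ty u
  · rw [inf_comm]
    exact Γ.card_b2_aux hL hC (by rw [Γ.adj_ty h, hu]; rfl) (Γ.symm h)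
  · exact Γ.card_b2_aux hL hC hu h

end Geo

end Cfsg.Agent.H48.Ge
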