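import Cfsg.Agent.H48.GeO5
import Cfsg.Agent.H48.GeO6
import Cfsg.Agent.H48.GeO7d
import Cfsg.Agent.H48.GeEv
import Cfsg.Agent.H48.GeP1a
import Cfsg.Agent.H48.GeP1b2

/-! Assembly: the bound for every geometry. -/

set_option autoImplicit false

open MulAction

namespace Cfsg.Agent.H48.Ge

variable {G V : Type*} [Group G] [MulAction G V]

namespace Geo

theorem card_edge (Γ : Geo G V) {u v u' v' : V} (h : Γ.adj u v) (h' : Γ.adj u' v')
    (ht : Γ.ty u = Γ.ty u') :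
    Nat.card ↥(stabilizer G u ⊓ stabilizer G v) = Nat.card ↥(stabilizer G u' ⊓ stabilizer G v') := by
  obtain ⟨a, ha, a0, a1⟩ := Γ.exists_arc h
  obtain ⟨a', ha', a0', a1'⟩ := Γ.exists_arc h'
  obtain ⟨g, hg⟩ := Γ.tr_one a a' ha ha' (by rw [a0, a0', ht])
  have h0 := hg 0 le_rfl (by norm_num)
  have h1 := hg 1 (by norm_num) le_rfl
  rw [a0, a0'] at h0
  rw [a1, a1'] at h1
  subst h0 h1
  refine Nat.card_congr
    { toFun := fun x => ⟨g * x * g⁻¹, ?_⟩
      invFun := fun y => ⟨g⁻¹ * y * g, ?_⟩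
      left_inv := fun x => Subtype.ext (by simp [mul_assoc])
      right_inv := fun y => Subtype.ext (by simp [mul_assoc]) }
  · obtain ⟨x, hx⟩ := x
    rw [Subgroup.mem_inf, mem_stabilizer_iff, mem_stabilizer_iff] at hx ⊢
    exact ⟨by rw [mul_smul, mul_smul, inv_smul_smul, hx.1],
      by rw [mul_smul, mul_smul, inv_smul_smul, hx.2]⟩
  · obtain ⟨y, hy⟩ := y
    rw [Subgroup.mem_inf, mem_stabilizer_iff, mem_stabilizer_iff] at hy ⊢
    exact ⟨by rw [mul_smul, mul_smul, hy.1, inv_smul_smul],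
      by rw [mul_smul, mul_smul, hy.2, inv_smul_smul]⟩

theorem card_edge' (Γ : Geo G V) {u v u' v' : V} (h : Γ.adj u v) (h' : Γ.adj u' v') :
    Nat.card ↥(stabilizer G u ⊓ stabilizer G v) = Nat.card ↥(stabilizer G u' ⊓ stabilizer G v') := by
  by_cases ht : Γ.ty u = Γ.ty u'
  · exact Γ.card_edge h h' ht
  · rw [inf_comm (stabilizer G u')]
    refine Γ.card_edge h (Γ.symm h') ?_
    rw [Γ.adj_ty h']
    cases h1 : Γ.ty u <;> cases h2 : Γ.ty u' <;> simp_all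

theorem card_le (Γ : Geo G V) {u v : V} (huv : Γ.adj u v) :
    Nat.card ↥(stabilizer G u ⊓ stabilizer G v) ≤ 128 := by
  by_contra hcon
  obtain ⟨b, hb0, hL, hC⟩ := Γ.exists_b u
  have big : ∀ {u' v' : V}, Γ.adj u' v' →
      2 < Nat.card ↥(stabilizer G u' ⊓ stabilizer G v') := by
    intro u' v' h'
    rw [← Γ.card_edge' huv h']
    omega
  rcases Int.even_or_odd b with he | ho
  · have h3 : b = 0 ∨ b = 2 ∨ 4 ≤ b := by
      obtain ⟨k, hk⟩ := he; omega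
    rcases h3 with rfl | rfl | h4
    · exact hcon (Γ.card_b0 hC huv)
    · exact hcon (Γ.card_b2 hL hC huv)
    · exact Γ.even_false h4 he hL hC
  · have h3 : b = 1 ∨ b = 3 ∨ 5 ≤ b := by
      obtain ⟨k, hk⟩ := ho; omega
    rcases h3 with rfl | rfl | h5
    · exact hcon (Γ.card_b1 hL hC huv)
    · have hO : Γ.OH 3 := ⟨le_rfl, ho, hL, hC, big⟩
      have hK : Γ.OK 3 := ⟨hO, hO.k1⟩
      exact hcon (hK.card_b3 huv)
    · have hO : Γ.OH b := ⟨by omega, ho, hL, hC, big⟩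
      have hK : Γ.OK b := ⟨hO, hO.k1⟩
      refine hK.false_of_v4 h5 ?_
      intro β γ δ l h1 h2 h3 h4 h5' h6 h7 p q hp hp' hq hq'
      exact hK.v4 h5 h1 h2 h3 h4 h5' h6 h7 hp hp' hq hq'

end Geo

end Cfsg.Agent.H48.Ge
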