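import Cfsg.Agent.H48.KSFus

/-!
# End of the proof of S0518
-/

set_option autoImplicit false
set_option linter.unusedSectionVars false

namespace Cfsg.Agent.H48.KS

open Subgroup Equiv Cfsg

variable {G : Type*} [Group G] [Finite G] {P P' V V' Z Z' P₁ P₂ V₁ V₂ Z₁ Z₂ T S F : Subgroup G}
  {z₁ z₂ t s : G}

theorem map_conj_normalizer (g : G) (X : Subgroup G) :
    (normalizer (X : Set G)).map (MulAut.conj g).toMonoidHom =
      normalizer ((X.map (MulAut.conj g).toMonoidHom : Subgroup G) : Set G) := by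
  have h := Subgroup.map_equiv_normalizer_eq X (MulAut.conj g)
  exact h

theorem twoLocal_conj {L : Subgroup G} (g : G) (h : IsTwoLocal L) :
    IsTwoLocal (L.map (MulAut.conj g).toMonoidHom) := by
  obtain ⟨X, hX, hX1, rfl⟩ := h
  refine ⟨X.map (MulAut.conj g).toMonoidHom, hX.map _, ?_, map_conj_normalizer g X⟩
  intro h0
  exact hX1 ((Subgroup.map_eq_bot_iff_of_injective _ (MulAut.conj g).injective).1 h0)

theorem maxLocal_conj {L : Subgroup G} (g : G) (h : IsMaximalTwoLocal L) :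
    IsMaximalTwoLocal (L.map (MulAut.conj g).toMonoidHom) := by
  refine ⟨twoLocal_conj g h.1, fun N hN hLN => ?_⟩
  have h1 := twoLocal_conj g⁻¹ hN
  have h2 : L ≤ N.map (MulAut.conj g⁻¹).toMonoidHom := by
    intro x hx
    have : MulAut.conj g x ∈ N := hLN ⟨x, hx, rfl⟩
    exact ⟨_, this, by simp [MulAut.conj_apply, mul_assoc]⟩
  have h3 := h.2 _ h1 h2
  rw [← h3]
  ext x
  constructor
  · intro hx
    exact ⟨MulAut.conj g⁻¹ x, ⟨x, hx, rfl⟩, by simp [MulAut.conj_apply, mul_assoc]⟩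
  · rintro ⟨_, ⟨y, hy, rfl⟩, rfl⟩
    simpa [MulAut.conj_apply, mul_assoc] using hy

theorem not_central (q : QD P V Z) (ht : t ∈ V) (ht1 : t ≠ 1) (hc : ∀ x ∈ P, x * t = t * x) : False := by
  have hall : ∀ v ∈ V, v = 1 ∨ v = t := by
    intro v hv
    by_cases hv1 : v = 1
    · exact Or.inl hv1
    · right
      obtain ⟨g, hg, e⟩ := q.trans t ht v hv ht1 hv1
      rw [← e, hc g hg]; group
  have h1 : Nat.card V ≤ Nat.card ({1, t} : Set G) := by
    refine Nat.card_le_card_of_injective (fun x => ⟨(x : G), by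
      rcases hall x x.2 with h1 | h1 <;> simp [h1]⟩) ?_
    intro x y hxy
    have := congrArg (fun z : ({1, t} : Set G) => (z : G)) hxy
    exact Subtype.ext this
  have h2 : Nat.card ({1, t} : Set G) ≤ 2 := by
    rw [Nat.card_coe_set_eq]
    exact (Set.ncard_insert_le _ _).trans (by rw [Set.ncard_singleton])
  have := q.cardV
  omega

theorem not_conj {C : Type*} [Group C] [Finite C] (h : Cf P₁ P₂ V₁ V₂ Z₁ Z₂ T)
    (d : Dt P₁ P₂ V₁ V₂ T z₁ z₂ t) (hz1 : z₁ ∈ Z₁)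
    (hc1 : Nat.card Z₁ = 2) (hc2 : Nat.card Z₂ = 2) (hC : Nat.card C = 2)
    (φ : P₁ ≃* Perm (Fin 4) × C) (g : G) (hg : g * z₁ * g⁻¹ = t) : False := by
  set P := P₁.map (MulAut.conj g).toMonoidHom with hP
  have hmem : ∀ x, x ∈ P ↔ x * t = t * x := by
    intro x
    have h1 : x ∈ P ↔ g⁻¹ * x * g ∈ P₁ := by
      constructor
      · rintro ⟨y, hy, rfl⟩
        convert hy using 1
        simp [MulAut.conj_apply, mul_assoc]
      · intro hx
        exact ⟨_, hx, by simp [MulAut.conj_apply, mul_assoc]⟩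
    rw [h1, d.zP1, ← hg]
    constructor
    · intro e
      have : g * (g⁻¹ * x * g * z₁) * g⁻¹ = g * (z₁ * (g⁻¹ * x * g)) * g⁻¹ := by rw [e]
      calc x * (g * z₁ * g⁻¹) = g * (g⁻¹ * x * g * z₁) * g⁻¹ := by group
        _ = g * (z₁ * (g⁻¹ * x * g)) * g⁻¹ := this
        _ = g * z₁ * g⁻¹ * x := by group
    · intro e
      calc g⁻¹ * x * g * z₁ = g⁻¹ * (x * (g * z₁ * g⁻¹)) * g := by group
        _ = g⁻¹ * (g * z₁ * g⁻¹ * x) * g := by rw [e]
        _ = z₁ * (g⁻¹ * x * g) := by group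
  have hφ : Nonempty (P ≃* Perm (Fin 4) × C) :=
    ⟨(Subgroup.equivMapOfInjective P₁ _ (MulAut.conj g).injective).symm.trans φ⟩
  obtain ⟨φ'⟩ := hφ
  obtain ⟨V, Z, q, hcZ⟩ := QD_of_iso (Or.inr hC) φ'
  have hTP : T ≤ P := fun x hx => (hmem x).2 (d.tT x hx)
  have hcardP : Nat.card P = Nat.card P₁ :=
    Nat.card_congr (Subgroup.equivMapOfInjective P₁ _ (MulAut.conj g).injective).symm.toEquiv
  have hsyl : IsSylowTwoIn T P := by
    refine ⟨hTP, h.s₁.2.1, ?_⟩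
    have e1 := H11.card_mul_relIndex hTP
    have e2 := H11.card_mul_relIndex h.s₁.1
    rw [hcardP, ← e2] at e1
    rw [Nat.eq_of_mul_eq_mul_left Nat.card_pos e1]
    exact h.s₁.2.2
  have hne : P ≠ P₁ := by
    intro e
    refine not_central h.q₁ d.tV1 d.t1 (fun x hx => ?_)
    rw [← e] at hx
    exact (hmem x).1 hx
  have hcf : Cf P P₁ V V₁ Z Z₁ T := ⟨q, h.q₁, maxLocal_conj g h.m₁, h.m₁, hne, hsyl, h.s₁⟩
  obtain ⟨z₁', hz1', z₂', hz2', t', d'⟩ := hcf.exists_dt (hcZ.trans hC) hc1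
  have hz1V : z₁ ∉ V₁ := fun h => d.zD ((le_sup_left : V₁ ≤ _) h)
  have hz2e : z₂' = z₁ := by
    obtain ⟨z, -, -, -, hu, -⟩ := Cf.exists_z h.q₁ hc1
    rcases hu z₁ hz1 with e | e
    · exact absurd e d.z1
    · rcases hu z₂' hz2' with e' | e'
      · exact absurd e' d'.z2
      · rw [e, e']
  have htT : t ∈ T := h.VT d.tV1
  rcases d'.ZT t htT (fun y hy => (d.tT y hy).symm) with e | e | e | e
  · exact d.t1 e
  · exact not_central q (t := t) (e ▸ d'.tV1) d.t1 (fun x hx => (hmem x).1 hx)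
  · have := d'.zt
    rw [hz2e, ← e] at this
    exact hz1V (this ▸ mul_mem d'.tV2 d.tV1)
  · rw [hz2e] at e
    exact hz1V (e ▸ d.tV1)

/-- the subgroup of index two of a Sylow 2-subgroup avoiding the class of `z₁` -/
theorem exists_U {C : Type*} [Group C] [Finite C] (h : Cf P₁ P₂ V₁ V₂ Z₁ Z₂ T)
    (d : Dt P₁ P₂ V₁ V₂ T z₁ z₂ t) (hz1 : z₁ ∈ Z₁)
    (hc1 : Nat.card Z₁ = 2) (hc2 : Nat.card Z₂ = 2) (hC : Nat.card C = 2)
    (φ : P₁ ≃* Perm (Fin 4) × C) : ∃ U : Subgroup G, U.index % 4 = 2 ∧ ∀ g : G, g * z₁ * g⁻¹ ∉ U := by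
  obtain ⟨S, hTS⟩ := h.s₁.2.1.exists_le_sylow
  have hS := S.isPGroup'
  have hSodd : Odd (S : Subgroup G).index := by
    rw [← Nat.not_even_iff_odd]
    exact fun he => S.not_dvd_index (even_iff_two_dvd.1 he)
  have hDT : V₁ ⊔ V₂ ≤ T := sup_le h.VT h.symm.VT
  have hD8 : Nat.card (V₁ ⊔ V₂ : Subgroup G) = 8 := h.card_D (hc1.trans hc2.symm) (Or.inr hc1)
  -- involutions of `D` are conjugate to `t`
  have hDinv : ∀ x ∈ V₁ ⊔ V₂, x * x = 1 → x ≠ 1 → ∃ g, g * x * g⁻¹ = t := by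
    intro x hx hx2 hx1
    obtain ⟨v, hv, w, hw, rfl⟩ := (H11.mem_sup_of_le_normalizer h.V12).1 hx
    rcases inv_D h d hv hw hx2 with h1 | h1
    · obtain ⟨g, -, e⟩ := h.q₁.trans _ h1 t d.tV1 hx1 d.t1
      exact ⟨g, e⟩
    · obtain ⟨g, -, e⟩ := h.q₂.trans _ h1 t d.tV2 hx1 d.t1
      exact ⟨g, e⟩
  have hfin : ∀ U : Subgroup G, (∀ x ∈ U, x * x = 1 → x ∈ V₁ ⊔ V₂) → ∀ g : G, g * z₁ * g⁻¹ ∉ U := by
    intro U hU g hg
    have h1 : g * z₁ * g⁻¹ * (g * z₁ * g⁻¹) = 1 := by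
      calc g * z₁ * g⁻¹ * (g * z₁ * g⁻¹) = g * (z₁ * z₁) * g⁻¹ := by group
        _ = 1 := by rw [d.z1sq]; group
    obtain ⟨k, hk⟩ := hDinv _ (hU _ hg h1) h1 (fun e => d.z1 (conj_eq_one_iff.1 e))
    refine not_conj h d hz1 hc1 hc2 hC φ (k * g) ?_
    rw [← hk]; group
  by_cases hST : (S : Subgroup G) = T
  · refine ⟨V₁ ⊔ V₂, ?_, hfin _ (fun x hx _ => hx)⟩
    have e1 := H11.card_mul_relIndex hDT
    rw [hD8, d.cardT] at e1
    have e2 := Subgroup.relIndex_mul_index hDT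
    rw [← e2, show (V₁ ⊔ V₂).relIndex T = 2 by omega, ← hST]
    obtain ⟨k, hk⟩ := hSodd
    omega
  · have hSN := S_le_normalizer h d hc1 hc2 hS hTS
    obtain ⟨s₀, hs₀S, hs₀T⟩ : ∃ s ∈ (S : Subgroup G), s ∉ T := by
      by_contra hcon
      push Not at hcon
      exact hST (le_antisymm hcon hTS)
    obtain ⟨s, hsS, hsT, hgood⟩ := exists_good h d hS hTS hSN hs₀S hs₀T
    have hsN := hSN hsS
    have hsD : s ∈ normalizer ((V₁ ⊔ V₂ : Subgroup G) : Set G) := by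
      have hle : V₁ ⊔ V₂ ≤ (V₁ ⊔ V₂).comap (MulAut.conj s).toMonoidHom := fun x hx =>
        conj_mem_D h d hS hTS hsS hsT hsN hx
      have hmap : (V₁ ⊔ V₂).map (MulAut.conj s).toMonoidHom = V₁ ⊔ V₂ := by
        apply Subgroup.eq_of_le_of_card_ge (map_le_iff_le_comap.2 hle)
        rw [Nat.card_congr (Subgroup.equivMapOfInjective _ _ (MulAut.conj s).injective).toEquiv.symm]
      rw [mem_normalizer_iff]
      intro x
      refine ⟨fun hx => hle hx, fun hx => ?_⟩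
      have hx' : MulAut.conj s x ∈ (V₁ ⊔ V₂).map (MulAut.conj s).toMonoidHom := by rw [hmap]; exact hx
      obtain ⟨y, hy, hyx⟩ := hx'
      rw [← (MulAut.conj s).injective hyx]
      exact hy
    have hs2 := sq_mem_D h d hS hTS hsS hsT hsN
    set D := V₁ ⊔ V₂ with hDdef
    set U := zpowers s ⊔ D with hU
    have hUmem : ∀ x ∈ U, x ∈ D ∨ ∃ y ∈ D, x = s * y := by
      intro x hx
      obtain ⟨a, ha, y, hy, rfl⟩ := (H11.mem_sup_of_le_normalizer (by rwa [zpowers_le])).1 hx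
      obtain ⟨n, rfl⟩ := mem_zpowers_iff.1 ha
      rcases Int.even_or_odd' n with ⟨k, rfl | rfl⟩
      · left
        refine mul_mem ?_ hy
        rw [zpow_mul]
        exact zpow_mem (by rw [zpow_ofNat, pow_two]; exact hs2) k
      · right
        refine ⟨s ^ (2 * k) * y, mul_mem ?_ hy, ?_⟩
        · rw [zpow_mul]
          exact zpow_mem (by rw [zpow_ofNat, pow_two]; exact hs2) k
        · rw [← mul_assoc, add_comm (2 * k) 1, zpow_add, zpow_one]
    have hUS : U ≤ (S : Subgroup G) := sup_le (by rwa [zpowers_le]) (hDT.trans hTS)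
    have hDU : D ≤ U := le_sup_right
    have hsU : s ∈ U := (le_sup_left : zpowers s ≤ _) (mem_zpowers s)
    have hsnD : s ∉ D := fun h1 => hsT (hDT h1)
    have hDUi : D.relIndex U = 2 := by
      change (D.subgroupOf U).index = 2
      rw [Subgroup.index_eq_two_iff]
      refine ⟨⟨s, hsU⟩, ?_⟩
      rintro ⟨b, hb⟩
      simp only [mem_subgroupOf]
      rcases hUmem b hb with h1 | ⟨y, hy, rfl⟩
      · right
        refine ⟨h1, fun h2 => hsnD ?_⟩
        have h2' : b * s ∈ D := h2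
        exact (Subgroup.mul_mem_cancel_left D h1).1 h2'
      · left
        refine ⟨?_, fun h2 => hsnD ?_⟩
        · change s * y * s ∈ D
          have : s * y * s = (s * y * s⁻¹) * (s * s) := by group
          rw [this]
          exact mul_mem ((mem_normalizer_iff.1 hsD y).1 hy) hs2
        · have h2' : s * y ∈ D := h2
          exact (Subgroup.mul_mem_cancel_right D hy).1 h2'
    have hTSi : T.relIndex (S : Subgroup G) = 2 := by
      change (T.subgroupOf (S : Subgroup G)).index = 2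
      rw [Subgroup.index_eq_two_iff]
      refine ⟨⟨s, hsS⟩, ?_⟩
      rintro ⟨b, hb⟩
      simp only [mem_subgroupOf]
      by_cases hbT : b ∈ T
      · right
        refine ⟨hbT, fun h2 => hsT ?_⟩
        have h2' : b * s ∈ T := h2
        exact (Subgroup.mul_mem_cancel_left T hbT).1 h2'
      · left
        refine ⟨?_, hbT⟩
        change b * s ∈ T
        obtain ⟨-, a1, a2⟩ := act h d hS hTS hsS hsT hsN
        obtain ⟨-, b1, b2⟩ := act h d hS hTS hb hbT (hSN hb)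
        rw [← inf_P h hS hTS]
        refine ⟨mul_mem hb hsS, ?_⟩
        have h1 : b * s ∈ P₁ := by
          rw [d.zP1]
          have : MulAut.conj (b * s) z₁ = z₁ := by
            rw [map_mul, MulAut.mul_apply, a1, b2]
          exact mul_inv_eq_iff_eq_mul.1 this
        exact h1
    refine ⟨U, ?_, hfin U ?_⟩
    · have e1 := H11.card_mul_relIndex hDU
      have e2 := H11.card_mul_relIndex hTS
      have e3 := H11.card_mul_relIndex hUS
      rw [hD8, hDUi] at e1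
      rw [hTSi, d.cardT] at e2
      rw [← e1, ← e2] at e3
      have e4 := Subgroup.relIndex_mul_index hUS
      rw [← e4, show U.relIndex (S : Subgroup G) = 2 by omega]
      obtain ⟨k, hk⟩ := hSodd
      omega
    · intro x hx hx2
      rcases hUmem x hx with h1 | ⟨y, hy, rfl⟩
      · exact h1
      · exact absurd hx2 (hgood y hy)

theorem closure_odd_le_of_index_two {K : Subgroup G} (hK : K.index = 2) :
    closure {g : G | Odd (orderOf g)} ≤ K := by
  rw [closure_le]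
  rintro g ⟨k, hk⟩
  have h1 : g ^ 2 ∈ K := Subgroup.sq_mem_of_index_two hK g
  have h2 : g ^ (2 * k) ∈ K := by rw [pow_mul]; exact pow_mem h1 k
  have h3 : g ^ (2 * k) * g = 1 := by rw [← pow_succ, ← hk, pow_orderOf_eq_one]
  have h4 : g = (g ^ (2 * k))⁻¹ := eq_inv_of_mul_eq_one_right h3
  change g ∈ K
  rw [h4]
  exact inv_mem h2

theorem z_not_mem {C : Type*} [Group C] [Finite C] (h : Cf P₁ P₂ V₁ V₂ Z₁ Z₂ T)
    (hc1 : Nat.card Z₁ = 2) (hc2 : Nat.card Z₂ = 2) (hC : Nat.card C = 2)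
    (φ : P₁ ≃* Perm (Fin 4) × C) : Z₁ ⊓ closure {g : G | Odd (orderOf g)} = ⊥ := by
  obtain ⟨z₁, hz1, z₂, hz2, t, d⟩ := h.exists_dt hc1 hc2
  obtain ⟨U, hU, hUc⟩ := exists_U h d hz1 hc1 hc2 hC φ
  obtain ⟨K, hK, hzK⟩ := H80.thompson_transfer U hU z₁ (orderOf_eq_prime (by rw [pow_two]; exact d.z1sq) d.z1) hUc
  rw [eq_bot_iff]
  rintro x ⟨hx, hxo⟩
  obtain ⟨z, -, -, -, hu, -⟩ := Cf.exists_z h.q₁ hc1
  rcases hu x hx with e | e
  · rw [e]; exact one_mem _
  · exfalso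
    rcases hu z₁ hz1 with e' | e'
    · exact d.z1 e'
    · apply hzK
      rw [e', ← e]
      exact closure_odd_le_of_index_two hK hxo

/-- the intersection with `H` -/
structure Out (P V H : Subgroup G) : Prop where
  VH : V ≤ H
  iso : Nonempty (↥(P ⊓ H) ≃* Perm (Fin 4))
  cen : ∀ x ∈ P ⊓ H, (∀ v ∈ V, x * v = v * x) → x ∈ V

theorem out_of {H : Subgroup G} (hH : H = closure {g : G | Odd (orderOf g)}) (h : Cf P₁ P₂ V₁ V₂ Z₁ Z₂ T)
    (hc : Nat.card Z₁ = Nat.card Z₂) (hc2 : Nat.card Z₁ = 1 ∨ Nat.card Z₁ = 2)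
    (hZ : Z₁ ⊓ H = ⊥) : Out P₁ V₁ H := by
  have hVH : ∀ {P V Z : Subgroup G}, QD P V Z → V ≤ H := by
    intro P V Z q x hx
    rw [hH]
    exact closure_mono (fun g hg => hg.2) ((q.mem_iff x).1 hx).1
  refine ⟨hVH h.q₁, ?_, ?_⟩
  · obtain ⟨f, hf, hker⟩ := h.q₁.ex
    -- injectivity on the intersection
    set j : ↥(P₁ ⊓ H) →* Perm (Fin 4) := f.comp (Subgroup.inclusion inf_le_left) with hj
    have hji : Function.Injective j := by
      rw [← MonoidHom.ker_eq_bot_iff, eq_bot_iff]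
      rintro ⟨x, hxP, hxH⟩ hx
      have h1 : (⟨x, hxP⟩ : P₁) ∈ f.ker := hx
      rw [hker, mem_subgroupOf] at h1
      have h2 : x ∈ Z₁ ⊓ H := ⟨h1, hxH⟩
      rw [hZ, mem_bot] at h2
      rw [mem_bot]
      exact Subtype.ext h2
    have h8 : 8 ∣ Nat.card ↥(P₁ ⊓ H) := by
      rw [← h.card_D hc hc2]
      refine Subgroup.card_dvd_of_le (le_inf ?_ ?_)
      · exact sup_le h.q₁.VP (h.symm.VT.trans h.s₁.1)
      · exact sup_le (hVH h.q₁) (hVH h.q₂)
    have h3 : 3 ∣ Nat.card ↥(P₁ ⊓ H) := by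
      have h3P : 3 ∣ Nat.card P₁ := by rw [h.q₁.cardP]; exact ⟨8 * Nat.card Z₁, by ring⟩
      have : Fact (Nat.Prime 3) := ⟨Nat.prime_three⟩
      obtain ⟨⟨g, hg⟩, hg3⟩ := exists_prime_orderOf_dvd_card' 3 h3P
      rw [Subgroup.orderOf_mk] at hg3
      have hgH : g ∈ H := by
        rw [hH]
        refine subset_closure ?_
        change Odd (orderOf g)
        rw [hg3]
        decide
      have h5 := orderOf_dvd_natCard (⟨g, hg, hgH⟩ : ↥(P₁ ⊓ H))
      rw [← Subgroup.orderOf_coe] at h5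
      change orderOf g ∣ _ at h5
      rw [hg3] at h5
      exact h5
    have h24 : 24 ∣ Nat.card ↥(P₁ ⊓ H) := by
      have : Nat.Coprime 8 3 := by norm_num
      exact this.mul_dvd_of_dvd_of_dvd h8 h3
    have hle : Nat.card (Perm (Fin 4)) ≤ Nat.card ↥(P₁ ⊓ H) := by
      have e : Nat.card (Perm (Fin 4)) = 24 := by
        rw [Nat.card_perm]; simp [Nat.factorial]
      rw [e]
      exact Nat.le_of_dvd Nat.card_pos h24
    have hbij : Function.Bijective j :=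
      (Nat.bijective_iff_injective_and_card j).2 ⟨hji, le_antisymm (Nat.card_le_card_of_injective j hji) hle⟩
    exact ⟨MulEquiv.ofBijective j hbij⟩
  · rintro x ⟨hxP, hxH⟩ hxc
    obtain ⟨v, hv, z, hz, rfl⟩ := h.q₁.cen x hxP hxc
    have h1 : z ∈ Z₁ ⊓ H := ⟨hz, (Subgroup.mul_mem_cancel_left H (hVH h.q₁ hv)).1 hxH⟩
    rw [hZ, mem_bot] at h1
    rw [h1, mul_one]
    exact hv

set_option maxRecDepth 100000 in
theorem perm_aux : ∀ y : Perm (Fin 4), F4 y ∨ (y ≠ 1 ∧ y ^ 3 = 1) ∨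
    ∃ g : Perm (Fin 4), (y * (g * y * g⁻¹)) ≠ 1 ∧ (y * (g * y * g⁻¹)) ^ 3 = 1 := by
  decide

theorem normal_two_le {Y : Subgroup (Perm (Fin 4))} (hY : IsPGroup 2 Y) (hn : Y.Normal) : Y ≤ V4 := by
  intro y hy
  have key : ∀ u ∈ Y, u ^ 3 = 1 → u = 1 := by
    intro u hu h3
    obtain ⟨n, hn⟩ := (IsPGroup.iff_orderOf.1 hY) ⟨u, hu⟩
    rw [Subgroup.orderOf_mk] at hn
    have h1 : orderOf u ∣ 3 := orderOf_dvd_of_pow_eq_one h3
    rw [← orderOf_eq_one_iff]
    have h2 : Nat.Coprime (orderOf u) 3 := by rw [hn]; exact Nat.Coprime.pow_left _ (by norm_num)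
    exact Nat.Coprime.eq_one_of_dvd h2 h1
  rcases perm_aux y with h | ⟨h1, h2⟩ | ⟨g, h1, h2⟩
  · exact h
  · exact absurd (key y hy h2) h1
  · exact absurd (key _ (mul_mem hy (hn.conj_mem y hy g)) h2) h1

theorem normal_eq {Y : Subgroup (Perm (Fin 4))} (hY : IsPGroup 2 Y) (hn : Y.Normal) (hY1 : Y ≠ ⊥) :
    Y = V4 := by
  refine le_antisymm (normal_two_le hY hn) ?_
  obtain ⟨y, hy, hy1⟩ := (Subgroup.ne_bot_iff_exists_ne_one.1 hY1 |>.imp fun y hy => ⟨y.2, hy⟩ : ∃ y : Y, (y : Perm (Fin 4)) ∈ Y ∧ y ≠ 1)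
  have hy1' : (y : Perm (Fin 4)) ≠ 1 := fun h => hy1 (Subtype.ext h)
  have hy4 := (F4_list (y : Perm (Fin 4))).1 (normal_two_le hY hn hy)
  intro v hv
  by_cases hv1 : v = 1
  · rw [hv1]; exact one_mem _
  · have hv4 := (F4_list v).1 hv
    obtain ⟨g, hg⟩ := F4_trans (y : Perm (Fin 4)) (by simpa [hy1'] using hy4) v (by simpa [hv1] using hv4)
    rw [← hg]
    exact hn.conj_mem _ hy g

/-- normal 2-subgroups of `M ≅ S₄` -/
theorem eq_of_normal {M X Y : Subgroup G} (j : M ≃* Perm (Fin 4)) (hXM : X ≤ M) (hYM : Y ≤ M)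
    (hX : IsPGroup 2 X) (hY : IsPGroup 2 Y) (hX1 : X ≠ ⊥) (hY1 : Y ≠ ⊥)
    (hMX : M ≤ normalizer (X : Set G)) (hMY : M ≤ normalizer (Y : Set G)) : X = Y := by
  have key : ∀ {X : Subgroup G}, X ≤ M → IsPGroup 2 X → X ≠ ⊥ → M ≤ normalizer (X : Set G) →
      (X.subgroupOf M).map j.toMonoidHom = V4 := by
    intro X hXM hX hX1 hMX
    have hn : (X.subgroupOf M).Normal := (normal_subgroupOf_iff_le_normalizer hXM).2 hMX
    refine normal_eq ?_ (hn.map _ j.surjective) ?_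
    · exact IsPGroup.map (hX.comap_of_injective M.subtype M.subtype_injective) _
    · intro h0
      have h1 := (Subgroup.map_eq_bot_iff_of_injective _ j.injective).1 h0
      rw [Subgroup.subgroupOf_eq_bot, disjoint_iff, inf_eq_left.2 hXM] at h1
      exact hX1 h1
  have h1 := (key hXM hX hX1 hMX).trans (key hYM hY hY1 hMY).symm
  have h2 := Subgroup.map_injective (f := j.toMonoidHom) j.injective h1
  rw [Subgroup.subgroupOf_inj, inf_eq_left.2 hXM, inf_eq_left.2 hYM] at h2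
  exact h2

theorem maxLocal_H {H : Subgroup G} (q : QD P V Z) (hN : normalizer (V : Set G) = P) (o : Out P V H) :
    IsMaximalTwoLocal (P.subgroupOf H) := by
  have hVP2 : V ≤ P ⊓ H := le_inf q.VP o.VH
  have hV1 : V ≠ ⊥ := Cf.V_ne_bot q
  have hVH1 : V.subgroupOf H ≠ ⊥ := by
    intro h0
    rw [Subgroup.subgroupOf_eq_bot, disjoint_iff, inf_eq_left.2 o.VH] at h0
    exact hV1 h0
  refine ⟨⟨V.subgroupOf H, (Cf.V_pg q).comap_of_injective H.subtype H.subtype_injective, hVH1, ?_⟩, ?_⟩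
  · rw [← Subgroup.subgroupOf_normalizer_eq o.VH, hN]
  · rintro _ ⟨R, hR, hR1, rfl⟩ hle
    obtain ⟨j⟩ := o.iso
    -- pass to `G`
    set R' : Subgroup G := R.map H.subtype with hR'
    have hR'H : R' ≤ H := map_subtype_le R
    have hR'p : IsPGroup 2 R' := hR.map _
    have hR'1 : R' ≠ ⊥ := fun h0 => hR1 ((Subgroup.map_eq_bot_iff_of_injective _ H.subtype_injective).1 h0)
    have hsub : R'.subgroupOf H = R := by
      exact Subgroup.comap_map_eq_self_of_injective H.subtype_injective R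
    have hMN : P ⊓ H ≤ normalizer (R' : Set G) := by
      rintro x ⟨hxP, hxH⟩
      have h1 : (⟨x, hxH⟩ : H) ∈ normalizer (R : Set H) := hle (by rw [mem_subgroupOf]; exact hxP)
      rw [← hsub, ← Subgroup.subgroupOf_normalizer_eq hR'H, mem_subgroupOf] at h1
      exact h1
    have hVR : V ≤ normalizer (R' : Set G) := hVP2.trans hMN
    -- the normalizer of `V` in `R'`
    have hnor : R' ⊓ P ≤ V := by
      by_cases h0 : R' ⊓ P = ⊥
      · rw [h0]; exact bot_le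
      · have h1 : R' ⊓ P ≤ P ⊓ H := le_inf inf_le_right (inf_le_left.trans hR'H)
        have h2 := eq_of_normal j h1 hVP2 (hR'p.to_le inf_le_left) (Cf.V_pg q) h0 hV1
          (H11.le_normalizer_inf hMN (inf_le_left.trans le_normalizer))
          (inf_le_left.trans q.norm)
        exact h2.le
    have hW : IsPGroup 2 (V ⊔ R' : Subgroup G) := IsPGroup.to_sup_of_normal_right' (Cf.V_pg q) hR'p hVR
    have hVW : V = V ⊔ R' := by
      apply H49.JC.eq_of_normalizer_inf_le hW le_sup_left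
      rintro w ⟨hw1, hw2⟩
      obtain ⟨v, hv, r, hr, rfl⟩ := (H11.mem_sup_of_le_normalizer hVR).1 hw1
      have hw2' : v * r ∈ P := by
        have : v * r ∈ normalizer (V : Set G) := hw2
        rwa [hN] at this
      have h1 : r ∈ P := (Subgroup.mul_mem_cancel_left P (q.VP hv)).1 hw2'
      exact mul_mem hv (hnor ⟨hr, h1⟩)
    have hRV : R' ≤ V := by rw [hVW]; exact le_sup_right
    have hfin := eq_of_normal j (hRV.trans hVP2) hVP2 hR'p (Cf.V_pg q) hR'1 hV1 hMN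
      (inf_le_left.trans q.norm)
    rw [← hsub, hfin, ← Subgroup.subgroupOf_normalizer_eq o.VH, hN]

theorem final {H : Subgroup G} (hH : H = closure {g : G | Odd (orderOf g)})
    (m₁ : IsMaximalTwoLocal P₁) (m₂ : IsMaximalTwoLocal P₂) (ne : P₁ ≠ P₂)
    (s₁ : IsSylowTwoIn T P₁) (s₂ : IsSylowTwoIn T P₂) {C : Type*} [Group C] [Finite C]
    (hC : Nat.card C = 1 ∨ Nat.card C = 2)
    (φ₁ : P₁ ≃* Perm (Fin 4) × C) (φ₂ : P₂ ≃* Perm (Fin 4) × C) :
    ∃ M₁ M₂ : Subgroup H, M₁ ≠ M₂ ∧ IsMaximalTwoLocal M₁ ∧ IsMaximalTwoLocal M₂ ∧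
      Nonempty (M₁ ≃* Perm (Fin 4)) ∧ Nonempty (M₂ ≃* Perm (Fin 4)) ∧ Nat.card ↥(M₁ ⊓ M₂) = 8 := by
  obtain ⟨V₁, Z₁, q₁, c₁⟩ := QD_of_iso hC φ₁
  obtain ⟨V₂, Z₂, q₂, c₂⟩ := QD_of_iso hC φ₂
  have h : Cf P₁ P₂ V₁ V₂ Z₁ Z₂ T := ⟨q₁, q₂, m₁, m₂, ne, s₁, s₂⟩
  have hc : Nat.card Z₁ = Nat.card Z₂ := c₁.trans c₂.symm
  have hc2 : Nat.card Z₁ = 1 ∨ Nat.card Z₁ = 2 := by rw [c₁]; exact hC
  have hZ1 : Z₁ ⊓ H = ⊥ := by
    rcases hC with h1 | h1
    · rw [card_eq_one.1 (c₁.trans h1), bot_inf_eq]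
    · rw [hH]
      exact z_not_mem h (c₁.trans h1) (c₂.trans h1) h1 φ₁
  have hZ2 : Z₂ ⊓ H = ⊥ := by
    rcases hC with h1 | h1
    · rw [card_eq_one.1 (c₂.trans h1), bot_inf_eq]
    · rw [hH]
      exact z_not_mem h.symm (c₂.trans h1) (c₁.trans h1) h1 φ₂
  have o₁ := out_of hH h hc hc2 hZ1
  have o₂ := out_of hH h.symm hc.symm (by rw [← hc]; exact hc2) hZ2
  have hne : P₁ ⊓ H ≠ P₂ ⊓ H := by
    intro e
    obtain ⟨j⟩ := o₁.iso
    apply h.V_ne
    exact eq_of_normal j (le_inf q₁.VP o₁.VH) (by rw [e]; exact le_inf q₂.VP o₂.VH) (Cf.V_pg q₁)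
      (Cf.V_pg q₂) (Cf.V_ne_bot q₁) (Cf.V_ne_bot q₂) (inf_le_left.trans q₁.norm)
      (by rw [e]; exact inf_le_left.trans q₂.norm)
  have hiso : ∀ {P V : Subgroup G}, Out P V H → Nonempty (↥(P.subgroupOf H) ≃* Perm (Fin 4)) := by
    intro P V o
    obtain ⟨j⟩ := o.iso
    exact ⟨((Subgroup.equivMapOfInjective _ H.subtype H.subtype_injective).trans
      (MulEquiv.subgroupCongr (subgroupOf_map_subtype P H))).trans j⟩
  refine ⟨P₁.subgroupOf H, P₂.subgroupOf H, ?_, maxLocal_H q₁ h.normV o₁, maxLocal_H q₂ h.symm.normV o₂,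
    hiso o₁, hiso o₂, ?_⟩
  · intro e
    exact hne (Subgroup.subgroupOf_inj.1 e)
  · have e1 : P₁.subgroupOf H ⊓ P₂.subgroupOf H = (P₁ ⊓ P₂).subgroupOf H := rfl
    have e2 : Nat.card ↥((P₁ ⊓ P₂).subgroupOf H) = Nat.card ↥(P₁ ⊓ P₂ ⊓ H) := by
      rw [← Nat.card_congr (MulEquiv.subgroupCongr (subgroupOf_map_subtype (P₁ ⊓ P₂) H)).toEquiv]
      exact Nat.card_congr (Subgroup.equivMapOfInjective _ H.subtype H.subtype_injective).toEquiv
    rw [e1, e2]
    have h8 : 8 ∣ Nat.card ↥(P₁ ⊓ P₂ ⊓ H) := by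
      rw [← h.card_D hc hc2]
      refine Subgroup.card_dvd_of_le (le_inf (le_inf ?_ ?_) ?_)
      · exact sup_le q₁.VP (h.symm.VT.trans s₁.1)
      · exact sup_le (h.VT.trans s₂.1) q₂.VP
      · exact sup_le o₁.VH o₂.VH
    have hle1 : P₁ ⊓ P₂ ⊓ H ≤ P₁ ⊓ H := inf_le_inf_right H inf_le_left
    have hle2 : P₁ ⊓ P₂ ⊓ H ≤ P₂ ⊓ H := inf_le_inf_right H inf_le_right
    have c24 : ∀ {P V : Subgroup G}, Out P V H → Nat.card ↥(P ⊓ H) = 24 := by
      intro P V o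
      obtain ⟨j⟩ := o.iso
      rw [Nat.card_congr j.toEquiv, Nat.card_perm]
      simp [Nat.factorial]
    have h24 : Nat.card ↥(P₁ ⊓ P₂ ⊓ H) ∣ 24 := by
      rw [← c24 o₁]
      exact Subgroup.card_dvd_of_le hle1
    have hn24 : Nat.card ↥(P₁ ⊓ P₂ ⊓ H) ≠ 24 := by
      intro e
      apply hne
      have f1 := Subgroup.eq_of_le_of_card_ge hle1 (by rw [e, c24 o₁])
      have f2 := Subgroup.eq_of_le_of_card_ge hle2 (by rw [e, c24 o₂])
      exact f1.symm.trans f2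
    obtain ⟨k, hk⟩ := h8
    rw [hk] at h24 hn24 ⊢
    have hk3 : k ∣ 3 := by
      have : 8 * k ∣ 8 * 3 := h24
      exact Nat.dvd_of_mul_dvd_mul_left (by norm_num) this
    rcases (Nat.dvd_prime Nat.prime_three).1 hk3 with e | e
    · rw [e]
    · rw [e] at hn24
      exact absurd rfl hn24

end Cfsg.Agent.H48.KS
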