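import Cfsg.Agent.H48.KSMain
import Cfsg.Agent.H49.JC.Syl

/-!
# Fusion in the case `S₄ × C₂`
-/

set_option autoImplicit false
set_option linter.unusedSectionVars false

namespace Cfsg.Agent.H48.KS

open Subgroup Equiv Cfsg

variable {G : Type*} [Group G] [Finite G] {P P' V V' Z Z' P₁ P₂ V₁ V₂ Z₁ Z₂ T S F : Subgroup G}
  {z₁ z₂ t s : G}

theorem inf_P (h : Cf P₁ P₂ V₁ V₂ Z₁ Z₂ T) (hS : IsPGroup 2 S) (hTS : T ≤ S) : S ⊓ P₁ = T :=
  sylowIn_max h.s₁ (le_inf hTS h.s₁.1) inf_le_right (hS.to_le inf_le_left)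

theorem conjV (q : QD P V Z) (q' : QD P' V' Z') (σ : G ≃* G) (hP : ∀ x ∈ P, σ x ∈ P') {x : G}
    (hx : x ∈ V) : σ x ∈ V' := by
  rw [q'.mem_iff]
  obtain ⟨h1, h2⟩ := (q.mem_iff x).1 hx
  refine ⟨?_, by rw [← map_mul, h2, map_one]⟩
  have h3 : closure {g : G | g ∈ P ∧ Odd (orderOf g)} ≤
      (closure {g : G | g ∈ P' ∧ Odd (orderOf g)}).comap σ.toMonoidHom := by
    rw [closure_le]
    rintro g ⟨hg, hgo⟩
    refine subset_closure ⟨hP g hg, ?_⟩
    have : orderOf (σ g) = orderOf g := orderOf_injective σ.toMonoidHom σ.injective g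
    change Odd (orderOf (σ g))
    rw [this]
    exact hgo
  exact h3 h1

theorem act (h : Cf P₁ P₂ V₁ V₂ Z₁ Z₂ T) (d : Dt P₁ P₂ V₁ V₂ T z₁ z₂ t) (hS : IsPGroup 2 S)
    (hTS : T ≤ S) (hsS : s ∈ S) (hsT : s ∉ T) (hsN : s ∈ normalizer (T : Set G)) :
    MulAut.conj s t = t ∧ MulAut.conj s z₁ = z₂ ∧ MulAut.conj s z₂ = z₁ := by
  set σ := MulAut.conj s with hσ
  have hσa : ∀ x, σ x = s * x * s⁻¹ := fun x => rfl
  have hP1 : s ∉ P₁ := fun hs => hsT (by rw [← inf_P h hS hTS]; exact ⟨hsS, hs⟩)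
  have hP2 : s ∉ P₂ := fun hs => hsT (by rw [← inf_P h.symm hS hTS]; exact ⟨hsS, hs⟩)
  have hs3 : s ^ 3 ∉ P₁ := by
    intro hs
    have h1 : s ^ 3 ∈ T := by rw [← inf_P h hS hTS]; exact ⟨pow_mem hsS 3, hs⟩
    obtain ⟨n, hn⟩ := (IsPGroup.iff_orderOf.1 hS) ⟨s, hsS⟩
    rw [Subgroup.orderOf_mk] at hn
    obtain ⟨m, hm⟩ := exists_pow_eq_self_of_coprime (n := 3) (x := s) (by
      rw [hn]; exact Nat.Coprime.pow_right _ (by norm_num))
    apply hsT
    rw [← hm]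
    exact pow_mem h1 m
  have hσT : ∀ x ∈ T, σ x ∈ T := fun x hx => (mem_normalizer_iff.1 hsN x).1 hx
  have hσT' : ∀ y ∈ T, ∃ x ∈ T, σ x = y := by
    intro y hy
    refine ⟨s⁻¹ * y * s, ?_, by rw [hσa]; group⟩
    rw [mem_normalizer_iff.1 hsN]
    convert hy using 1
    group
  have hσZ : ∀ x ∈ T, (∀ y ∈ T, x * y = y * x) → σ x = 1 ∨ σ x = t ∨ σ x = z₁ ∨ σ x = z₂ := by
    intro x hx hxc
    apply d.ZT _ (hσT x hx)
    intro y hy
    obtain ⟨y', hy', rfl⟩ := hσT' y hy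
    rw [← map_mul, ← map_mul, hxc y' hy']
  have hz1c : ∀ y ∈ T, z₁ * y = y * z₁ := fun y hy => ((d.zP1 y).1 (h.s₁.1 hy)).symm
  have htT : t ∈ T := h.VT d.tV1
  have htc : ∀ y ∈ T, t * y = y * t := fun y hy => (d.tT y hy).symm
  have hfix1 : ∀ g : G, g * z₁ * g⁻¹ = z₁ → g ∈ P₁ := by
    intro g hg
    rw [d.zP1]
    exact mul_inv_eq_iff_eq_mul.1 hg
  have hfix2 : ∀ g : G, g * z₂ * g⁻¹ = z₂ → g ∈ P₂ := by
    intro g hg
    rw [d.zP2]
    exact mul_inv_eq_iff_eq_mul.1 hg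
  have hz1V : z₁ ∉ V₁ := fun h => d.zD ((le_sup_left : V₁ ≤ _) h)
  have htt : t * t = 1 := Cf.sq h.q₁ d.tV1
  have hzt : z₂ = z₁ * t := by rw [d.zt]; exact (hz1c t htT).symm
  have cube : ∀ {a b : G}, σ z₁ = a → σ a = b → σ b = z₁ → False := by
    intro a b h1 h2 h3
    apply hs3
    apply hfix1
    have : s ^ 3 * z₁ * (s ^ 3)⁻¹ = σ (σ (σ z₁)) := by
      simp only [hσa, pow_succ, pow_zero, one_mul]; group
    rw [this, h1, h2, h3]
  have hσt := hσZ t htT htc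
  have hσt1 : σ t ≠ 1 := fun h => d.t1 (by simpa using h)
  have hσz2 : σ z₂ = σ t * σ z₁ := by rw [d.zt, map_mul]
  rcases hσZ z₁ d.zT hz1c with e | e | e | e
  · exact absurd (by simpa using e) d.z1
  · exfalso
    rcases hσt with e' | e' | e' | e'
    · exact hσt1 e'
    · have := σ.injective (e.trans e'.symm)
      exact hz1V (this ▸ d.tV1)
    · -- `z₁ → t → z₁`
      have h2 : σ z₂ = z₂ := by rw [hσz2, e, e', hzt]
      exact hP2 (hfix2 s h2)
    · refine cube e e' ?_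
      rw [hσz2, e, e', hzt, mul_assoc, htt, mul_one]
  · exact absurd (hfix1 s e) hP1
  · rcases hσt with e' | e' | e' | e'
    · exact absurd e' hσt1
    · refine ⟨e', e, ?_⟩
      rw [hσz2, e, e', d.zt, ← mul_assoc, htt, one_mul]
    · exfalso
      refine cube (a := z₂) (b := t) e ?_ e'
      rw [hσz2, e, e', hzt, ← mul_assoc, d.z1sq, one_mul]
    · exfalso
      have := σ.injective (e.trans e'.symm)
      exact hz1V (this ▸ d.tV1)

theorem swapV (h : Cf P₁ P₂ V₁ V₂ Z₁ Z₂ T) (d : Dt P₁ P₂ V₁ V₂ T z₁ z₂ t) (hS : IsPGroup 2 S)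
    (hTS : T ≤ S) (hsS : s ∈ S) (hsT : s ∉ T) (hsN : s ∈ normalizer (T : Set G)) :
    (∀ x ∈ V₁, MulAut.conj s x ∈ V₂) ∧ (∀ x ∈ V₂, MulAut.conj s x ∈ V₁) := by
  obtain ⟨e1, e2, e3⟩ := act h d hS hTS hsS hsT hsN
  constructor
  · intro x hx
    refine conjV h.q₁ h.q₂ _ (fun x hx => ?_) hx
    rw [d.zP2, ← e2, ← map_mul, ← map_mul, (d.zP1 x).1 hx]
  · intro x hx
    refine conjV h.q₂ h.q₁ _ (fun x hx => ?_) hx
    rw [d.zP1]
    have h1 := congrArg (MulAut.conj s) ((d.zP2 x).1 hx)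
    rw [map_mul, map_mul, e3] at h1
    exact h1

/-- involutions of `D` -/
theorem inv_D (h : Cf P₁ P₂ V₁ V₂ Z₁ Z₂ T) (d : Dt P₁ P₂ V₁ V₂ T z₁ z₂ t) {v w : G} (hv : v ∈ V₁)
    (hw : w ∈ V₂) (hvw : v * w * (v * w) = 1) : v * w ∈ V₁ ∨ v * w ∈ V₂ := by
  have hv2 := Cf.sq h.q₁ hv
  have hw2 := Cf.sq h.q₂ hw
  have hc : v * w = w * v := by
    calc v * w = v * w * ((v * v) * (w * w)) := by rw [hv2, hw2, mul_one, mul_one]
      _ = v * (w * v * (v * w) ) * w := by group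
      _ = v * w * v * (v * w) * w := by group
      _ = w * v := ?_
    have h1 : v⁻¹ = v := inv_eq_of_mul_eq_one_left hv2
    have h2 : w⁻¹ = w := inv_eq_of_mul_eq_one_left hw2
    have h3 : v * w = (v * w)⁻¹ := eq_inv_of_mul_eq_one_left hvw
    have h4 : v * w = w * v := by
      rw [h3, mul_inv_rev, h1, h2]
    calc v * w * v * (v * w) * w = v * w * (v * v) * (w * w) := by group
      _ = v * w := by rw [hv2, hw2, mul_one, mul_one]
      _ = w * v := h4
  rcases d.cc v hv w hw hc with h1 | h1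
  · exact Or.inr (mul_mem h1 hw)
  · exact Or.inl (mul_mem hv h1)

theorem cent_inv (h : Cf P₁ P₂ V₁ V₂ Z₁ Z₂ T) (d : Dt P₁ P₂ V₁ V₂ T z₁ z₂ t) (hS : IsPGroup 2 S)
    (hTS : T ≤ S) (hsS : s ∈ S) (hsT : s ∉ T) (hsN : s ∈ normalizer (T : Set G)) {x : G}
    (hx : x ∈ T) (hx2 : x * x = 1) (hxs : MulAut.conj s x = x) : x = 1 ∨ x = t := by
  obtain ⟨e1, e2, e3⟩ := act h d hS hTS hsS hsT hsN
  obtain ⟨f1, f2⟩ := swapV h d hS hTS hsS hsT hsN
  have hz1c : ∀ y ∈ T, z₁ * y = y * z₁ := fun y hy => ((d.zP1 y).1 (h.s₁.1 hy)).symm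
  have key : ∀ y, y ∈ V₁ ∨ y ∈ V₂ → (MulAut.conj s y = y ∨ MulAut.conj s y * t = y) → y = 1 ∨ y = t := by
    rintro y (hy | hy) (hc | hc)
    · exact d.tu y hy (hc ▸ f1 y hy)
    · exact d.tu y hy (hc ▸ mul_mem (f1 y hy) d.tV2)
    · exact d.tu y (hc ▸ f2 y hy) hy
    · exact d.tu y (hc ▸ mul_mem (f2 y hy) d.tV1) hy
  obtain ⟨v, hv, w, hw, rfl | rfl⟩ := d.T16 x hx
  · exact key _ (inv_D h d hv hw hx2) (Or.inl hxs)
  · exfalso
    have hvT := h.VT hv
    have hwT := h.symm.VT hw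
    have hdd : v * w * (v * w) = 1 := by
      have h1 : v * w * z₁ * (v * w * z₁) = v * w * (v * w) * (z₁ * z₁) := by
        have := hz1c (v * w) (mul_mem hvT hwT)
        calc v * w * z₁ * (v * w * z₁) = v * w * (z₁ * (v * w)) * z₁ := by group
          _ = v * w * (v * w * z₁) * z₁ := by rw [this]
          _ = _ := by group
      rw [h1, d.z1sq, mul_one] at hx2
      exact hx2
    have h2 : MulAut.conj s (v * w) * t = v * w := by
      rw [map_mul, e2, d.zt, ← mul_assoc] at hxs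
      exact mul_right_cancel hxs
    rcases key _ (inv_D h d hv hw hdd) (Or.inr h2) with h3 | h3
    · rw [h3, map_one, one_mul] at h2
      exact d.t1 h2
    · rw [h3, e1] at h2
      exact d.t1 (mul_eq_left.1 h2)

/-- elementary abelian subgroups of order 8 -/
theorem le_T_of_card (h : Cf P₁ P₂ V₁ V₂ Z₁ Z₂ T) (d : Dt P₁ P₂ V₁ V₂ T z₁ z₂ t) (hS : IsPGroup 2 S)
    (hTS : T ≤ S) (hF : F ≤ S ⊓ normalizer (T : Set G)) (hF8 : Nat.card F = 8)
    (hF2 : ∀ x ∈ F, x * x = 1) : F ≤ T := by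
  intro f hf
  by_contra hfT
  have hcF : ∀ x ∈ F, ∀ y ∈ F, x * y = y * x := by
    intro x hx y hy
    have h1 := hF2 _ (mul_mem hx hy)
    have h2 : x⁻¹ = x := inv_eq_of_mul_eq_one_left (hF2 x hx)
    have h3 : y⁻¹ = y := inv_eq_of_mul_eq_one_left (hF2 y hy)
    have h4 : x * y = (x * y)⁻¹ := eq_inv_of_mul_eq_one_left h1
    rw [h4, mul_inv_rev, h2, h3]
  -- product of two elements outside `T`
  have hprod : ∀ x ∈ F, x ∉ T → f * x ∈ T := by
    intro x hx hxT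
    obtain ⟨-, a1, a2⟩ := act h d hS hTS (hF hx).1 hxT (hF hx).2
    obtain ⟨-, b1, b2⟩ := act h d hS hTS (hF hf).1 hfT (hF hf).2
    rw [← inf_P h hS hTS]
    refine ⟨mul_mem (hF hf).1 (hF hx).1, ?_⟩
    have h1 : f * x ∈ P₁ := by
      rw [d.zP1]
      have : MulAut.conj (f * x) z₁ = z₁ := by
        rw [map_mul, MulAut.mul_apply, a1, b2]
      exact mul_inv_eq_iff_eq_mul.1 this
    exact h1
  have hidx : (T.subgroupOf F).index = 2 := by
    rw [Subgroup.index_eq_two_iff]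
    refine ⟨⟨f, hf⟩, ?_⟩
    rintro ⟨b, hb⟩
    simp only [mem_subgroupOf]
    by_cases hbT : b ∈ T
    · right
      refine ⟨hbT, fun h1 => hfT ?_⟩
      have h2 : b * f ∈ T := h1
      exact (Subgroup.mul_mem_cancel_left T hbT).1 h2
    · left
      refine ⟨?_, hbT⟩
      have := hprod b hb hbT
      rw [hcF f hf b hb] at this
      exact this
  have hc := (T.subgroupOf F).card_mul_index
  rw [hidx, hF8] at hc
  have hc4 : Nat.card (T.subgroupOf F) = 4 := by omega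
  -- all elements are `1` or `t`
  have hall : ∀ x : T.subgroupOf F, ((x : F) : G) = 1 ∨ ((x : F) : G) = t := by
    rintro ⟨⟨x, hxF⟩, hxT⟩
    rw [mem_subgroupOf] at hxT
    refine cent_inv h d hS hTS (hF hf).1 hfT (hF hf).2 hxT (hF2 x hxF) ?_
    change f * x * f⁻¹ = x
    rw [hcF f hf x hxF]; group
  have : Nat.card (T.subgroupOf F) ≤ Nat.card ({1, t} : Set G) := by
    refine Nat.card_le_card_of_injective (fun x => ⟨((x : F) : G), by
      rcases hall x with h1 | h1 <;> simp [h1]⟩) ?_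
    intro x y hxy
    have := congrArg (fun z : ({1, t} : Set G) => (z : G)) hxy
    exact Subtype.ext (Subtype.ext this)
  have h2 : Nat.card ({1, t} : Set G) ≤ 2 := by
    rw [Nat.card_coe_set_eq]
    exact (Set.ncard_insert_le _ _).trans (by rw [Set.ncard_singleton])
  omega

/-- if `T < S` then `T` is normal in `S` of index two -/
theorem S_le_normalizer (h : Cf P₁ P₂ V₁ V₂ Z₁ Z₂ T) (d : Dt P₁ P₂ V₁ V₂ T z₁ z₂ t)
    (hc1 : Nat.card Z₁ = 2) (hc2 : Nat.card Z₂ = 2) (hS : IsPGroup 2 S)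
    (hTS : T ≤ S) : S ≤ normalizer (T : Set G) := by
  have hE : ∀ {P V Z : Subgroup G}, QD P V Z → Nat.card Z = 2 → ∀ x ∈ V ⊔ Z, x * x = 1 := by
    intro P V Z q hc x hx
    obtain ⟨z, -, hz, hz2, hu, -⟩ := Cf.exists_z q hc
    obtain ⟨v, hv, w, hw, rfl⟩ := (H11.mem_sup_of_le_normalizer
      ((q.VP.trans (Cf.normZ q)).trans (centralizer_le_normalizer _))).1 hx
    have h1 : w * v = v * w := q.Zc w hw v (q.VP hv)
    have h2 : w * w = 1 := by
      rcases hu w hw with rfl | rfl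
      · exact mul_one _
      · exact hz2
    calc v * w * (v * w) = v * (w * v) * w := by group
      _ = (v * v) * (w * w) := by rw [h1]; group
      _ = 1 := by rw [Cf.sq q hv, h2, mul_one]
  have hR : S ⊓ normalizer (T : Set G) = S := by
    apply H49.JC.eq_of_normalizer_inf_le hS inf_le_left
    rintro n ⟨hnS, hnR⟩
    refine ⟨hnS, ?_⟩
    have key : ∀ {P V Z : Subgroup G}, QD P V Z → Nat.card Z = 2 → V ⊔ Z ≤ T →
        ∀ x ∈ V ⊔ Z, MulAut.conj n x ∈ T := by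
      intro P V Z q hc hVT x hx
      have hF : (V ⊔ Z).map (MulAut.conj n).toMonoidHom ≤ T := by
        refine le_T_of_card h d hS hTS ?_ ?_ ?_
        · rintro _ ⟨y, hy, rfl⟩
          have : y ∈ S ⊓ normalizer (T : Set G) := ⟨hTS (hVT hy), le_normalizer (hVT hy)⟩
          exact (mem_normalizer_iff.1 hnR y).1 this
        · rw [Nat.card_congr (Subgroup.equivMapOfInjective _ _ (MulAut.conj n).injective).toEquiv.symm,
            Cf.card_VZ q, hc]
        · rintro _ ⟨y, hy, rfl⟩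
          rw [← map_mul, hE q hc y hy, map_one]
      exact hF ⟨x, hx, rfl⟩
    have hZT : Z₁ ≤ T := sylowIn_le h.s₁ h.q₁.ZP (Cf.Z_pg h.q₁ (Or.inr hc1))
      (h.s₁.1.trans ((Cf.normZ h.q₁).trans (centralizer_le_normalizer _)))
    have hZT2 : Z₂ ≤ T := sylowIn_le h.s₂ h.q₂.ZP (Cf.Z_pg h.q₂ (Or.inr hc2))
      (h.s₂.1.trans ((Cf.normZ h.q₂).trans (centralizer_le_normalizer _)))
    have k1 := key h.q₁ hc1 (sup_le h.VT hZT)
    have k2 := key h.q₂ hc2 (sup_le h.symm.VT hZT2)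
    obtain ⟨z, -, hz, -, hu, -⟩ := Cf.exists_z h.q₁ hc1
    have hz1Z : z₁ ∈ V₁ ⊔ Z₁ := by
      -- `z₁` is central in `P₁` and lies in `V₁ Z₁`
      obtain ⟨v, hv, w, hw, e⟩ := h.q₁.cen z₁ (h.s₁.1 d.zT) (fun v hv => ((d.zP1 v).1 (h.q₁.VP hv)).symm)
      rw [e]
      exact mul_mem_sup hv hw
    have hT : T ≤ T.comap (MulAut.conj n).toMonoidHom := by
      intro x hx
      rw [mem_comap]
      obtain ⟨v, hv, w, hw, rfl | rfl⟩ := d.T16 x hx
      · rw [map_mul]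
        exact mul_mem (k1 v ((le_sup_left : V₁ ≤ _) hv)) (k2 w ((le_sup_left : V₂ ≤ _) hw))
      · rw [map_mul, map_mul]
        exact mul_mem (mul_mem (k1 v ((le_sup_left : V₁ ≤ _) hv)) (k2 w ((le_sup_left : V₂ ≤ _) hw)))
          (k1 z₁ hz1Z)
    have hmap : T.map (MulAut.conj n).toMonoidHom = T := by
      apply Subgroup.eq_of_le_of_card_ge (map_le_iff_le_comap.2 hT)
      rw [Nat.card_congr (Subgroup.equivMapOfInjective _ _ (MulAut.conj n).injective).toEquiv.symm]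
    change n ∈ normalizer (T : Set G)
    rw [mem_normalizer_iff]
    intro x
    constructor
    · intro hx
      exact hT hx
    · intro hx
      have hx' : MulAut.conj n x ∈ T.map (MulAut.conj n).toMonoidHom := by rw [hmap]; exact hx
      obtain ⟨y, hy, hyx⟩ := hx'
      rw [← (MulAut.conj n).injective hyx]
      exact hy
  exact inf_eq_left.1 hR

/-- explicit generators -/
theorem gens (h : Cf P₁ P₂ V₁ V₂ Z₁ Z₂ T) (d : Dt P₁ P₂ V₁ V₂ T z₁ z₂ t)
    (hS : IsPGroup 2 S) (hTS : T ≤ S) (hsS : s ∈ S) (hsT : s ∉ T) (hsN : s ∈ normalizer (T : Set G)) :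
    ∃ a ∈ V₁, ∃ b ∈ V₂, a ∉ V₂ ∧ b ∉ V₁ ∧ MulAut.conj s a = b ∧ b * a = a * b * t ∧
      (MulAut.conj s b = a ∨ MulAut.conj s b = a * t) ∧
      (∀ v ∈ V₁, v = 1 ∨ v = t ∨ v = a ∨ v = a * t) ∧ (∀ w ∈ V₂, w = 1 ∨ w = t ∨ w = b ∨ w = b * t) := by
  obtain ⟨f1, f2⟩ := swapV h d hS hTS hsS hsT hsN
  obtain ⟨e1, e2, e3⟩ := act h d hS hTS hsS hsT hsN
  obtain ⟨a, ha, haV⟩ : ∃ a ∈ V₁, a ∉ V₂ := by
    by_contra hcon
    push Not at hcon
    exact h.V_ne (Subgroup.eq_of_le_of_card_ge hcon (by rw [h.q₁.cardV, h.q₂.cardV]))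
  set b := MulAut.conj s a with hb
  have hbV : b ∈ V₂ := f1 a ha
  have hbV1 : b ∉ V₁ := by
    intro hb1
    rcases d.tu b hb1 hbV with h1 | h1
    · have : a = 1 := by
        have := (MulAut.conj s).injective (h1.trans (map_one (MulAut.conj s)).symm)
        exact this
      exact haV (this ▸ V₂.one_mem)
    · have : a = t := (MulAut.conj s).injective (h1.trans e1.symm)
      exact haV (this ▸ d.tV2)
  have htT : t ∈ T := h.VT d.tV1
  have hgen : ∀ {V V' : Subgroup G} {c : G}, Nat.card V = 4 → (∀ x ∈ V, ∀ y ∈ V, x * y = y * x) →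
      (∀ x ∈ V, x ∈ V' → x = 1 ∨ x = t) →
      t ∈ V → t ∈ V' → c ∈ V → c ∉ V' → (∀ x ∈ V, x * x = 1) →
      ∀ v ∈ V, v = 1 ∨ v = t ∨ v = c ∨ v = c * t := by
    intro V V' c hV hab hu ht ht' hc hc' hsq v hv
    have hcard : Nat.card ((V ⊓ V').subgroupOf V) = 2 := by
      rw [Nat.card_congr (subgroupOfEquivOfLe inf_le_left).toEquiv]
      rw [Nat.card_eq_two_iff' (1 : (V ⊓ V' : Subgroup G))]
      refine ⟨⟨t, ht, ht'⟩, fun h => d.t1 (congrArg Subtype.val h), ?_⟩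
      rintro ⟨y, hy1, hy2⟩ hy
      rcases hu y hy1 hy2 with h1 | h1
      · exact absurd (Subtype.ext h1) hy
      · exact Subtype.ext h1
    have hi : ((V ⊓ V').subgroupOf V).index = 2 := by
      have := ((V ⊓ V').subgroupOf V).card_mul_index
      rw [hcard, hV] at this
      omega
    by_cases hv' : v ∈ V'
    · rcases hu v hv hv' with h1 | h1
      · exact Or.inl h1
      · exact Or.inr (Or.inl h1)
    · have h1 := (Subgroup.mul_mem_iff_of_index_two hi (a := ⟨c⁻¹, inv_mem hc⟩) (b := ⟨v, hv⟩)).2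
      simp only [mem_subgroupOf] at h1
      have h2 : c⁻¹ * v ∈ V ⊓ V' :=
        h1 ⟨fun h3 => absurd (inv_mem h3) (by rw [inv_inv]; exact fun h4 => hc' h4.2), fun h3 => absurd h3.2 hv'⟩
      rcases hu _ h2.1 h2.2 with h3 | h3
      · right; right; left
        exact (inv_mul_eq_one.1 h3).symm
      · right; right; right
        rw [← h3]; group
  have hV1 := hgen h.q₁.cardV (fun x hx y hy => Cf.V_comm h.q₁ hx hy) d.tu d.tV1 d.tV2 ha haV
    (fun x hx => Cf.sq h.q₁ hx)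
  have hV2 := hgen h.q₂.cardV (fun x hx y hy => Cf.V_comm h.q₂ hx hy) (fun x hx hx' => d.tu x hx' hx)
    d.tV2 d.tV1 hbV hbV1 (fun x hx => Cf.sq h.q₂ hx)
  refine ⟨a, ha, b, hbV, haV, hbV1, rfl, ?_, ?_, hV1, hV2⟩
  · -- the commutator
    have h1 := h.comm_mem ha hbV
    have hne : a * b ≠ b * a := by
      intro hab
      rcases d.cc a ha b hbV hab with h2 | h2
      · exact haV h2
      · exact hbV1 h2
    rcases d.tu _ h1.1 h1.2 with h2 | h2
    · exact absurd (by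
        have : a * b * a⁻¹ * b⁻¹ * (b * a) = b * a := by rw [h2, one_mul]
        rw [← this]; group) hne
    · have h3 : a * b = t * (b * a) := by
        rw [← h2]; group
      have htt : t * t = 1 := Cf.sq h.q₁ d.tV1
      have h4 : t * (b * a) = (b * a) * t :=
        (d.tT _ (mul_mem (h.symm.VT hbV) (h.VT ha))).symm
      rw [h3, h4, mul_assoc, htt, mul_one]
  · have h1 := f2 b hbV
    have hne1 : MulAut.conj s b ≠ 1 := by
      intro h2
      have := (MulAut.conj s).injective (h2.trans (map_one (MulAut.conj s)).symm)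
      exact hbV1 (this ▸ V₁.one_mem)
    have hnet : MulAut.conj s b ≠ t := by
      intro h2
      have : b = t := (MulAut.conj s).injective (h2.trans e1.symm)
      exact hbV1 (this ▸ d.tV1)
    rcases hV1 _ h1 with h2 | h2 | h2 | h2
    · exact absurd h2 hne1
    · exact absurd h2 hnet
    · exact Or.inl h2
    · exact Or.inr h2

/-- normal form of elements of `V₁V₂` -/
theorem norm_form {a b v w : G} (ht2 : t * t = 1) (ha : t * a = a * t) (hb : t * b = b * t)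
    (hv : v = 1 ∨ v = t ∨ v = a ∨ v = a * t) (hw : w = 1 ∨ w = t ∨ w = b ∨ w = b * t) :
    ∃ m, (m = 1 ∨ m = t) ∧ (v * w = m ∨ v * w = a * m ∨ v * w = b * m ∨ v * w = a * b * m) := by
  have hb' : ∀ x, t * (b * x) = b * (t * x) := fun x => by rw [← mul_assoc, hb, mul_assoc]
  have ht' : ∀ x, t * (t * x) = x := fun x => by rw [← mul_assoc, ht2, one_mul]
  rcases hv with rfl | rfl | rfl | rfl <;> rcases hw with rfl | rfl | rfl | rfl
  · exact ⟨1, Or.inl rfl, Or.inl (one_mul _)⟩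
  · exact ⟨_, Or.inr rfl, Or.inl (one_mul _)⟩
  · exact ⟨1, Or.inl rfl, Or.inr (Or.inr (Or.inl (by rw [one_mul, mul_one])))⟩
  · exact ⟨t, Or.inr rfl, Or.inr (Or.inr (Or.inl (by rw [one_mul])))⟩
  · exact ⟨_, Or.inr rfl, Or.inl (mul_one _)⟩
  · exact ⟨1, Or.inl rfl, Or.inl ht2⟩
  · exact ⟨_, Or.inr rfl, Or.inr (Or.inr (Or.inl hb))⟩
  · exact ⟨1, Or.inl rfl, Or.inr (Or.inr (Or.inl (by rw [hb', ht2])))⟩
  · exact ⟨1, Or.inl rfl, Or.inr (Or.inl rfl)⟩
  · exact ⟨_, Or.inr rfl, Or.inr (Or.inl rfl)⟩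
  · exact ⟨1, Or.inl rfl, Or.inr (Or.inr (Or.inr (mul_one _).symm))⟩
  · exact ⟨t, Or.inr rfl, Or.inr (Or.inr (Or.inr (mul_assoc _ _ _).symm))⟩
  · exact ⟨_, Or.inr rfl, Or.inr (Or.inl (mul_one _))⟩
  · exact ⟨1, Or.inl rfl, Or.inr (Or.inl (by rw [mul_assoc, ht2]))⟩
  · exact ⟨_, Or.inr rfl, Or.inr (Or.inr (Or.inr (by rw [mul_assoc, hb, mul_assoc])))⟩
  · exact ⟨1, Or.inl rfl, Or.inr (Or.inr (Or.inr (by rw [mul_assoc, hb', ht2, mul_assoc])))⟩

theorem sq_mem_D (h : Cf P₁ P₂ V₁ V₂ Z₁ Z₂ T) (d : Dt P₁ P₂ V₁ V₂ T z₁ z₂ t)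
    (hS : IsPGroup 2 S) (hTS : T ≤ S) (hsS : s ∈ S) (hsT : s ∉ T) (hsN : s ∈ normalizer (T : Set G)) :
    s * s ∈ V₁ ⊔ V₂ := by
  obtain ⟨f1, f2⟩ := swapV h d hS hTS hsS hsT hsN
  obtain ⟨e1, e2, e3⟩ := act h d hS hTS hsS hsT hsN
  obtain ⟨a, ha, b, hb, haV, hbV, hab, hba, hsb, hv1, hv2⟩ := gens h d hS hTS hsS hsT hsN
  have hssT : s * s ∈ T := by
    rw [← inf_P h hS hTS]
    refine ⟨mul_mem hsS hsS, ?_⟩
    have h1 : s * s ∈ P₁ := by
      rw [d.zP1]
      have : MulAut.conj (s * s) z₁ = z₁ := by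
        rw [map_mul, MulAut.mul_apply, e2, e3]
      exact mul_inv_eq_iff_eq_mul.1 this
    exact h1
  have htt : t * t = 1 := Cf.sq h.q₁ d.tV1
  have haT := h.VT ha
  have hbT := h.symm.VT hb
  have ta := (d.tT a haT).symm
  have tb := (d.tT b hbT).symm
  have za : z₁ * a = a * z₁ := ((d.zP1 a).1 (h.s₁.1 haT)).symm
  obtain ⟨v, hv, w, hw, e | e⟩ := d.T16 _ hssT
  · rw [e]; exact mul_mem_sup hv hw
  exfalso
  obtain ⟨m, hm, hr⟩ := norm_form htt ta tb (hv1 v hv) (hv2 w hw)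
  have hmT : m ∈ T := by
    rcases hm with rfl | rfl
    · exact one_mem _
    · exact h.VT d.tV1
  have hmm : MulAut.conj s m = m := by
    rcases hm with rfl | rfl
    · exact map_one _
    · exact e1
  have mt : m * t = t * m := d.tT m hmT
  set r := v * w with hrdef
  have hq : MulAut.conj s (s * s) = s * s := by
    rw [MulAut.conj_apply]; group
  have hr2 : MulAut.conj s r * t = r := by
    rw [e, map_mul, e2, d.zt, ← mul_assoc] at hq
    exact mul_right_cancel hq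
  rcases hr with hr | hr | hr | hr
  · rw [hr, hmm] at hr2
    exact d.t1 (mul_eq_left.1 hr2)
  · rw [hr, map_mul, hmm, hab, mul_assoc, mt, ← mul_assoc] at hr2
    have h1 : b * t = a := mul_right_cancel hr2
    exact haV (h1 ▸ mul_mem hb d.tV2)
  · rw [hr, map_mul, hmm, mul_assoc, mt, ← mul_assoc] at hr2
    have h1 : MulAut.conj s b * t = b := mul_right_cancel hr2
    exact hbV (h1 ▸ mul_mem (f2 b hb) d.tV1)
  · rw [hr, map_mul, map_mul, hmm, hab, mul_assoc, mt, ← mul_assoc] at hr2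
    have h1 : b * MulAut.conj s b * t = a * b := mul_right_cancel hr2
    rcases hsb with h2 | h2
    · -- conjugation by `s²`
      have h3 : MulAut.conj (s * s) a = a := by rw [map_mul, MulAut.mul_apply, hab, h2]
      have h4 : s * s * a = a * (s * s) := mul_inv_eq_iff_eq_mul.1 h3
      have ma : m * a = a * m := by
        rcases hm with rfl | rfl
        · rw [one_mul, mul_one]
        · exact ta
      rw [e, hr] at h4
      have h5 : a * b * m * z₁ * a = a * (b * a) * m * z₁ := by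
        calc a * b * m * z₁ * a = a * b * m * (z₁ * a) := by group
          _ = a * b * (m * a) * z₁ := by rw [za]; group
          _ = a * (b * a) * m * z₁ := by rw [ma]; group
      rw [h5] at h4
      have h6 : a * (b * a) = a * (a * b) := by
        have h7 : a * (b * a) * (m * z₁) = a * (a * b) * (m * z₁) := by
          rw [← mul_assoc (a * (b * a)), h4]; group
        exact mul_right_cancel h7
      have h8 := mul_left_cancel h6
      rw [hba] at h8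
      exact d.t1 (mul_eq_left.1 h8)
    · rw [h2, ← mul_assoc, hba, mul_assoc, htt, mul_one] at h1
      exact d.t1 (mul_eq_left.1 h1)

theorem conj_mem_D (h : Cf P₁ P₂ V₁ V₂ Z₁ Z₂ T) (d : Dt P₁ P₂ V₁ V₂ T z₁ z₂ t)
    (hS : IsPGroup 2 S) (hTS : T ≤ S) (hsS : s ∈ S) (hsT : s ∉ T) (hsN : s ∈ normalizer (T : Set G))
    {x : G} (hx : x ∈ V₁ ⊔ V₂) : MulAut.conj s x ∈ V₁ ⊔ V₂ := by
  obtain ⟨f1, f2⟩ := swapV h d hS hTS hsS hsT hsN
  obtain ⟨v, hv, w, hw, rfl⟩ := (H11.mem_sup_of_le_normalizer h.V12).1 hx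
  rw [map_mul]
  exact mul_mem ((le_sup_right : V₂ ≤ _) (f1 v hv)) ((le_sup_left : V₁ ≤ _) (f2 w hw))

/-- an element outside `T` whose coset contains no involution -/
theorem exists_good (h : Cf P₁ P₂ V₁ V₂ Z₁ Z₂ T) (d : Dt P₁ P₂ V₁ V₂ T z₁ z₂ t)
    (hS : IsPGroup 2 S) (hTS : T ≤ S) (hSN : S ≤ normalizer (T : Set G)) (hsS : s ∈ S) (hsT : s ∉ T) :
    ∃ s' ∈ S, s' ∉ T ∧ ∀ x ∈ V₁ ⊔ V₂, s' * x * (s' * x) ≠ 1 := by
  by_cases hgood : ∀ x ∈ V₁ ⊔ V₂, s * x * (s * x) ≠ 1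
  · exact ⟨s, hsS, hsT, hgood⟩
  push Not at hgood
  obtain ⟨x₀, hx₀, h0⟩ := hgood
  have hDT : V₁ ⊔ V₂ ≤ T := sup_le h.VT h.symm.VT
  set s₁ := s * x₀ with hs₁
  have h1S : s₁ ∈ S := mul_mem hsS (hTS (hDT hx₀))
  have h1T : s₁ ∉ T := fun h1 => hsT ((Subgroup.mul_mem_cancel_right T (hDT hx₀)).1 h1)
  obtain ⟨f1, f2⟩ := swapV h d hS hTS h1S h1T (hSN h1S)
  obtain ⟨e1, e2, e3⟩ := act h d hS hTS h1S h1T (hSN h1S)
  obtain ⟨a, ha, b, hb, haV, hbV, hab, hba, -, hv1, hv2⟩ := gens h d hS hTS h1S h1T (hSN h1S)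
  have htt : t * t = 1 := Cf.sq h.q₁ d.tV1
  have haT := h.VT ha
  have hbT := h.symm.VT hb
  have ta := (d.tT a haT).symm
  have tb := (d.tT b hbT).symm
  have hinv : s₁⁻¹ = s₁ := inv_eq_of_mul_eq_one_left h0
  have hsb : MulAut.conj s₁ b = a := by
    rw [← hab, MulAut.conj_apply, MulAut.conj_apply]
    calc s₁ * (s₁ * a * s₁⁻¹) * s₁⁻¹ = (s₁ * s₁) * a * (s₁ * s₁)⁻¹ := by group
      _ = a := by rw [h0]; group
  refine ⟨s₁ * z₁, mul_mem h1S (hTS d.zT), fun h1 => h1T ((Subgroup.mul_mem_cancel_right T d.zT).1 h1), ?_⟩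
  intro x hx hcon
  obtain ⟨v, hv, w, hw, hvw⟩ := (H11.mem_sup_of_le_normalizer h.V12).1 hx
  have hxT := hDT hx
  have hz1c : ∀ y ∈ T, z₁ * y = y * z₁ := fun y hy => ((d.zP1 y).1 (h.s₁.1 hy)).symm
  have hσxT : MulAut.conj s₁ x ∈ T := hDT (conj_mem_D h d hS hTS h1S h1T (hSN h1S) hx)
  have key : MulAut.conj s₁ x * x = t := by
    have h1 : s₁ * z₁ * x * (s₁ * z₁ * x) = MulAut.conj s₁ z₁ * MulAut.conj s₁ x * (s₁ * s₁) * (z₁ * x) := by
      rw [MulAut.conj_apply, MulAut.conj_apply]; group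
    rw [h1, h0, mul_one, e2, d.zt] at hcon
    have h2 : t * z₁ * MulAut.conj s₁ x * (z₁ * x) = t * (z₁ * z₁) * (MulAut.conj s₁ x * x) := by
      calc t * z₁ * MulAut.conj s₁ x * (z₁ * x) = t * (z₁ * MulAut.conj s₁ x) * (z₁ * x) := by group
        _ = t * (MulAut.conj s₁ x * z₁) * (z₁ * x) := by rw [hz1c _ hσxT]
        _ = t * MulAut.conj s₁ x * (z₁ * z₁) * x := by group
        _ = _ := by rw [d.z1sq]; group
    rw [h2, d.z1sq, mul_one] at hcon
    have h3 : t⁻¹ = t := inv_eq_of_mul_eq_one_left htt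
    rw [← h3]
    exact (inv_eq_of_mul_eq_one_right hcon).symm
  obtain ⟨m, hm, hr⟩ := norm_form htt ta tb (hv1 v hv) (hv2 w hw)
  rw [hvw] at hr
  have hmm : MulAut.conj s₁ m = m := by
    rcases hm with rfl | rfl
    · exact map_one _
    · exact e1
  have hm2 : m * m = 1 := by
    rcases hm with rfl | rfl
    · exact mul_one _
    · exact htt
  have hmc : ∀ y ∈ T, m * y = y * m := by
    intro y hy
    rcases hm with rfl | rfl
    · rw [one_mul, mul_one]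
    · exact (d.tT y hy).symm
  rcases hr with hr | hr | hr | hr
  · rw [hr, hmm, hm2] at key
    exact d.t1 key.symm
  · rw [hr, map_mul, hmm, hab] at key
    have h4 : b * m * (a * m) = b * a := by
      calc b * m * (a * m) = b * (m * a) * m := by group
        _ = b * a * (m * m) := by rw [hmc a haT]; group
        _ = b * a := by rw [hm2, mul_one]
    rw [h4, hba] at key
    have h5 : a * b = 1 := by
      have : a * b * t = 1 * t := by rw [key, one_mul]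
      exact mul_right_cancel this
    have h6 : a = b⁻¹ := eq_inv_of_mul_eq_one_left h5
    exact haV (h6 ▸ inv_mem hb)
  · rw [hr, map_mul, hmm, hsb] at key
    have h4 : a * m * (b * m) = a * b := by
      calc a * m * (b * m) = a * (m * b) * m := by group
        _ = a * b * (m * m) := by rw [hmc b hbT]; group
        _ = a * b := by rw [hm2, mul_one]
    rw [h4] at key
    have h6 : a = t * b⁻¹ := eq_mul_inv_of_mul_eq key
    exact haV (h6 ▸ mul_mem d.tV2 (inv_mem hb))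
  · rw [hr, map_mul, map_mul, hmm, hab, hsb] at key
    have h4 : b * a * m * (a * b * m) = b * (a * a) * b := by
      have h5 := hmc (a * b) (mul_mem haT hbT)
      calc b * a * m * (a * b * m) = b * a * (m * (a * b)) * m := by group
        _ = b * a * (a * b) * (m * m) := by rw [h5]; group
        _ = b * (a * a) * b := by rw [hm2]; group
    rw [h4, Cf.sq h.q₁ ha, mul_one, Cf.sq h.q₂ hb] at key
    exact d.t1 key.symm

end Cfsg.Agent.H48.KS
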