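import Cfsg.Agent.H48.KSQuad
import Cfsg.Prelude.Def_JComponents
import Cfsg.Agent.H11.Act

/-!
# Two maximal 2-local subgroups `S₄` or `S₄ × C₂` with a common Sylow 2-subgroup
-/

set_option autoImplicit false
set_option linter.unusedSectionVars false

namespace Cfsg.Agent.H48.KS

open Subgroup Equiv Cfsg

variable {G : Type*} [Group G] [Finite G] {P P₁ P₂ V V₁ V₂ Z Z₁ Z₂ T R X : Subgroup G}

theorem sylowIn_max (h : IsSylowTwoIn T P) (hTR : T ≤ R) (hRP : R ≤ P) (hR : IsPGroup 2 R) : R = T := by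
  have h1 : T.relIndex R ∣ T.relIndex P := by
    rw [← relIndex_mul_relIndex T R P hTR hRP]
    exact dvd_mul_right _ _
  have h2 : Odd (T.relIndex R) := h.2.2.of_dvd_nat h1
  have h3 : T.relIndex R ∣ Nat.card R := by
    rw [relIndex, ← Subgroup.card_mul_index (T.subgroupOf R)]
    exact dvd_mul_left _ _
  obtain ⟨n, hn⟩ := IsPGroup.iff_card.1 hR
  rw [hn] at h3
  obtain ⟨k, -, hk⟩ := (Nat.dvd_prime_pow Nat.prime_two).1 h3
  have h4 : T.relIndex R = 1 := by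
    rcases Nat.eq_zero_or_pos k with rfl | hk0
    · simpa using hk
    · exfalso
      rw [hk] at h2
      exact (Nat.not_even_iff_odd.2 h2) ((Nat.even_pow.2 ⟨even_two, by omega⟩))
  exact le_antisymm (relIndex_eq_one.1 h4) hTR

theorem sylowIn_le (h : IsSylowTwoIn T P) (hXP : X ≤ P) (hX : IsPGroup 2 X)
    (hTX : T ≤ normalizer (X : Set G)) : X ≤ T := by
  have h1 : IsPGroup 2 (T ⊔ X : Subgroup G) := IsPGroup.to_sup_of_normal_right' h.2.1 hX hTX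
  rw [← sylowIn_max h le_sup_left (sup_le h.1 hXP) h1]
  exact le_sup_right

theorem maxLocal_eq (h : IsMaximalTwoLocal P) (hX : IsPGroup 2 X) (hX1 : X ≠ ⊥)
    (hP : P ≤ normalizer (X : Set G)) : normalizer (X : Set G) = P :=
  h.2 _ ⟨X, hX, hX1, rfl⟩ hP

theorem pGroup_of_card {n : ℕ} (h : Nat.card X = 2 ^ n) : IsPGroup 2 X := IsPGroup.of_card h

/-- the configuration -/
structure Cf (P₁ P₂ V₁ V₂ Z₁ Z₂ T : Subgroup G) : Prop where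
  q₁ : QD P₁ V₁ Z₁
  q₂ : QD P₂ V₂ Z₂
  m₁ : IsMaximalTwoLocal P₁
  m₂ : IsMaximalTwoLocal P₂
  ne : P₁ ≠ P₂
  s₁ : IsSylowTwoIn T P₁
  s₂ : IsSylowTwoIn T P₂

namespace Cf

theorem symm (h : Cf P₁ P₂ V₁ V₂ Z₁ Z₂ T) : Cf P₂ P₁ V₂ V₁ Z₂ Z₁ T :=
  ⟨h.q₂, h.q₁, h.m₂, h.m₁, h.ne.symm, h.s₂, h.s₁⟩

theorem V_ne_bot (q : QD P V Z) : V ≠ ⊥ := by
  intro h
  have := q.cardV
  rw [h, card_bot] at this
  omega

theorem V_pg (q : QD P V Z) : IsPGroup 2 V := pGroup_of_card (n := 2) (by rw [q.cardV]; norm_num)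

theorem normV (h : Cf P₁ P₂ V₁ V₂ Z₁ Z₂ T) : normalizer (V₁ : Set G) = P₁ :=
  maxLocal_eq h.m₁ (V_pg h.q₁) (V_ne_bot h.q₁) h.q₁.norm

theorem VT (h : Cf P₁ P₂ V₁ V₂ Z₁ Z₂ T) : V₁ ≤ T :=
  sylowIn_le h.s₁ h.q₁.VP (V_pg h.q₁) (h.s₁.1.trans h.q₁.norm)

theorem V_ne (h : Cf P₁ P₂ V₁ V₂ Z₁ Z₂ T) : V₁ ≠ V₂ := by
  intro he
  apply h.ne
  rw [← h.normV, ← h.symm.normV, he]

theorem sq (q : QD P V Z) {x : G} (hx : x ∈ V) : x * x = 1 := ((q.mem_iff x).1 hx).2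

theorem V_comm (q : QD P V Z) {x y : G} (hx : x ∈ V) (hy : y ∈ V) : x * y = y * x := by
  have h1 := sq q (mul_mem hx hy)
  have h2 := sq q hx
  have h3 := sq q hy
  calc x * y = (y * y) * (x * y) := by rw [h3, one_mul]
    _ = y * (x * x) * y * (x * y) := by rw [h2]; group
    _ = y * x * (x * y * (x * y)) := by group
    _ = y * x := by rw [h1, mul_one]

theorem normZ (q : QD P V Z) : P ≤ centralizer (Z : Set G) := by
  intro g hg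
  rw [mem_centralizer_iff]
  intro z hz
  exact q.Zc z hz g hg

theorem VZ_norm (q : QD P V Z) : P ≤ normalizer ((V ⊔ Z : Subgroup G) : Set G) :=
  (le_inf q.norm ((normZ q).trans (centralizer_le_normalizer _))).trans
    (normalizer_inf_normalizer_le_normalizer_sup V Z)

theorem card_VZ (q : QD P V Z) : Nat.card (V ⊔ Z : Subgroup G) = 4 * Nat.card Z := by
  rw [H11.card_sup_of_disjoint ((q.VP.trans (normZ q)).trans (centralizer_le_normalizer _)) q.inf, q.cardV]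

theorem Z_pg (q : QD P V Z) (hc2 : Nat.card Z = 1 ∨ Nat.card Z = 2) : IsPGroup 2 Z := by
  rcases hc2 with h | h
  · exact pGroup_of_card (n := 0) (by rw [h]; norm_num)
  · exact pGroup_of_card (n := 1) (by rw [h]; norm_num)

theorem VZ_pg (q : QD P V Z) (hc2 : Nat.card Z = 1 ∨ Nat.card Z = 2) :
    IsPGroup 2 (V ⊔ Z : Subgroup G) := by
  rcases hc2 with h | h
  · exact pGroup_of_card (n := 2) (by rw [card_VZ q, h]; norm_num)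
  · exact pGroup_of_card (n := 3) (by rw [card_VZ q, h]; norm_num)

/-- `V₁ V₂` has order 8 as soon as the intersection has order at least two -/
theorem card_inf_le (h : Cf P₁ P₂ V₁ V₂ Z₁ Z₂ T) : Nat.card (V₁ ⊓ V₂ : Subgroup G) ∣ 2 := by
  have h1 : Nat.card (V₁ ⊓ V₂ : Subgroup G) ∣ 2 ^ 2 := by
    have := Subgroup.card_dvd_of_le (inf_le_left : V₁ ⊓ V₂ ≤ V₁)
    rw [h.q₁.cardV] at this
    exact this
  obtain ⟨k, hk, hk2⟩ := (Nat.dvd_prime_pow Nat.prime_two).1 h1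
  have h3 : k ≠ 2 := by
    rintro rfl
    have h4 : V₁ ⊓ V₂ = V₁ := Subgroup.eq_of_le_of_card_ge inf_le_left (by rw [hk2, h.q₁.cardV]; norm_num)
    have h5 : V₁ ⊓ V₂ = V₂ := Subgroup.eq_of_le_of_card_ge inf_le_right (by rw [hk2, h.q₂.cardV]; norm_num)
    exact h.V_ne (h4.symm.trans h5)
  rw [hk2]
  interval_cases k
  · norm_num
  · norm_num
  · exact absurd rfl h3

theorem V12 (h : Cf P₁ P₂ V₁ V₂ Z₁ Z₂ T) : V₁ ≤ normalizer (V₂ : Set G) :=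
  (h.VT.trans h.s₂.1).trans h.q₂.norm

/-- not commuting -/
theorem exists_not_comm (h : Cf P₁ P₂ V₁ V₂ Z₁ Z₂ T) (hc : Nat.card Z₁ = Nat.card Z₂)
    (hc2 : Nat.card Z₁ = 1 ∨ Nat.card Z₁ = 2) :
    ∃ v ∈ V₁, ∃ w ∈ V₂, v * w ≠ w * v := by
  by_contra hcon
  push Not at hcon
  have h1 : V₂ ≤ V₁ ⊔ Z₁ := by
    intro y hy
    obtain ⟨v, hv, z, hz, rfl⟩ := h.q₁.cen y (h.s₁.1 (h.symm.VT hy)) (fun v hv => (hcon v hv y hy).symm)
    exact mul_mem_sup hv hz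
  have h2 : V₁ ≤ V₂ ⊔ Z₂ := by
    intro y hy
    obtain ⟨v, hv, z, hz, rfl⟩ := h.q₂.cen y (h.s₂.1 (h.VT hy)) (fun v hv => (hcon y hy v hv))
    exact mul_mem_sup hv hz
  have h3 := H11.card_sup_mul_card_inf h.V12
  rw [h.q₁.cardV, h.q₂.cardV] at h3
  have h4 := h.card_inf_le
  have h5 : 8 ≤ Nat.card (V₁ ⊔ V₂ : Subgroup G) := by
    have := Nat.le_of_dvd (by norm_num) h4
    nlinarith
  have h6 := Subgroup.card_le_of_le (sup_le le_sup_left h1 : V₁ ⊔ V₂ ≤ V₁ ⊔ Z₁)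
  rw [card_VZ h.q₁] at h6
  have h7 : Nat.card Z₁ = 2 := by omega
  have h8 : V₁ ⊔ V₂ = V₁ ⊔ Z₁ := Subgroup.eq_of_le_of_card_ge (sup_le le_sup_left h1)
    (by rw [card_VZ h.q₁, h7]; omega)
  have h9 : V₁ ⊔ V₂ = V₂ ⊔ Z₂ := Subgroup.eq_of_le_of_card_ge (sup_le h2 le_sup_left)
    (by rw [card_VZ h.q₂, ← hc, h7]; omega)
  have h10 : V₁ ⊔ V₂ ≠ ⊥ := by
    intro h0
    rw [h0, card_bot] at h5
    omega
  apply h.ne
  have e1 := maxLocal_eq h.m₁ (VZ_pg h.q₁ hc2) (h8 ▸ h10) (VZ_norm h.q₁)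
  have e2 := maxLocal_eq h.m₂ (VZ_pg h.q₂ (hc ▸ hc2)) (h9 ▸ h10) (VZ_norm h.q₂)
  rw [← e1, ← e2, ← h8, ← h9]

theorem comm_mem (h : Cf P₁ P₂ V₁ V₂ Z₁ Z₂ T) {v w : G} (hv : v ∈ V₁) (hw : w ∈ V₂) :
    v * w * v⁻¹ * w⁻¹ ∈ V₁ ⊓ V₂ := by
  refine ⟨?_, ?_⟩
  · have h1 : w * v⁻¹ * w⁻¹ ∈ V₁ :=
      (mem_normalizer_iff.1 (h.symm.V12 hw) v⁻¹).1 (inv_mem hv)
    have h2 := V₁.mul_mem hv h1
    rwa [← mul_assoc, ← mul_assoc] at h2
  · have h1 : v * w * v⁻¹ ∈ V₂ := (mem_normalizer_iff.1 (h.V12 hv) w).1 hw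
    exact V₂.mul_mem h1 (V₂.inv_mem hw)

theorem card_inf (h : Cf P₁ P₂ V₁ V₂ Z₁ Z₂ T) (hc : Nat.card Z₁ = Nat.card Z₂)
    (hc2 : Nat.card Z₁ = 1 ∨ Nat.card Z₁ = 2) : Nat.card (V₁ ⊓ V₂ : Subgroup G) = 2 := by
  obtain ⟨v, hv, w, hw, hne⟩ := h.exists_not_comm hc hc2
  rcases (Nat.dvd_prime Nat.prime_two).1 h.card_inf_le with h1 | h1
  · exfalso
    apply hne
    have h2 : V₁ ⊓ V₂ = ⊥ := card_eq_one.1 h1
    have h3 := h.comm_mem hv hw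
    rw [h2, mem_bot] at h3
    have h4 : v * w * v⁻¹ * w⁻¹ * (w * v) = w * v := by rw [h3, one_mul]
    rw [← h4]; group
  · exact h1

theorem card_D (h : Cf P₁ P₂ V₁ V₂ Z₁ Z₂ T) (hc : Nat.card Z₁ = Nat.card Z₂)
    (hc2 : Nat.card Z₁ = 1 ∨ Nat.card Z₁ = 2) : Nat.card (V₁ ⊔ V₂ : Subgroup G) = 8 := by
  have h3 := H11.card_sup_mul_card_inf h.V12
  rw [h.q₁.cardV, h.q₂.cardV, h.card_inf hc hc2] at h3
  omega

/-- the central involution -/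
theorem exists_t (h : Cf P₁ P₂ V₁ V₂ Z₁ Z₂ T) (hc : Nat.card Z₁ = Nat.card Z₂)
    (hc2 : Nat.card Z₁ = 1 ∨ Nat.card Z₁ = 2) :
    ∃ t : G, t ≠ 1 ∧ t ∈ V₁ ∧ t ∈ V₂ ∧ (∀ x, x ∈ V₁ → x ∈ V₂ → x = 1 ∨ x = t) ∧
      (∀ x ∈ T, x * t = t * x) ∧ (∀ v ∈ V₁, (∀ w ∈ V₂, v * w = w * v) → v ∈ V₂) ∧
      (∀ v ∈ V₁, ∀ w ∈ V₂, v * w = w * v → v ∈ V₂ ∨ w ∈ V₁) := by
  have h1 := h.card_inf hc hc2
  obtain ⟨⟨t, ht⟩, ht1, htu⟩ := (Nat.card_eq_two_iff' (1 : (V₁ ⊓ V₂ : Subgroup G))).1 h1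
  have ht1' : t ≠ 1 := fun h => ht1 (Subtype.ext h)
  have huniq : ∀ x, x ∈ V₁ → x ∈ V₂ → x = 1 ∨ x = t := by
    intro x hx1 hx2
    by_cases hx : x = 1
    · exact Or.inl hx
    · right
      have := htu ⟨x, hx1, hx2⟩ (fun h => hx (congrArg Subtype.val h))
      exact congrArg Subtype.val this
  have hsecond : ∀ v ∈ V₁, ∀ w ∈ V₂, v * w = w * v → v ∈ V₂ ∨ w ∈ V₁ := by
    intro v hv w hw hvw
    by_contra hcon
    push Not at hcon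
    obtain ⟨h2, h3⟩ := hcon
    obtain ⟨a, ha, b, hb, hne⟩ := h.exists_not_comm hc hc2
    have hi1 : ((V₁ ⊓ V₂).subgroupOf V₁).index = 2 := by
      have h5 := (V₁ ⊓ V₂).subgroupOf V₁ |>.card_mul_index
      rw [Nat.card_congr (subgroupOfEquivOfLe inf_le_left).toEquiv, h1, h.q₁.cardV] at h5
      omega
    have hi2 : ((V₁ ⊓ V₂).subgroupOf V₂).index = 2 := by
      have h5 := (V₁ ⊓ V₂).subgroupOf V₂ |>.card_mul_index
      rw [Nat.card_congr (subgroupOfEquivOfLe inf_le_right).toEquiv, h1, h.q₂.cardV] at h5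
      omega
    have hW : ∀ x ∈ V₁ ⊓ V₂, ∀ y, y ∈ V₁ ∨ y ∈ V₂ → x * y = y * x := by
      rintro x hx y (hy | hy)
      · exact V_comm h.q₁ hx.1 hy
      · exact V_comm h.q₂ hx.2 hy
    -- `a` is `v` modulo the intersection
    have ha2 : a ∈ V₁ ⊓ V₂ ∨ a * v⁻¹ ∈ V₁ ⊓ V₂ := by
      by_cases h5 : a ∈ V₁ ⊓ V₂
      · exact Or.inl h5
      · right
        have h6 := (Subgroup.mul_mem_iff_of_index_two hi1 (a := ⟨a, ha⟩) (b := ⟨v⁻¹, inv_mem hv⟩)).2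
        simp only [mem_subgroupOf] at h6
        exact h6 ⟨fun h7 => absurd h7 h5, fun h7 => absurd (inv_mem h7) (by rw [inv_inv]; exact fun h8 => h2 h8.2)⟩
    have hb2 : b ∈ V₁ ⊓ V₂ ∨ b * w⁻¹ ∈ V₁ ⊓ V₂ := by
      by_cases h5 : b ∈ V₁ ⊓ V₂
      · exact Or.inl h5
      · right
        have h6 := (Subgroup.mul_mem_iff_of_index_two hi2 (a := ⟨b, hb⟩) (b := ⟨w⁻¹, inv_mem hw⟩)).2
        simp only [mem_subgroupOf] at h6
        exact h6 ⟨fun h7 => absurd h7 h5, fun h7 => absurd (inv_mem h7) (by rw [inv_inv]; exact fun h8 => h3 h8.1)⟩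
    apply hne
    rcases ha2 with ha2 | ha2
    · exact hW a ha2 b (Or.inr hb)
    rcases hb2 with hb2 | hb2
    · exact (hW b hb2 a (Or.inl ha)).symm
    have e1 := hW _ ha2 v (Or.inl hv)
    have e2 := hW _ ha2 w (Or.inr hw)
    have e3 := hW _ hb2 v (Or.inl hv)
    have e4 := hW _ hb2 w (Or.inr hw)
    have e5 := hW _ ha2 _ (Or.inl hb2.1)
    set x := a * v⁻¹ with hx
    set y := b * w⁻¹ with hy
    have ea : a = x * v := by rw [hx]; group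
    have eb : b = y * w := by rw [hy]; group
    have c1 : Commute x v := e1
    have c2 : Commute x w := e2
    have c3 : Commute y v := e3
    have c5 : Commute x y := e5
    have c6 : Commute v w := hvw
    have : Commute (x * v) (y * w) :=
      Commute.mul_left (Commute.mul_right c5 c2) (Commute.mul_right c3.symm c6)
    rw [ea, eb]
    exact this
  refine ⟨t, ht1', ht.1, ht.2, huniq, ?_, ?_, hsecond⟩
  · intro x hx
    have h2 : x * t * x⁻¹ ∈ V₁ := (mem_normalizer_iff.1 (h.q₁.norm (h.s₁.1 hx)) t).1 ht.1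
    have h3 : x * t * x⁻¹ ∈ V₂ := (mem_normalizer_iff.1 (h.q₂.norm (h.s₂.1 hx)) t).1 ht.2
    rcases huniq _ h2 h3 with h4 | h4
    · exact absurd (conj_eq_one_iff.1 h4) ht1'
    · exact mul_inv_eq_iff_eq_mul.1 h4
  · intro v hv hvw
    by_contra hcon
    have : ∀ w ∈ V₂, w ∈ V₁ := fun w hw => (hsecond v hv w hw (hvw w hw)).resolve_left hcon
    exact h.V_ne (Subgroup.eq_of_le_of_card_ge this (by rw [h.q₁.cardV, h.q₂.cardV])).symm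

theorem exists_z (q : QD P V Z) (hc : Nat.card Z = 2) :
    ∃ z : G, z ≠ 1 ∧ z ∈ Z ∧ z * z = 1 ∧ (∀ x ∈ Z, x = 1 ∨ x = z) ∧ z ∉ V := by
  obtain ⟨⟨z, hz⟩, hz1, hu⟩ := (Nat.card_eq_two_iff' (1 : Z)).1 hc
  have hz1' : z ≠ 1 := fun h => hz1 (Subtype.ext h)
  have h2 : z ^ Nat.card Z = 1 := by
    have := pow_card_eq_one' (x := (⟨z, hz⟩ : Z))
    exact congrArg Subtype.val this
  rw [hc, pow_two] at h2
  refine ⟨z, hz1', hz, h2, ?_, ?_⟩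
  · intro x hx
    by_cases hx1 : x = 1
    · exact Or.inl hx1
    · right
      exact congrArg Subtype.val (hu ⟨x, hx⟩ (fun h => hx1 (congrArg Subtype.val h)))
  · intro hzV
    have : z ∈ V ⊓ Z := ⟨hzV, hz⟩
    rw [q.inf, mem_bot] at this
    exact hz1' this

end Cf

/-- data in the case `S₄ × C₂` -/
structure Dt (P₁ P₂ V₁ V₂ T : Subgroup G) (z₁ z₂ t : G) : Prop where
  z1 : z₁ ≠ 1
  z2 : z₂ ≠ 1
  t1 : t ≠ 1
  tV1 : t ∈ V₁
  tV2 : t ∈ V₂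
  tu : ∀ x, x ∈ V₁ → x ∈ V₂ → x = 1 ∨ x = t
  tT : ∀ x ∈ T, x * t = t * x
  cc : ∀ v ∈ V₁, ∀ w ∈ V₂, v * w = w * v → v ∈ V₂ ∨ w ∈ V₁
  zP1 : ∀ x, x ∈ P₁ ↔ x * z₁ = z₁ * x
  zP2 : ∀ x, x ∈ P₂ ↔ x * z₂ = z₂ * x
  zT : z₁ ∈ T
  zt : z₂ = t * z₁
  T16 : ∀ x ∈ T, ∃ v ∈ V₁, ∃ w ∈ V₂, x = v * w ∨ x = v * w * z₁
  zD : z₁ ∉ V₁ ⊔ V₂
  cardT : Nat.card T = 16
  z1sq : z₁ * z₁ = 1
  ZT : ∀ x ∈ T, (∀ y ∈ T, x * y = y * x) → x = 1 ∨ x = t ∨ x = z₁ ∨ x = z₂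

theorem Cf.exists_dt (h : Cf P₁ P₂ V₁ V₂ Z₁ Z₂ T) (h1 : Nat.card Z₁ = 2) (h2 : Nat.card Z₂ = 2) :
    ∃ z₁ ∈ Z₁, ∃ z₂ ∈ Z₂, ∃ t, Dt P₁ P₂ V₁ V₂ T z₁ z₂ t := by
  obtain ⟨z₁, z1, hz1, z1sq, hu1, zV1⟩ := Cf.exists_z h.q₁ h1
  obtain ⟨z₂, z2, hz2, z2sq, hu2, zV2⟩ := Cf.exists_z h.q₂ h2
  obtain ⟨t, t1, tV1, tV2, tu, tT, hcen, cc⟩ := h.exists_t (h1.trans h2.symm) (Or.inr h1)
  have hZ1 : Z₁ ≠ ⊥ := fun h => by rw [h, card_bot] at h1; omega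
  have hZ2 : Z₂ ≠ ⊥ := fun h => by rw [h, card_bot] at h2; omega
  have zP : ∀ {P V Z : Subgroup G} {z : G}, QD P V Z → IsMaximalTwoLocal P → Nat.card Z = 2 → Z ≠ ⊥ →
      z ∈ Z → (∀ x ∈ Z, x = 1 ∨ x = z) → ∀ x, x ∈ P ↔ x * z = z * x := by
    intro P V Z z q m hc hZ hz hu x
    refine ⟨fun hx => (q.Zc z hz x hx).symm, fun hx => ?_⟩
    rw [← maxLocal_eq m (Cf.Z_pg q (Or.inr hc)) hZ ((Cf.normZ q).trans (centralizer_le_normalizer _))]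
    apply centralizer_le_normalizer
    rw [mem_centralizer_iff]
    intro y hy
    rcases hu y hy with rfl | rfl
    · rw [one_mul, mul_one]
    · exact hx.symm
  have zP1 := zP h.q₁ h.m₁ h1 hZ1 hz1 hu1
  have zP2 := zP h.q₂ h.m₂ h2 hZ2 hz2 hu2
  have zT : z₁ ∈ T := sylowIn_le h.s₁ h.q₁.ZP (Cf.Z_pg h.q₁ (Or.inr h1))
    (h.s₁.1.trans ((Cf.normZ h.q₁).trans (centralizer_le_normalizer _))) hz1
  have zT2 : z₂ ∈ T := sylowIn_le h.s₂ h.q₂.ZP (Cf.Z_pg h.q₂ (Or.inr h2))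
    (h.s₂.1.trans ((Cf.normZ h.q₂).trans (centralizer_le_normalizer _))) hz2
  have hne : z₁ ≠ z₂ := by
    rintro rfl
    apply h.ne
    ext x
    rw [zP1, zP2]
  -- central elements of `T`
  have ZT' : ∀ x ∈ T, (∀ y ∈ T, x * y = y * x) → x = 1 ∨ x = t ∨ x = z₁ ∨ x = t * z₁ := by
    intro x hx hxc
    obtain ⟨v, hv, z, hz, rfl⟩ := h.q₁.cen x (h.s₁.1 hx) (fun v hv => hxc v (h.VT hv))
    have hvT : v ∈ T := h.VT hv
    have hv2 : v ∈ V₂ := by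
      apply hcen v hv
      intro w hw
      have e1 := hxc w (h.symm.VT hw)
      have e2 : z * w = w * z := h.q₁.Zc z hz w (h.s₁.1 (h.symm.VT hw))
      have e3 : v * z * w = v * w * z := by rw [mul_assoc, e2, mul_assoc]
      rw [e3, ← mul_assoc] at e1
      exact mul_right_cancel e1
    rcases hu1 z hz with rfl | rfl <;> rcases tu v hv hv2 with rfl | rfl <;> simp
  have zt : z₂ = t * z₁ := by
    rcases ZT' z₂ zT2 (fun y hy => h.q₂.Zc z₂ hz2 y (h.s₂.1 hy)) with e | e | e | e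
    · exact absurd e z2
    · exact absurd (e ▸ tV2) zV2
    · exact absurd e.symm hne
    · exact e
  have hD : Nat.card (V₁ ⊔ V₂ : Subgroup G) = 8 := h.card_D (h1.trans h2.symm) (Or.inr h1)
  have hVmem : ∀ x ∈ V₁ ⊔ V₂, ∃ v ∈ V₁, ∃ w ∈ V₂, x = v * w := by
    intro x hx
    obtain ⟨v, hv, w, hw, e⟩ := (H11.mem_sup_of_le_normalizer h.V12).1 hx
    exact ⟨v, hv, w, hw, e.symm⟩
  have zD : z₁ ∉ V₁ ⊔ V₂ := by
    intro hz
    obtain ⟨v, hv, w, hw, e⟩ := hVmem z₁ hz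
    have hw1 : w ∈ V₁ := by
      apply (h.symm.exists_t (h2.trans h1.symm) (Or.inr h2)).choose_spec.2.2.2.2.2.1 w hw
      intro x hx
      have e1 : z₁ * x = x * z₁ := h.q₁.Zc z₁ hz1 x (h.q₁.VP hx)
      rw [e] at e1
      have e2 : v * w * x = v * x * w := by
        rw [e1, ← mul_assoc, Cf.V_comm h.q₁ hx hv]
      rw [mul_assoc, mul_assoc] at e2
      exact mul_left_cancel e2
    exact zV1 (e ▸ mul_mem hv hw1)
  have hcT : Nat.card T = 16 := by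
    have e1 : Nat.card T * T.relIndex P₁ = Nat.card P₁ := H11.card_mul_relIndex h.s₁.1
    rw [h.q₁.cardP, h1] at e1
    obtain ⟨n, hn⟩ := IsPGroup.iff_card.1 h.s₁.2.1
    have e2 : Nat.card T ∣ 16 * 3 := ⟨_, by rw [e1]⟩
    have e3 : Nat.card T ∣ 16 := by
      refine Nat.Coprime.dvd_of_dvd_mul_right ?_ e2
      rw [hn]
      exact Nat.Coprime.pow_left _ (by norm_num)
    have e4 : 16 ∣ Nat.card T := by
      refine Nat.Coprime.dvd_of_dvd_mul_right (n := T.relIndex P₁) ?_ (by rw [e1]; norm_num)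
      have := h.s₁.2.2
      exact (Nat.Coprime.pow_left 4 (Nat.coprime_two_left.2 this) : Nat.Coprime (2 ^ 4) _)
    exact Nat.dvd_antisymm e3 e4
  have hDT : V₁ ⊔ V₂ ≤ T := sup_le h.VT h.symm.VT
  have hi : ((V₁ ⊔ V₂).subgroupOf T).index = 2 := by
    have e1 := H11.card_mul_relIndex hDT
    rw [hD, hcT] at e1
    have : (V₁ ⊔ V₂).relIndex T = 2 := by omega
    exact this
  refine ⟨z₁, hz1, z₂, hz2, t, z1, z2, t1, tV1, tV2, tu, tT, cc, zP1, zP2, zT, zt, ?_, zD, hcT, z1sq, ?_⟩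
  · intro x hx
    by_cases hxD : x ∈ V₁ ⊔ V₂
    · obtain ⟨v, hv, w, hw, e⟩ := hVmem x hxD
      exact ⟨v, hv, w, hw, Or.inl e⟩
    · have e1 := (Subgroup.mul_mem_iff_of_index_two hi (a := ⟨x, hx⟩) (b := ⟨z₁, zT⟩)).2
      simp only [mem_subgroupOf] at e1
      obtain ⟨v, hv, w, hw, e⟩ := hVmem _ (e1 ⟨fun h => absurd h hxD, fun h => absurd h zD⟩)
      refine ⟨v, hv, w, hw, Or.inr ?_⟩
      have e' : x * z₁ = v * w := e
      rw [← e', mul_assoc, z1sq, mul_one]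
  · intro x hx hxc
    rw [zt]
    exact ZT' x hx hxc

end Cfsg.Agent.H48.KS
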