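import Mathlib.GroupTheory.SpecificGroups.Alternating
import Mathlib.GroupTheory.Sylow
import Mathlib.GroupTheory.Perm.Fin
import Cfsg.Agent.H80.Index2

/-!
# Subgroups isomorphic to `S₄` or `S₄ × C₂` (for S0518)
-/

set_option autoImplicit false

namespace Cfsg.Agent.H48.KS

open Subgroup Equiv

/-- the four-group of `S₄` as a set -/
def F4 (x : Perm (Fin 4)) : Prop := x * x = 1 ∧ Perm.sign x = 1

instance : DecidablePred F4 := fun x => by unfold F4; infer_instance

set_option maxRecDepth 100000 in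
theorem F4_list : ∀ x : Perm (Fin 4), F4 x ↔
    x = 1 ∨ x = swap 0 1 * swap 2 3 ∨ x = swap 0 2 * swap 1 3 ∨ x = swap 0 3 * swap 1 2 := by
  decide

set_option maxRecDepth 100000 in
theorem F4_mul_aux : ∀ x ∈ ([1, swap 0 1 * swap 2 3, swap 0 2 * swap 1 3, swap 0 3 * swap 1 2] : List (Perm (Fin 4))),
    ∀ y ∈ ([1, swap 0 1 * swap 2 3, swap 0 2 * swap 1 3, swap 0 3 * swap 1 2] : List (Perm (Fin 4))),
      F4 (x * y) := by
  decide

theorem F4_mul {x y : Perm (Fin 4)} (hx : F4 x) (hy : F4 y) : F4 (x * y) := by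
  apply F4_mul_aux
  · have := (F4_list x).1 hx
    simpa using this
  · have := (F4_list y).1 hy
    simpa using this

theorem F4_inv {x : Perm (Fin 4)} (hx : F4 x) : F4 x⁻¹ := by
  have h1 : x⁻¹ = x := by
    rw [inv_eq_iff_mul_eq_one]; exact hx.1
  rwa [h1]

theorem F4_one : F4 1 := ⟨mul_one _, map_one _⟩

theorem F4_conj {x : Perm (Fin 4)} (g : Perm (Fin 4)) (hx : F4 x) : F4 (g * x * g⁻¹) := by
  refine ⟨?_, ?_⟩
  · have : g * x * g⁻¹ * (g * x * g⁻¹) = g * (x * x) * g⁻¹ := by group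
    rw [this, hx.1]; group
  · rw [map_mul, map_mul, hx.2, map_inv]; simp

set_option maxRecDepth 100000 in
theorem F4_trans : ∀ x ∈ ([swap 0 1 * swap 2 3, swap 0 2 * swap 1 3, swap 0 3 * swap 1 2] : List (Perm (Fin 4))),
    ∀ y ∈ ([swap 0 1 * swap 2 3, swap 0 2 * swap 1 3, swap 0 3 * swap 1 2] : List (Perm (Fin 4))),
      ∃ g : Perm (Fin 4), g * x * g⁻¹ = y := by
  decide

set_option maxRecDepth 100000 in
theorem F4_cen : ∀ g : Perm (Fin 4), (g * (swap 0 1 * swap 2 3) = (swap 0 1 * swap 2 3) * g) →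
    (g * (swap 0 2 * swap 1 3) = (swap 0 2 * swap 1 3) * g) → F4 g := by
  decide

/-- the four-group -/
def V4 : Subgroup (Perm (Fin 4)) where
  carrier := {x | F4 x}
  mul_mem' := F4_mul
  one_mem' := F4_one
  inv_mem' := F4_inv

theorem mem_V4 {x : Perm (Fin 4)} : x ∈ V4 ↔ F4 x := Iff.rfl

theorem V4_eq : (V4 : Set (Perm (Fin 4))) =
    {1, swap 0 1 * swap 2 3, swap 0 2 * swap 1 3, swap 0 3 * swap 1 2} := by
  ext x
  have h : x ∈ V4 ↔ _ := F4_list x
  simpa using h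

set_option maxRecDepth 100000 in
theorem card_V4 : Nat.card V4 = 4 := by
  have h : Nat.card V4 = Nat.card ((({1, swap 0 1 * swap 2 3, swap 0 2 * swap 1 3, swap 0 3 * swap 1 2} :
      Finset (Perm (Fin 4))) : Set (Perm (Fin 4)))) := by
    rw [← SetLike.coe_sort_coe, V4_eq]
    simp
  rw [h, Nat.card_coe_set_eq, Set.ncard_coe_finset]
  decide

theorem odd_sign {x : Perm (Fin 4)} (hx : Odd (orderOf x)) : Perm.sign x = 1 := by
  have h1 : Perm.sign x ^ orderOf x = 1 := by rw [← map_pow, pow_orderOf_eq_one, map_one]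
  rcases Int.units_eq_one_or (Perm.sign x) with h | h
  · exact h
  · rw [h, hx.neg_one_pow] at h1
    exact absurd h1 (by decide)

variable {G : Type*} [Group G] [Finite G]

/-- data extracted from `P ≅ S₄ × C`, `|C| ≤ 2` -/
structure QD (P V Z : Subgroup G) : Prop where
  VP : V ≤ P
  ZP : Z ≤ P
  mem_iff : ∀ x, x ∈ V ↔ x ∈ closure {g : G | g ∈ P ∧ Odd (orderOf g)} ∧ x * x = 1
  cardV : Nat.card V = 4
  cardP : Nat.card P = 24 * Nat.card Z
  trans : ∀ x ∈ V, ∀ y ∈ V, x ≠ 1 → y ≠ 1 → ∃ g ∈ P, g * x * g⁻¹ = y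
  cen : ∀ x ∈ P, (∀ v ∈ V, x * v = v * x) → ∃ v ∈ V, ∃ z ∈ Z, x = v * z
  Zc : ∀ z ∈ Z, ∀ x ∈ P, z * x = x * z
  inf : V ⊓ Z = ⊥
  norm : P ≤ normalizer (V : Set G)
  ex : ∃ f : P →* Perm (Fin 4), Function.Surjective f ∧ f.ker = Z.subgroupOf P

theorem QD_of_iso {P : Subgroup G} {C : Type*} [Group C] [Finite C] (hC : Nat.card C = 1 ∨ Nat.card C = 2)
    (φ : P ≃* Perm (Fin 4) × C) : ∃ V Z : Subgroup G, QD P V Z ∧ Nat.card Z = Nat.card C := by
  classical
  have hCc : ∀ a b : C, a * b = b * a := by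
    rcases hC with h | h
    · have : Subsingleton C := (Nat.card_eq_one_iff_unique.1 h).1
      intro a b
      exact Subsingleton.elim _ _
    · have : Fact (Nat.Prime 2) := ⟨Nat.prime_two⟩
      have : IsCyclic C := isCyclic_of_prime_card h
      intro a b
      obtain ⟨g, hg⟩ := IsCyclic.exists_generator (α := C)
      obtain ⟨m, rfl⟩ := mem_zpowers_iff.1 (hg a)
      obtain ⟨n, rfl⟩ := mem_zpowers_iff.1 (hg b)
      rw [← zpow_add, ← zpow_add, add_comm]
  have hCo : ∀ c : C, c * c = 1 := by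
    intro c
    have h1 : c ^ Nat.card C = 1 := pow_card_eq_one'
    rcases hC with h | h
    · rw [h, pow_one] at h1
      rw [h1, one_mul]
    · rw [h, pow_two] at h1
      exact h1
  have hCodd : ∀ c : C, Odd (orderOf c) → c = 1 := by
    intro c hc
    have h1 : orderOf c ∣ 2 := orderOf_dvd_of_pow_eq_one (by rw [pow_two]; exact hCo c)
    rcases (Nat.dvd_prime Nat.prime_two).1 h1 with h | h
    · exact orderOf_eq_one_iff.1 h
    · rw [h] at hc
      exact absurd hc (by decide)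
  set j : Perm (Fin 4) × C →* G := P.subtype.comp φ.symm.toMonoidHom with hj
  have hji : Function.Injective j := P.subtype_injective.comp φ.symm.injective
  have hjP : ∀ x, j x ∈ P := fun x => (φ.symm x).2
  have hjr : ∀ x ∈ P, ∃ y, j y = x := fun x hx => ⟨φ ⟨x, hx⟩, by simp [hj]⟩
  have hcl : ∀ x : Perm (Fin 4) × C, j x ∈ closure {g : G | g ∈ P ∧ Odd (orderOf g)} ↔
      Perm.sign x.1 = 1 ∧ x.2 = 1 := by
    intro x
    constructor
    · intro hx
      have h1 : closure {g : G | g ∈ P ∧ Odd (orderOf g)} ≤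
          ((alternatingGroup (Fin 4)).prod (⊥ : Subgroup C)).map j := by
        rw [closure_le]
        rintro g ⟨hg, hgo⟩
        obtain ⟨y, rfl⟩ := hjr g hg
        rw [orderOf_injective j hji] at hgo
        refine ⟨y, ?_, rfl⟩
        have h2 : orderOf y.1 ∣ orderOf y := orderOf_map_dvd (MonoidHom.fst _ _) y
        have h3 : orderOf y.2 ∣ orderOf y := orderOf_map_dvd (MonoidHom.snd _ _) y
        exact Subgroup.mem_prod.2 ⟨Perm.mem_alternatingGroup.2 (odd_sign (hgo.of_dvd_nat h2)),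
          mem_bot.2 (hCodd _ (hgo.of_dvd_nat h3))⟩
      obtain ⟨y, hy, hyx⟩ := h1 hx
      obtain rfl := hji hyx
      exact ⟨Perm.mem_alternatingGroup.1 (Subgroup.mem_prod.1 hy).1, mem_bot.1 (Subgroup.mem_prod.1 hy).2⟩
    · rintro ⟨h1, h2⟩
      have h3 : x.1 ∈ closure {σ : Perm (Fin 4) | Perm.IsThreeCycle σ} := by
        rw [Perm.closure_three_cycles_eq_alternating]
        exact Perm.mem_alternatingGroup.2 h1
      have h4 : closure {σ : Perm (Fin 4) | Perm.IsThreeCycle σ} ≤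
          (closure {g : G | g ∈ P ∧ Odd (orderOf g)}).comap (j.comp (MonoidHom.inl _ _)) := by
        rw [closure_le]
        intro σ hσ
        refine subset_closure ⟨hjP _, ?_⟩
        rw [MonoidHom.comp_apply, orderOf_injective j hji]
        have h5 : orderOf ((MonoidHom.inl (Perm (Fin 4)) C) σ) = orderOf σ :=
          orderOf_injective _ (fun a b h => by simpa using h) σ
        rw [h5, Perm.IsThreeCycle.orderOf hσ]
        decide
      have h5 := h4 h3
      have h6 : (MonoidHom.inl (Perm (Fin 4)) C) x.1 = x := Prod.ext rfl h2.symm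
      rw [mem_comap, MonoidHom.comp_apply, h6] at h5
      exact h5
  set V : Subgroup G := (V4.prod (⊥ : Subgroup C)).map j with hV
  set Z : Subgroup G := ((⊥ : Subgroup (Perm (Fin 4))).prod (⊤ : Subgroup C)).map j with hZ
  have hmV : ∀ x, j x ∈ V ↔ F4 x.1 ∧ x.2 = 1 := by
    intro x
    constructor
    · rintro ⟨y, hy, hyx⟩
      obtain rfl := hji hyx
      exact ⟨(Subgroup.mem_prod.1 hy).1, mem_bot.1 (Subgroup.mem_prod.1 hy).2⟩
    · rintro ⟨h1, h2⟩
      exact ⟨x, Subgroup.mem_prod.2 ⟨h1, mem_bot.2 h2⟩, rfl⟩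
  have hmZ : ∀ x, j x ∈ Z ↔ x.1 = 1 := by
    intro x
    constructor
    · rintro ⟨y, hy, hyx⟩
      obtain rfl := hji hyx
      exact mem_bot.1 (Subgroup.mem_prod.1 hy).1
    · rintro h1
      exact ⟨x, Subgroup.mem_prod.2 ⟨mem_bot.2 h1, mem_top _⟩, rfl⟩
  have hVP : V ≤ P := by
    rintro _ ⟨y, -, rfl⟩
    exact hjP y
  have hZP : Z ≤ P := by
    rintro _ ⟨y, -, rfl⟩
    exact hjP y
  have hcardZ : Nat.card Z = Nat.card C := by
    rw [hZ, Nat.card_congr (Subgroup.equivMapOfInjective _ j hji).toEquiv.symm,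
      Nat.card_congr (Subgroup.prodEquiv _ _).toEquiv, Nat.card_prod]
    simp
  refine ⟨V, Z, ⟨hVP, hZP, ?_, ?_, ?_, ?_, ?_, ?_, ?_, ?_, ?_⟩, hcardZ⟩
  · intro x
    constructor
    · rintro ⟨y, hy, rfl⟩
      obtain ⟨h1, h2⟩ := (hmV y).1 ⟨y, hy, rfl⟩
      refine ⟨(hcl y).2 ⟨h1.2, h2⟩, ?_⟩
      rw [← map_mul, ← map_one j]
      congr 1
      exact Prod.ext h1.1 (by rw [Prod.snd_mul, h2]; exact mul_one _)
    · rintro ⟨h1, h2⟩
      have hxP : x ∈ P := by
        have : closure {g : G | g ∈ P ∧ Odd (orderOf g)} ≤ P := by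
          rw [closure_le]; exact fun g hg => hg.1
        exact this h1
      obtain ⟨y, rfl⟩ := hjr x hxP
      rw [← map_mul, ← map_one j] at h2
      have h3 := hji h2
      obtain ⟨h4, h5⟩ := (hcl y).1 h1
      exact (hmV y).2 ⟨⟨congrArg Prod.fst h3, h4⟩, h5⟩
  · rw [hV, Nat.card_congr (Subgroup.equivMapOfInjective _ j hji).toEquiv.symm,
      Nat.card_congr (Subgroup.prodEquiv _ _).toEquiv, Nat.card_prod, card_V4]
    simp
  · rw [Nat.card_congr φ.toEquiv, Nat.card_prod, hcardZ, Nat.card_perm]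
    simp [Nat.factorial]
  · intro x hx y hy hx1 hy1
    obtain ⟨x, rfl⟩ := hjr x (hVP hx)
    obtain ⟨y, rfl⟩ := hjr y (hVP hy)
    obtain ⟨h1, h2⟩ := (hmV x).1 hx
    obtain ⟨h3, h4⟩ := (hmV y).1 hy
    have hx' : x.1 ≠ 1 := fun h => hx1 (by rw [show x = 1 from Prod.ext h h2, map_one])
    have hy' : y.1 ≠ 1 := fun h => hy1 (by rw [show y = 1 from Prod.ext h h4, map_one])
    obtain ⟨g, hg⟩ := F4_trans x.1 (by
      have := (F4_list x.1).1 h1
      simpa [hx'] using this) y.1 (by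
      have := (F4_list y.1).1 h3
      simpa [hy'] using this)
    refine ⟨j (g, 1), hjP _, ?_⟩
    rw [← map_inv, ← map_mul, ← map_mul]
    congr 1
    refine Prod.ext hg ?_
    simp [h2, h4]
  · intro x hx hcen
    obtain ⟨x, rfl⟩ := hjr x hx
    have key : ∀ v : Perm (Fin 4), F4 v → x.1 * v = v * x.1 := by
      intro v hv
      have h1 := hcen (j (v, 1)) ((hmV _).2 ⟨hv, rfl⟩)
      rw [← map_mul, ← map_mul] at h1
      exact congrArg Prod.fst (hji h1)
    have h2 : F4 x.1 := F4_cen x.1 (key _ (by decide)) (key _ (by decide))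
    refine ⟨j (x.1, 1), (hmV _).2 ⟨h2, rfl⟩, j (1, x.2), (hmZ _).2 rfl, ?_⟩
    rw [← map_mul]
    congr 1
    exact Prod.ext (by simp) (by simp)
  · intro z hz x hx
    obtain ⟨x, rfl⟩ := hjr x hx
    obtain ⟨z, rfl⟩ := hjr z (hZP hz)
    have h1 := (hmZ z).1 hz
    rw [← map_mul, ← map_mul]
    congr 1
    exact Prod.ext (by simp [h1]) (hCc _ _)
  · rw [eq_bot_iff]
    rintro x ⟨hx1, hx2⟩
    obtain ⟨x, rfl⟩ := hjr x (hVP hx1)
    obtain ⟨h1, h2⟩ := (hmV x).1 hx1
    have h3 := (hmZ x).1 hx2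
    rw [mem_bot, show x = 1 from Prod.ext h3 h2, map_one]
  · intro g hg
    obtain ⟨g, rfl⟩ := hjr g hg
    have key : ∀ g : Perm (Fin 4) × C, ∀ x ∈ V, j g * x * (j g)⁻¹ ∈ V := by
      intro g x hx
      obtain ⟨x, rfl⟩ := hjr x (hVP hx)
      obtain ⟨h1, h2⟩ := (hmV x).1 hx
      rw [← map_inv, ← map_mul, ← map_mul, hmV]
      refine ⟨F4_conj _ h1, ?_⟩
      simp [h2]
    rw [mem_normalizer_iff]
    intro x
    refine ⟨key g x, fun h => ?_⟩
    have h1 := key g⁻¹ _ h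
    rw [map_inv] at h1
    convert h1 using 1
    group
  · refine ⟨(MonoidHom.fst _ _).comp φ.toMonoidHom, ?_, ?_⟩
    · intro y
      refine ⟨φ.symm (y, 1), ?_⟩
      simp
    · ext x
      rw [MonoidHom.mem_ker, mem_subgroupOf]
      have h1 := hmZ (φ x)
      have h2 : j (φ x) = (x : G) := by simp [hj]
      rw [h2] at h1
      rw [h1]
      rfl

end Cfsg.Agent.H48.KS
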