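import Cfsg.Agent.H48.PiSub

/-!
Subdirect products of non-abelian simple groups are products of full diagonal subgroups.
-/

set_option autoImplicit false
set_option linter.unusedSectionVars false

namespace Cfsg.Agent.H48.PiSub

open Subgroup

variable {ι : Type*} [Fintype ι] [DecidableEq ι] {T : ι → Type*} [∀ i, Group (T i)]

/-- `i ~ j` when the kernel of the `i`-th projection is inside that of the `j`-th one. -/
def rel (D : Subgroup (∀ i, T i)) (i j : ι) : Prop := ∀ d ∈ D, d i = 1 → d j = 1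

variable {D : Subgroup (∀ i, T i)}

lemma rel_refl (i : ι) : rel D i i := fun _ _ h => h

lemma rel_trans {i j l : ι} (h1 : rel D i j) (h2 : rel D j l) : rel D i l :=
  fun d hd h => h2 d hd (h1 d hd h)

lemma image_full (hs : ∀ i, IsSimpleGroup (T i)) (hproj : ∀ i, ∀ t : T i, ∃ d ∈ D, d i = t)
    (L : Subgroup (∀ i, T i)) (hL : ∀ e ∈ D, ∀ x ∈ L, e * x * e⁻¹ ∈ L) (i : ι)
    (hd : ∃ d ∈ L, d i ≠ 1) (t : T i) : ∃ d ∈ L, d i = t := by
  have hn : (L.map (Pi.evalMonoidHom T i)).Normal := by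
    constructor
    rintro _ ⟨x, hx, rfl⟩ s
    obtain ⟨e, he, hes⟩ := hproj i s
    exact ⟨e * x * e⁻¹, hL e he x hx, by simp [hes]⟩
  have := hs i
  rcases hn.eq_bot_or_eq_top with h | h
  · exfalso
    obtain ⟨d, hd, hd1⟩ := hd
    apply hd1
    have : Pi.evalMonoidHom T i d ∈ L.map (Pi.evalMonoidHom T i) := ⟨d, hd, rfl⟩
    rw [h, Subgroup.mem_bot] at this
    exact this
  · have : t ∈ L.map (Pi.evalMonoidHom T i) := by rw [h]; trivial
    obtain ⟨d, hd, hdt⟩ := this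
    exact ⟨d, hd, hdt⟩

/-- elements of `D` trivial on `s` -/
def Ks (D : Subgroup (∀ i, T i)) (s : Finset ι) : Subgroup (∀ i, T i) := D ⊓ P T sᶜ

lemma mem_Ks {s : Finset ι} {x : ∀ i, T i} : x ∈ Ks D s ↔ x ∈ D ∧ ∀ j ∈ s, x j = 1 := by
  constructor
  · rintro ⟨h1, h2⟩
    exact ⟨h1, fun j hj => h2 j (by simpa using hj)⟩
  · rintro ⟨h1, h2⟩
    exact ⟨h1, fun j hj => h2 j (by simpa using hj)⟩

lemma Ks_norm (s : Finset ι) : ∀ e ∈ D, ∀ x ∈ Ks D s, e * x * e⁻¹ ∈ Ks D s := by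
  intro e he x hx
  rw [mem_Ks] at hx ⊢
  refine ⟨D.mul_mem (D.mul_mem he hx.1) (D.inv_mem he), fun j hj => ?_⟩
  rw [Pi.mul_apply, Pi.mul_apply, hx.2 j hj, mul_one, Pi.inv_apply, mul_inv_cancel]

lemma rel_symm (hs : ∀ i, IsSimpleGroup (T i)) (hproj : ∀ i, ∀ t : T i, ∃ d ∈ D, d i = t) {i j : ι}
    (h : rel D i j) : rel D j i := by
  intro d hd hdj
  by_contra hne
  have hfull := image_full hs hproj (Ks D {j}) (Ks_norm {j}) i
    ⟨d, mem_Ks.mpr ⟨hd, by simpa using hdj⟩, hne⟩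
  have := hs j
  obtain ⟨t, ht⟩ := exists_ne (1 : T j)
  obtain ⟨e, he, het⟩ := hproj j t
  obtain ⟨p, hp, hpe⟩ := hfull (e i)
  rw [mem_Ks] at hp
  have h1 : (e * p⁻¹) j = 1 := by
    apply h _ (D.mul_mem he (D.inv_mem hp.1))
    rw [Pi.mul_apply, Pi.inv_apply, hpe, mul_inv_cancel]
  rw [Pi.mul_apply, Pi.inv_apply, hp.2 j (by simp), inv_one, mul_one] at h1
  exact ht (by rw [← het, h1])

lemma exists_iso (hs : ∀ i, IsSimpleGroup (T i)) (hproj : ∀ i, ∀ t : T i, ∃ d ∈ D, d i = t) {i j : ι}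
    (h : rel D i j) : ∃ φ : T i ≃* T j, ∀ d ∈ D, φ (d i) = d j := by
  have h' := rel_symm hs hproj h
  choose f hf1 hf2 using hproj i
  have key : ∀ d ∈ D, f (d i) j = d j := by
    intro d hd
    have h1 : (f (d i) * d⁻¹) j = 1 := by
      apply h _ (D.mul_mem (hf1 _) (D.inv_mem hd))
      rw [Pi.mul_apply, Pi.inv_apply, hf2, mul_inv_cancel]
    rw [Pi.mul_apply, Pi.inv_apply, mul_inv_eq_one] at h1
    exact h1
  refine ⟨MulEquiv.ofBijective (MonoidHom.mk' (fun t => f t j) ?_) ⟨?_, ?_⟩, ?_⟩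
  · intro a b
    have h1 := key (f a * f b) (D.mul_mem (hf1 a) (hf1 b))
    rw [Pi.mul_apply, hf2, hf2, Pi.mul_apply] at h1
    exact h1
  · intro a b hab
    have hab' : f a j = f b j := hab
    have h1 : (f a * (f b)⁻¹) i = 1 := by
      apply h' _ (D.mul_mem (hf1 a) (D.inv_mem (hf1 b)))
      rw [Pi.mul_apply, Pi.inv_apply, hab', mul_inv_cancel]
    rw [Pi.mul_apply, Pi.inv_apply, hf2, hf2, mul_inv_eq_one] at h1
    exact h1
  · intro t
    obtain ⟨d, hd, hdt⟩ := hproj j t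
    refine ⟨d i, ?_⟩
    change f (d i) j = t
    rw [key d hd, hdt]
  · intro d hd
    exact key d hd

lemma surj_on (hs : ∀ i, IsSimpleGroup (T i)) (hnc : ∀ i, ¬ IsMulCommutative (T i))
    (hproj : ∀ i, ∀ t : T i, ∃ d ∈ D, d i = t) (s : Finset ι) (r : ι)
    (hr : ∀ j ∈ s, ¬ rel D j r) : ∀ t : T r, ∃ d ∈ Ks D s, d r = t := by
  induction s using Finset.induction_on with
  | empty =>
    intro t
    obtain ⟨d, hd, hdt⟩ := hproj r t
    exact ⟨d, mem_Ks.mpr ⟨hd, by simp⟩, hdt⟩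
  | insert j s hj ih =>
    have ih' := ih (fun l hl => hr l (Finset.mem_insert_of_mem hl))
    have hjr := hr j (Finset.mem_insert_self j s)
    unfold rel at hjr
    push Not at hjr
    obtain ⟨d, hd, hdj, hdr⟩ := hjr
    have hP := image_full hs hproj (Ks D {j}) (Ks_norm {j}) r
      ⟨d, mem_Ks.mpr ⟨hd, by simpa using hdj⟩, hdr⟩
    apply image_full hs hproj _ (Ks_norm _)
    have : ∃ a b : T r, a * b ≠ b * a := by
      by_contra hc
      push Not at hc
      exact hnc r ⟨⟨hc⟩⟩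
    obtain ⟨a, b, hab⟩ := this
    obtain ⟨x, hx, hxa⟩ := ih' a
    obtain ⟨y, hy, hyb⟩ := hP b
    rw [mem_Ks] at hx hy
    refine ⟨x * y * x⁻¹ * y⁻¹, mem_Ks.mpr ⟨D.mul_mem (D.mul_mem (D.mul_mem hx.1 hy.1) (D.inv_mem hx.1))
      (D.inv_mem hy.1), ?_⟩, ?_⟩
    · intro l hl
      rw [Finset.mem_insert] at hl
      simp only [Pi.mul_apply, Pi.inv_apply]
      rcases hl with rfl | hl
      · rw [hy.2 l (by simp)]; simp
      · rw [hx.2 l hl]; simp
    · intro h1
      simp only [Pi.mul_apply, Pi.inv_apply, hxa, hyb] at h1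
      apply hab
      have := mul_inv_eq_one.mp h1
      rwa [mul_inv_eq_iff_eq_mul] at this

lemma exists_of_pairwise (hs : ∀ i, IsSimpleGroup (T i)) (hnc : ∀ i, ¬ IsMulCommutative (T i))
    (hproj : ∀ i, ∀ t : T i, ∃ d ∈ D, d i = t) (R : Finset ι)
    (hR : ∀ r ∈ R, ∀ r' ∈ R, r ≠ r' → ¬ rel D r r') (x : ∀ i, T i) : ∃ d ∈ D, ∀ r ∈ R, d r = x r := by
  have key : ∀ s : Finset ι, s ⊆ R → ∃ d ∈ D, (∀ r ∈ s, d r = x r) ∧ ∀ r ∈ R, r ∉ s → d r = 1 := by
    intro s
    induction s using Finset.induction_on with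
    | empty => intro _; exact ⟨1, D.one_mem, by simp, fun _ _ _ => rfl⟩
    | insert j s hj ih =>
      intro hsR
      obtain ⟨d, hd, hd1, hd2⟩ := ih (fun l hl => hsR (Finset.mem_insert_of_mem hl))
      have hjR := hsR (Finset.mem_insert_self j s)
      obtain ⟨e, he, hej⟩ := surj_on hs hnc hproj (R.erase j) j (fun l hl => hR l (Finset.mem_of_mem_erase hl)
        j hjR (Finset.ne_of_mem_erase hl)) (x j)
      rw [mem_Ks] at he
      refine ⟨e * d, D.mul_mem he.1 hd, ?_, ?_⟩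
      · intro r hr
        rw [Pi.mul_apply]
        rcases Finset.mem_insert.mp hr with hrj | hrs
        · subst hrj
          rw [hej, hd2 _ hjR hj, mul_one]
        · have hne : r ≠ j := fun h => hj (h ▸ hrs)
          rw [he.2 r (Finset.mem_erase.mpr ⟨hne, hsR (Finset.mem_insert_of_mem hrs)⟩), hd1 r hrs, one_mul]
      · intro r hr hrs
        rw [Finset.mem_insert, not_or] at hrs
        rw [Pi.mul_apply, he.2 r (Finset.mem_erase.mpr ⟨hrs.1, hr⟩), hd2 r hr hrs.2, one_mul]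
  obtain ⟨d, hd, hd1, -⟩ := key R (Finset.Subset.refl R)
  exact ⟨d, hd, hd1⟩

/-- the relation as a setoid -/
def relSetoid (hs : ∀ i, IsSimpleGroup (T i)) (hproj : ∀ i, ∀ t : T i, ∃ d ∈ D, d i = t) : Setoid ι where
  r := rel D
  iseqv := ⟨rel_refl, rel_symm hs hproj, rel_trans⟩

/-- structure of subdirect products of non-abelian simple groups -/
theorem subdirect (hs : ∀ i, IsSimpleGroup (T i)) (hnc : ∀ i, ¬ IsMulCommutative (T i))
    (hproj : ∀ i, ∀ t : T i, ∃ d ∈ D, d i = t) :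
    ∃ (c : ι → ι) (φ : ∀ i, T (c i) ≃* T i), (∀ i j, c i = c j ↔ rel D i j) ∧ (∀ i, c (c i) = c i) ∧
      (∀ i, ∀ d ∈ D, φ i (d (c i)) = d i) ∧
      ∀ x : ∀ i, T i, x ∈ D ↔ ∀ i, φ i (x (c i)) = x i := by
  classical
  let S := relSetoid (D := D) hs hproj
  let c : ι → ι := fun i => (Quotient.mk S i).out
  have hc1 : ∀ i, rel D (c i) i := fun i => Quotient.exact (Quotient.out_eq (Quotient.mk S i))
  have hc2 : ∀ i j, c i = c j ↔ rel D i j := by
    intro i j
    constructor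
    · intro h
      exact rel_trans (rel_symm hs hproj (hc1 i)) (h ▸ hc1 j)
    · intro h
      change (Quotient.mk S i).out = (Quotient.mk S j).out
      rw [Quotient.sound (s := S) h]
  have hc3 : ∀ i, c (c i) = c i := fun i => (hc2 _ _).mpr (hc1 i)
  choose φ hφ using fun i => exists_iso hs hproj (hc1 i)
  refine ⟨c, φ, hc2, hc3, hφ, ?_⟩
  intro x
  constructor
  · intro hx i
    exact hφ i x hx
  · intro hx
    obtain ⟨d, hd, hdx⟩ := exists_of_pairwise hs hnc hproj (Finset.univ.image c) (by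
      intro r hr r' hr' hne hrel
      rw [Finset.mem_image] at hr hr'
      obtain ⟨i, -, rfl⟩ := hr
      obtain ⟨j, -, rfl⟩ := hr'
      apply hne
      have := (hc2 _ _).mpr hrel
      rwa [hc3, hc3] at this) x
    have : x = d := by
      funext i
      rw [← hx i, ← hφ i d hd, hdx (c i) (Finset.mem_image_of_mem c (Finset.mem_univ i))]
    rw [this]
    exact hd

end Cfsg.Agent.H48.PiSub
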