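import Cfsg.Agent.H48.PrimSys
import Cfsg.Agent.H48.PiSub2
import Cfsg.Agent.H37.MinNormal

/-!
The core of the O'Nan-Scott theorem.
-/

set_option autoImplicit false
set_option linter.unusedSectionVars false

namespace Cfsg.Agent.H48.Sys

open Subgroup
open scoped Pointwise

variable {G : Type*} [Group G] {N : Subgroup G} {k : ℕ} {L : Fin k → Subgroup G}

/-- the isomorphism of the external product with `N` -/
noncomputable def equiv (h : Sys N L) : (∀ i, L i) ≃* N :=
  MulEquiv.ofBijective (h.emb.codRestrict N h.emb_mem) ⟨fun _ _ hxy => h.emb_inj (congrArg Subtype.val hxy),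
    fun n => by
      obtain ⟨x, hx⟩ := h.exists_emb n.2
      exact ⟨x, Subtype.ext hx⟩⟩

lemma coe_equiv (h : Sys N L) (x : ∀ i, L i) : ((h.equiv x : N) : G) = h.emb x := rfl

lemma rel_iff (h : Sys N L) (A : Subgroup G) (i j : Fin k) :
    PiSub.rel (A.comap h.emb) i j ↔ ∀ n ∈ A, n ∈ N → n ∈ centralizer (L i : Set G) →
      n ∈ centralizer (L j : Set G) := by
  constructor
  · intro hr n hn hnN hc
    obtain ⟨x, rfl⟩ := h.exists_emb hnN
    rw [h.emb_mem_centralizer] at hc ⊢
    exact hr x hn hc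
  · intro hr x hx hxi
    rw [← h.emb_mem_centralizer] at hxi ⊢
    exact hr _ hx (h.emb_mem x) hxi

lemma conj_mem_centralizer {a n : G} {X Y : Subgroup G} (hXY : MulAut.conj a • X = Y) :
    n ∈ centralizer (Y : Set G) ↔ a⁻¹ * n * a ∈ centralizer (X : Set G) := by
  rw [Subgroup.mem_centralizer_iff, Subgroup.mem_centralizer_iff]
  constructor
  · intro hn x hx
    have := hn (a * x * a⁻¹) (by rw [SetLike.mem_coe, ← hXY]; exact Cfsg.Agent.H59.conj_mem_conj_smul hx)
    calc x * (a⁻¹ * n * a) = a⁻¹ * ((a * x * a⁻¹) * n) * a := by group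
      _ = a⁻¹ * (n * (a * x * a⁻¹)) * a := by rw [this]
      _ = a⁻¹ * n * a * x := by group
  · intro hn y hy
    rw [SetLike.mem_coe, ← hXY, Cfsg.Agent.H59.mem_conj_smul] at hy
    have := hn _ hy
    calc y * n = a * ((a⁻¹ * y * a) * (a⁻¹ * n * a)) * a⁻¹ := by group
      _ = a * ((a⁻¹ * n * a) * (a⁻¹ * y * a)) * a⁻¹ := by rw [this]
      _ = n * y := by group

lemma rel_conj (h : Sys N L) [hN : N.Normal] {A : Subgroup G} {a : G} (ha : a ∈ A) {i j i' j' : Fin k}
    (hi : MulAut.conj a • L i = L i') (hj : MulAut.conj a • L j = L j')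
    (hr : PiSub.rel (A.comap h.emb) i j) : PiSub.rel (A.comap h.emb) i' j' := by
  rw [rel_iff] at hr ⊢
  intro n hn hnN hc
  rw [conj_mem_centralizer hi] at hc
  rw [conj_mem_centralizer hj]
  refine hr _ (A.mul_mem (A.mul_mem (A.inv_mem ha) hn) ha) ?_ hc
  have := hN.conj_mem n hnN a⁻¹
  rwa [inv_inv] at this

theorem core (h : Sys N L) [Finite G] [hN : N.Normal] (A : Subgroup G) (hAN : A ⊔ N = ⊤)
    (hmax : ∀ X : Subgroup G, A < X → X = ⊤) (hNA : ¬ N ≤ A) :
    ∃ (T : Type) (_ : Group T) (m : ℕ) (e : N ≃* (Fin m → T)), IsSimpleGroup T ∧ ¬ IsMulCommutative T ∧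
      0 < m ∧ ((∃ K : Fin m → Subgroup T, (∀ i, K i ≠ ⊤) ∧ ∀ n : N, (n : G) ∈ A ↔ ∀ i, e n i ∈ K i) ∨
      (∃ (κ : ℕ) (c : Fin m → Fin m), 2 ≤ κ ∧
        (∀ j : Fin m, Nat.card {i : Fin m // c i = j} = κ ∨ Nat.card {i : Fin m // c i = j} = 0) ∧
        ∀ n : N, (n : G) ∈ A ↔ ∀ i j : Fin m, c i = c j → e n i = e n j)) := by
  classical
  obtain ⟨i₀⟩ := h.nonempty
  obtain ⟨T, hT, ⟨ψ⟩⟩ := Cfsg.Agent.H37.exists_small_copy (L i₀)
  have hbase : ∀ i, Nonempty (L i ≃* T) := by
    intro i
    obtain ⟨g, hg⟩ := h.trans i i₀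
    exact ⟨((Subgroup.equivSMul (MulAut.conj g) (L i)).trans (MulEquiv.subgroupCongr hg)).trans ψ⟩
  let base : ∀ i, L i ≃* T := fun i => (hbase i).some
  have hTs : IsSimpleGroup T := by
    have := h.simple i₀
    exact ψ.symm.isSimpleGroup
  have hTc : ¬ IsMulCommutative T := by
    intro hc
    apply h.nonc i₀
    refine ⟨⟨fun a b => ?_⟩⟩
    apply ψ.injective
    rw [map_mul, map_mul]
    exact hc.is_comm.comm _ _
  have hk : 0 < k := Fin.pos i₀
  rcases h.product_or_full A hAN hmax with hf | ⟨hK, hp⟩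
  swap
  · refine ⟨T, hT, k, h.equiv.symm.trans (MulEquiv.piCongrRight base), hTs, hTc, hk, Or.inl
      ⟨fun i => (h.K A i).map (base i).toMonoidHom, ?_, ?_⟩⟩
    · intro i hi
      change (h.K A i).map (base i).toMonoidHom = ⊤ at hi
      apply hK i
      rw [eq_top_iff]
      intro t _
      have : (base i).toMonoidHom t ∈ (h.K A i).map (base i).toMonoidHom := by rw [hi]; trivial
      rwa [Subgroup.mem_map_iff_mem (base i).injective] at this
    · intro n
      obtain ⟨x, rfl⟩ := h.equiv.surjective n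
      rw [coe_equiv, hp]
      refine forall_congr' fun i => ?_
      have : (h.equiv.symm.trans (MulEquiv.piCongrRight base)) (h.equiv x) i = (base i).toMonoidHom (x i) := by
        simp
      rw [this, Subgroup.mem_map_iff_mem (base i).injective]
  · have hproj : ∀ i, ∀ t : L i, ∃ d ∈ A.comap h.emb, d i = t := by
      intro i t
      have : t ∈ h.K A i := by rw [hf i]; trivial
      obtain ⟨x, hx, hxt⟩ := this
      exact ⟨x, hx, hxt⟩
    obtain ⟨c, φ, hc1, hc2, hφ, hD⟩ := PiSub.subdirect (T := fun i => L i) h.simple h.nonc hproj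
    let θ : ∀ i, L i ≃* T := fun i => (φ i).symm.trans (base (c i))
    have hθ : ∀ d ∈ A.comap h.emb, ∀ i, θ i (d i) = base (c i) (d (c i)) := by
      intro d hd i
      change base (c i) ((φ i).symm (d i)) = _
      rw [← hφ i d hd, MulEquiv.symm_apply_apply]
    have hθ2 : ∀ d ∈ A.comap h.emb, ∀ i j, c i = c j → θ i (d i) = θ j (d j) := by
      intro d hd i j hij
      rw [hθ d hd, hθ d hd, hij]
    -- class sizes
    have hcl : ∀ i j, Nat.card {l // c l = c i} ≤ Nat.card {l // c l = c j} := by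
      intro i j
      obtain ⟨a, ha, haL⟩ := h.trans' hAN i j
      choose σ hσ using h.norm a
      have hσi : σ i = j := h.inj (by rw [← hσ i]; exact haL)
      have hσinj : Function.Injective σ := by
        intro l l' hl
        apply h.inj
        have h1 : MulAut.conj a • L l = MulAut.conj a • L l' := by rw [hσ, hσ, hl]
        exact smul_left_cancel _ h1
      refine Nat.card_le_card_of_injective (fun l => ⟨σ l.1, ?_⟩) ?_
      · rw [← hσi, hc1]
        exact h.rel_conj ha (hσ _) (hσ _) ((hc1 _ _).mp l.2)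
      · intro l l' hl
        exact Subtype.ext (hσinj (congrArg Subtype.val hl))
    refine ⟨T, hT, k, h.equiv.symm.trans (MulEquiv.piCongrRight θ), hTs, hTc, hk, Or.inr
      ⟨Nat.card {l // c l = c i₀}, c, ?_, ?_, ?_⟩⟩
    · by_contra hlt
      apply hNA
      have hcc : ∀ j, c j = j := by
        intro j
        have h1 : Nat.card {l // c l = c j} ≤ 1 := (hcl j i₀).trans (by omega)
        rw [Finite.card_le_one_iff_subsingleton] at h1
        have := h1.elim ⟨c j, hc2 j⟩ ⟨j, rfl⟩
        exact congrArg Subtype.val this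
      intro n hn
      obtain ⟨x, rfl⟩ := h.exists_emb hn
      have hx : x ∈ A.comap h.emb := by
        rw [hD]
        intro i
        obtain ⟨d, hd, hdx⟩ := hproj (c i) (x (c i))
        rw [← hdx, hφ i d hd]
        have aux : ∀ j, j = i → d j = x j → d i = x i := by
          rintro j rfl h; exact h
        exact aux (c i) (hcc i) hdx
      exact hx
    · intro j
      by_cases hj : ∃ j', c j' = j
      · left
        obtain ⟨j', rfl⟩ := hj
        exact le_antisymm (hcl _ _) (hcl _ _)
      · right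
        push Not at hj
        have : IsEmpty {i // c i = j} := ⟨fun i => hj i.1 i.2⟩
        exact Nat.card_of_isEmpty
    · intro n
      obtain ⟨x, rfl⟩ := h.equiv.surjective n
      rw [coe_equiv]
      have he : ∀ i, (h.equiv.symm.trans (MulEquiv.piCongrRight θ)) (h.equiv x) i = θ i (x i) := by
        intro i; simp
      simp only [he]
      constructor
      · intro hx i j hij
        exact hθ2 x hx i j hij
      · intro hx
        have : x ∈ A.comap h.emb := by
          rw [hD]
          intro i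
          obtain ⟨d, hd, hdx⟩ := hproj (c i) (x (c i))
          have h1 := hx i (c i) (hc2 i).symm
          rw [← hdx, hθ2 d hd (c i) i (hc2 i)] at h1
          have h2 := (θ i).injective h1
          rw [h2, ← hdx, hφ i d hd]
        exact this

end Cfsg.Agent.H48.Sys
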