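import Cfsg.Agent.H48.U3D

/-!
# The structure of the stabilizer of an isotropic point
-/

set_option autoImplicit false
set_option linter.unusedSectionVars false

namespace Cfsg.Agent.H48.U3

open Finset Matrix Cfsg.Agent.Uni

variable {F : Type*} [Field F] [Fintype F] {q : ℕ}

/-- unipotent element with parameters `x`, `z` -/
structure PU (e w f : Fin 3 → F) (g : SU 3 F q) (x z : F) : Prop where
  he : act g e = e
  hw : act g w = w - x ^ q • e
  hf : act g f = f + x • w + z • e

/-- data of an element of the Borel subgroup -/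
theorem borel (hF : Fintype.card F = q ^ 2) {e w f : Fin 3 → F} (B : HB q e w f) {b : SU 3 F q}
    {l : F} (hb : act b e = l • e) : l ≠ 0 ∧ ∃ m s n y t : F, act b w = m • w + s • e ∧
      act b f = n • f + y • w + t • e ∧ l ^ q * n = 1 ∧ m * l = l ^ q ∧ l * m * n = 1 := by
  have hl : l ≠ 0 := by
    rintro rfl
    rw [zero_smul] at hb
    exact act_ne_zero B.e_ne hb
  have hlq : l ^ q ≠ 0 := pow_ne_zero _ hl
  have h1 : hermForm 3 F q (act b w) e = 0 := by
    have h2 : hermForm 3 F q (act b w) (act b e) = 0 := by rw [act_form, B.we hF]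
    rw [hb, hermForm_smul_right] at h2
    exact (mul_eq_zero.1 h2).resolve_left hlq
  have h2 : l ^ q * hermForm 3 F q (act b f) e = 1 := by
    have h3 : hermForm 3 F q (act b f) (act b e) = 1 := by rw [act_form, B.fe hF]
    rwa [hb, hermForm_smul_right] at h3
  have hdet := B.det_one hF b
  rw [Matrix.det_fin_three] at hdet
  simp only [Matrix.of_apply, Matrix.cons_val_zero, Matrix.cons_val_one, Matrix.cons_val] at hdet
  rw [hb, hermForm_smul_left, hermForm_smul_left, hermForm_smul_left, B.ef, B.ew, B.ee, h1] at hdet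
  set m := hermForm 3 F q (act b w) w
  set n := hermForm 3 F q (act b f) e
  have h3 : l * m * n = 1 := by linear_combination hdet
  refine ⟨hl, m, hermForm 3 F q (act b w) f, n, hermForm 3 F q (act b f) w,
    hermForm 3 F q (act b f) f, ?_, ?_, h2, ?_, h3⟩
  · conv_lhs => rw [B.expand hF (act b w), h1]
    rw [zero_smul, add_zero, add_comm]
  · conv_lhs => rw [B.expand hF (act b f)]
    show _ + _ + n • f = _
    abel
  · linear_combination l ^ q * h3 - m * l * h2

theorem PU.of_fix (hF : Fintype.card F = q ^ 2) {e w f : Fin 3 → F} (B : HB q e w f)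
    {g : SU 3 F q} (hg : act g e = e) :
    PU e w f g (hermForm 3 F q (act g f) w) (hermForm 3 F q (act g f) f) := by
  obtain ⟨-, m, s, n, y, t, h1, h2, h3, h4, h5⟩ := borel hF B (b := g) (l := 1) (by rw [hg, one_smul])
  rw [one_pow, one_mul] at h3
  rw [mul_one, one_pow] at h4
  subst h3 h4
  have hx : hermForm 3 F q (act g f) w = y := by
    rw [h2]
    simp only [hermForm_add_left, hermForm_smul_left, B.fw, B.ww, B.ew]
    ring
  have hz : hermForm 3 F q (act g f) f = t := by
    rw [h2]
    simp only [hermForm_add_left, hermForm_smul_left, B.ff, B.wf hF, B.ef]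
    ring
  rw [hx, hz]
  refine ⟨hg, ?_, by rw [h2, one_smul]⟩
  have h6 : hermForm 3 F q (act g w) (act g f) = 0 := by rw [act_form, B.wf hF]
  rw [h1, h2] at h6
  simp only [hermForm_add_left, hermForm_add_right hF, hermForm_smul_left, hermForm_smul_right,
    B.wf hF, B.ww, B.we hF, B.ef, B.ew, B.ee] at h6
  have h7 : s = - y ^ q := by linear_combination h6
  rw [h1, h7, one_smul, neg_smul, ← sub_eq_add_neg]

theorem PU.rel (hF : Fintype.card F = q ^ 2) {e w f : Fin 3 → F} (B : HB q e w f)
    {g : SU 3 F q} {x z : F} (h : PU e w f g x z) : z + z ^ q + x ^ (q + 1) = 0 := by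
  have h1 : hermForm 3 F q (act g f) (act g f) = 0 := by rw [act_form, B.ff]
  rw [h.hf] at h1
  simp only [hermForm_add_left, hermForm_add_right hF, hermForm_smul_left x,
    hermForm_smul_left z, hermForm_smul_right x, hermForm_smul_right z, B.ee, B.ff,
    B.ef, B.fe hF, B.ww, B.ew, B.we hF, B.fw, B.wf hF] at h1
  rw [pow_succ]
  linear_combination h1

theorem PU.x_eq {e w f : Fin 3 → F} (B : HB q e w f) {g : SU 3 F q} {x z : F}
    (h : PU e w f g x z) : hermForm 3 F q (act g f) w = x := by
  rw [h.hf]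
  simp only [hermForm_add_left, hermForm_smul_left, B.fw, B.ww, B.ew]
  ring

theorem PU.z_eq (hF : Fintype.card F = q ^ 2) {e w f : Fin 3 → F} (B : HB q e w f)
    {g : SU 3 F q} {x z : F} (h : PU e w f g x z) : hermForm 3 F q (act g f) f = z := by
  rw [h.hf]
  simp only [hermForm_add_left, hermForm_smul_left, B.ff, B.wf hF, B.ef]
  ring

theorem PU.mul (hF : Fintype.card F = q ^ 2) {e w f : Fin 3 → F}
    {g g' : SU 3 F q} {x z x' z' : F} (h : PU e w f g x z) (h' : PU e w f g' x' z') :
    PU e w f (g * g') (x + x') (z + z' - x ^ q * x') := by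
  refine ⟨?_, ?_, ?_⟩
  · rw [act_mul, h'.he, h.he]
  · rw [act_mul, h'.hw, act_sub, act_smul, h.he, h.hw, add_pow_q hF]; module
  · rw [act_mul, h'.hf, act_add, act_add, act_smul, act_smul, h.he, h.hw, h.hf]; module

theorem PU.one (hF : Fintype.card F = q ^ 2) {e w f : Fin 3 → F} :
    PU e w f (1 : SU 3 F q) 0 0 := by
  refine ⟨act_one _, ?_, ?_⟩
  · rw [act_one, zero_pow_q hF]; module
  · rw [act_one]; module

theorem PU.inv (hF : Fintype.card F = q ^ 2) {e w f : Fin 3 → F}
    {g : SU 3 F q} {x z : F} (h : PU e w f g x z) :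
    PU e w f g⁻¹ (-x) (-z - x ^ q * x) := by
  have he : act g⁻¹ e = e := by conv_lhs => rw [← h.he, act_inv_act]
  have hw : act g⁻¹ w = w + x ^ q • e := by
    have h1 : act g (w + x ^ q • e) = w := by rw [act_add, act_smul, h.he, h.hw]; abel
    conv_lhs => rw [← h1, act_inv_act]
  refine ⟨he, ?_, ?_⟩
  · rw [hw, neg_pow_q hF]; module
  · have h1 : act g (f + (-x) • w + (-z - x ^ q * x) • e) = f := by
      rw [act_add, act_add, act_smul, act_smul, h.he, h.hw, h.hf]; module
    conv_lhs => rw [← h1, act_inv_act]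

theorem PU.unique (hF : Fintype.card F = q ^ 2) {e w f : Fin 3 → F} (B : HB q e w f)
    {g g' : SU 3 F q} {x z : F} (h : PU e w f g x z) (h' : PU e w f g' x z) : g = g' :=
  B.ext_act hF (h.he.trans h'.he.symm) (h.hw.trans h'.hw.symm) (h.hf.trans h'.hf.symm)

theorem inv_fix {b : SU 3 F q} {e : Fin 3 → F} {l : F} (hl : l ≠ 0) (hb : act b e = l • e) :
    act b⁻¹ e = l⁻¹ • e := by
  have h1 : act b (l⁻¹ • e) = e := by rw [act_smul, hb, smul_smul, inv_mul_cancel₀ hl, one_smul]
  conv_lhs => rw [← h1, act_inv_act]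

theorem conj_fix {b g : SU 3 F q} {e : Fin 3 → F} {l : F} (hl : l ≠ 0) (hb : act b e = l • e)
    (hg : act g e = e) : act (b * g * b⁻¹) e = e := by
  rw [act_mul, act_mul, inv_fix hl hb, act_smul, act_smul, hg, hb, smul_smul,
    inv_mul_cancel₀ hl, one_smul]

/-- conjugation of a unipotent element by an element of the Borel subgroup -/
theorem PU.conj (hF : Fintype.card F = q ^ 2) {e w f : Fin 3 → F} (B : HB q e w f)
    {g b : SU 3 F q} {x z l : F} (h : PU e w f g x z) (hb : act b e = l • e) :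
    ∃ z', PU e w f (b * g * b⁻¹) (l ^ (2 * q - 1) * x) z' ∧ (x = 0 → z' = l ^ (q + 1) * z) := by
  obtain ⟨hl, -⟩ := borel hF B hb
  obtain ⟨hl', m, s, n, y, t, h1, h2, h3, h4, -⟩ := borel hF B (inv_fix hl hb)
  have hq := q_pos hF
  have hfix := conj_fix hl hb h.he
  have hP := PU.of_fix hF B hfix
  have hn : n = l ^ q := by
    rw [inv_pow] at h3
    have := pow_ne_zero q hl
    field_simp at h3
    exact h3
  have hmq : l ^ q * m ^ q = l ^ (2 * q - 1) := by
    have hm : m = l⁻¹ ^ q * l := by rw [← h4, mul_assoc, inv_mul_cancel₀ hl, mul_one]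
    have hm' : m ^ q = l⁻¹ * l ^ q := by rw [hm, mul_pow, pow_q_pow_q hF]
    have e5 : l ^ (2 * q - 1) * l = l ^ q * l ^ q := by
      rw [← pow_succ, ← pow_add]; congr 1; omega
    rw [hm']
    field_simp
    rw [mul_comm l, e5, sq]
  have e1 : act (b * g * b⁻¹) f = act b (act g (act b⁻¹ f)) := by rw [act_mul, act_mul]
  have e2 : act g (act b⁻¹ f) = act b⁻¹ f + (n * x) • w + (n * z - y * x ^ q) • e := by
    rw [h2, act_add, act_add, act_smul, act_smul, act_smul, h.hf, h.hw, h.he]; module
  have hx : hermForm 3 F q (act (b * g * b⁻¹) f) w = l ^ (2 * q - 1) * x := by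
    have e3 : hermForm 3 F q (act (b * g * b⁻¹) f) w =
        hermForm 3 F q (act g (act b⁻¹ f)) (act b⁻¹ w) := by
      rw [e1, act_form_left]
    rw [e3, e2, hermForm_add_left, hermForm_add_left, act_form, B.fw, h1]
    simp only [hermForm_smul_left, hermForm_add_right hF, hermForm_smul_right, B.ww, B.we hF,
      B.ew, B.ee]
    rw [← hmq, ← hn]; ring
  rw [hx] at hP
  refine ⟨_, hP, ?_⟩
  rintro rfl
  have e3 : hermForm 3 F q (act (b * g * b⁻¹) f) f =
      hermForm 3 F q (act g (act b⁻¹ f)) (act b⁻¹ f) := by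
    rw [e1, act_form_left]
  rw [e3, e2, hermForm_add_left, hermForm_add_left, act_form, B.ff, h2]
  simp only [hermForm_smul_left, hermForm_add_right hF, hermForm_smul_right, B.ww, B.we hF,
      B.ew, B.ee, B.wf hF, B.ef]
  rw [hn, pow_q_pow_q hF, zero_pow_q hF, pow_succ]; ring

end Cfsg.Agent.H48.U3
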