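import Cfsg.Agent.H48.U3E

/-!
# Parameters of a subgroup at an isotropic point
-/

set_option autoImplicit false
set_option linter.unusedSectionVars false

namespace Cfsg.Agent.H48.U3

open Finset Matrix Cfsg.Agent.Uni

variable {F : Type*} [Field F] [Fintype F] {q : ℕ}

theorem card_ker_mul_range {H K : Type*} [Group H] [Group K] (φ : H →* K) :
    Nat.card φ.ker * Nat.card φ.range = Nat.card H := by
  rw [← Subgroup.index_ker, Subgroup.card_mul_index]

variable {e w f : Fin 3 → F}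

/-- eigenvalues on `e` -/
def La (e : Fin 3 → F) (M : Subgroup (SU 3 F q)) : Subgroup Fˣ where
  carrier := {l | ∃ g ∈ M, act g e = (l : F) • e}
  one_mem' := ⟨1, M.one_mem, by rw [act_one, Units.val_one, one_smul]⟩
  mul_mem' := by
    rintro a b ⟨g, hg, h⟩ ⟨g', hg', h'⟩
    exact ⟨g * g', M.mul_mem hg hg', by
      rw [act_mul, h', act_smul, h, smul_smul, Units.val_mul, mul_comm]⟩
  inv_mem' := by
    rintro a ⟨g, hg, h⟩
    exact ⟨g⁻¹, M.inv_mem hg, by rw [inv_fix a.ne_zero h, Units.val_inv_eq_inv_val]⟩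

/-- parameters `x` -/
def Vx (hF : Fintype.card F = q ^ 2) (e w f : Fin 3 → F) (M : Subgroup (SU 3 F q)) :
    AddSubgroup F where
  carrier := {x | ∃ g ∈ M, ∃ z, PU e w f g x z}
  zero_mem' := ⟨1, M.one_mem, 0, PU.one hF⟩
  add_mem' := by
    rintro a b ⟨g, hg, z, h⟩ ⟨g', hg', z', h'⟩
    exact ⟨g * g', M.mul_mem hg hg', _, h.mul hF h'⟩
  neg_mem' := by
    rintro a ⟨g, hg, z, h⟩
    exact ⟨g⁻¹, M.inv_mem hg, _, h.inv hF⟩

/-- central parameters -/
def Az (hF : Fintype.card F = q ^ 2) (e w f : Fin 3 → F) (M : Subgroup (SU 3 F q)) :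
    AddSubgroup F where
  carrier := {z | ∃ g ∈ M, PU e w f g 0 z}
  zero_mem' := ⟨1, M.one_mem, PU.one hF⟩
  add_mem' := by
    rintro a b ⟨g, hg, h⟩ ⟨g', hg', h'⟩
    refine ⟨g * g', M.mul_mem hg hg', ?_⟩
    have := h.mul hF h'
    rwa [add_zero, mul_zero, sub_zero] at this
  neg_mem' := by
    rintro a ⟨g, hg, h⟩
    refine ⟨g⁻¹, M.inv_mem hg, ?_⟩
    have := h.inv hF
    rwa [neg_zero, mul_zero, sub_zero] at this

/-- the stabilizer of a vector in `M` -/
def Qe (e : Fin 3 → F) (M : Subgroup (SU 3 F q)) : Subgroup (SU 3 F q) where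
  carrier := {g | g ∈ M ∧ act g e = e}
  one_mem' := ⟨M.one_mem, act_one _⟩
  mul_mem' := by
    rintro a b ⟨ha, h⟩ ⟨hb, h'⟩
    exact ⟨M.mul_mem ha hb, by rw [act_mul, h', h]⟩
  inv_mem' := by
    rintro a ⟨ha, h⟩
    exact ⟨M.inv_mem ha, by conv_lhs => rw [← h, act_inv_act]⟩

theorem card_Qe (hF : Fintype.card F = q ^ 2) (B : HB q e w f) (M : Subgroup (SU 3 F q)) :
    Nat.card (Az hF e w f M) * Nat.card (Vx hF e w f M) = Nat.card (Qe e M) := by
  let φ : Qe e M →* Multiplicative F := MonoidHom.mk'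
    (fun g => Multiplicative.ofAdd (hermForm 3 F q (act g.1 f) w)) (by
      intro a b
      rw [← ofAdd_add]
      congr 1
      have ha := PU.of_fix hF B a.2.2
      have hb := PU.of_fix hF B b.2.2
      exact (ha.mul hF hb).x_eq B)
  rw [← card_ker_mul_range φ]
  congr 1
  · refine Nat.card_congr (Equiv.ofBijective (fun z => ⟨⟨z.2.choose, z.2.choose_spec.1,
      z.2.choose_spec.2.he⟩, ?_⟩) ⟨?_, ?_⟩)
    · rw [MonoidHom.mem_ker]
      show Multiplicative.ofAdd _ = 1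
      rw [z.2.choose_spec.2.x_eq B]; rfl
    · intro z z' h
      have h1 : z.2.choose = z'.2.choose := congrArg (fun t => ((t.1 : Qe e M) : SU 3 F q)) h
      have h2 := z.2.choose_spec.2
      rw [h1] at h2
      apply Subtype.ext
      rw [← h2.z_eq hF B, z'.2.choose_spec.2.z_eq hF B]
    · rintro ⟨⟨g, hg, hge⟩, hk⟩
      rw [MonoidHom.mem_ker] at hk
      have hk' : hermForm 3 F q (act g f) w = 0 := hk
      have h1 := PU.of_fix hF B hge
      rw [hk'] at h1
      let z : Az hF e w f M := ⟨hermForm 3 F q (act g f) f, g, hg, h1⟩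
      refine ⟨z, ?_⟩
      apply Subtype.ext
      apply Subtype.ext
      exact PU.unique hF B z.2.choose_spec.2 h1
  · refine Nat.card_congr (Equiv.subtypeEquivRight fun x => ?_)
    constructor
    · rintro ⟨g, hg, z, h⟩
      exact ⟨⟨g, hg, h.he⟩, h.x_eq B⟩
    · rintro ⟨⟨g, hg, hge⟩, h⟩
      have h1 := PU.of_fix hF B hge
      have h2 : hermForm 3 F q (act g f) w = x := h
      rw [h2] at h1
      exact ⟨g, hg, _, h1⟩

theorem mem_stab_iff (B : HB q e w f) {g : SU 3 F q} :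
    g ∈ MulAction.stabilizer (SU 3 F q) (mkPt e B.e_ne B.ee) ↔ ∃ l : F, l ≠ 0 ∧ act g e = l • e := by
  rw [MulAction.mem_stabilizer_iff, smul_mkPt, mkPt_eq_iff]

theorem card_Me (hF : Fintype.card F = q ^ 2) (B : HB q e w f) (M : Subgroup (SU 3 F q)) :
    Nat.card (Az hF e w f M) * Nat.card (Vx hF e w f M) * Nat.card (La e M) =
      Nat.card (M ⊓ MulAction.stabilizer (SU 3 F q) (mkPt e B.e_ne B.ee) :
        Subgroup (SU 3 F q)) := by
  rw [card_Qe hF B]
  set D := M ⊓ MulAction.stabilizer (SU 3 F q) (mkPt e B.e_ne B.ee) with hD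
  have hl : ∀ g : D, hermForm 3 F q (act g.1 e) f ≠ 0 ∧
      act g.1 e = hermForm 3 F q (act g.1 e) f • e := by
    intro g
    obtain ⟨l, hl, h⟩ := (mem_stab_iff B).1 g.2.2
    rw [h, hermForm_smul_left, B.ef, mul_one]
    exact ⟨hl, rfl⟩
  let φ : D →* Fˣ := MonoidHom.mk' (fun g => Units.mk0 _ (hl g).1) (by
    intro a b
    apply Units.ext
    show hermForm 3 F q (act (a.1 * b.1) e) f = hermForm 3 F q (act a.1 e) f *
      hermForm 3 F q (act b.1 e) f
    rw [act_mul, (hl b).2, act_smul, (hl a).2]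
    simp only [hermForm_smul_left, B.ef]
    ring)
  rw [← card_ker_mul_range φ]
  congr 1
  · refine Nat.card_congr ⟨fun g => ⟨⟨g.1, g.2.1, ?_⟩, ?_⟩, fun g => ⟨g.1.1, g.1.2.1, ?_⟩,
      fun _ => rfl, fun _ => rfl⟩
    · exact (mem_stab_iff B).2 ⟨1, one_ne_zero, by rw [g.2.2, one_smul]⟩
    · rw [MonoidHom.mem_ker]
      apply Units.ext
      show hermForm 3 F q (act g.1 e) f = 1
      rw [g.2.2, B.ef]
    · have h1 := (MonoidHom.mem_ker).1 g.2
      have h2 : hermForm 3 F q (act g.1.1 e) f = 1 := congrArg Units.val h1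
      rw [(hl g.1).2, h2, one_smul]
  · refine Nat.card_congr (Equiv.subtypeEquivRight fun x => ?_)
    constructor
    · rintro ⟨g, hg, h⟩
      refine ⟨⟨g, hg, (mem_stab_iff B).2 ⟨x, x.ne_zero, h⟩⟩, ?_⟩
      apply Units.ext
      show hermForm 3 F q (act g e) f = x
      rw [h, hermForm_smul_left, B.ef, mul_one]
    · rintro ⟨g, h⟩
      refine ⟨g.1, g.2.1, ?_⟩
      have h2 : hermForm 3 F q (act g.1 e) f = x := congrArg Units.val h
      rw [(hl g).2, h2]

/-! ### closure properties -/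

variable {M : Subgroup (SU 3 F q)}

theorem Vx_smul (hF : Fintype.card F = q ^ 2) (B : HB q e w f) {l : Fˣ} (hl : l ∈ La e M) {x : F}
    (hx : x ∈ Vx hF e w f M) : (l : F) ^ (2 * q - 1) * x ∈ Vx hF e w f M := by
  obtain ⟨b, hb, hbe⟩ := hl
  obtain ⟨g, hg, z, h⟩ := hx
  obtain ⟨z', h', -⟩ := h.conj hF B hbe
  exact ⟨_, M.mul_mem (M.mul_mem hb hg) (M.inv_mem hb), z', h'⟩

theorem Az_smul (hF : Fintype.card F = q ^ 2) (B : HB q e w f) {l : Fˣ} (hl : l ∈ La e M) {z : F}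
    (hz : z ∈ Az hF e w f M) : (l : F) ^ (q + 1) * z ∈ Az hF e w f M := by
  obtain ⟨b, hb, hbe⟩ := hl
  obtain ⟨g, hg, h⟩ := hz
  obtain ⟨z', h', h2⟩ := h.conj hF B hbe
  rw [h2 rfl, mul_zero] at h'
  exact ⟨_, M.mul_mem (M.mul_mem hb hg) (M.inv_mem hb), h'⟩

theorem Az_skew (hF : Fintype.card F = q ^ 2) (B : HB q e w f) {z : F}
    (hz : z ∈ Az hF e w f M) : z + z ^ q = 0 := by
  obtain ⟨g, hg, h⟩ := hz
  have := h.rel hF B
  rwa [zero_pow (by omega), add_zero] at this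

theorem comm_mem (hF : Fintype.card F = q ^ 2) (B : HB q e w f) {x y : F}
    (hx : x ∈ Vx hF e w f M) (hy : y ∈ Vx hF e w f M) :
    y ^ q * x - x ^ q * y ∈ Az hF e w f M := by
  obtain ⟨g, hg, z, h⟩ := hx
  obtain ⟨g', hg', z', h'⟩ := hy
  have h1 := (h.mul hF h').mul hF ((h'.mul hF h).inv hF)
  refine ⟨_, M.mul_mem (M.mul_mem hg hg') (M.inv_mem (M.mul_mem hg' hg)), ?_⟩
  convert h1 using 1
  · ring
  · rw [add_pow_q hF, add_pow_q hF]; ring

theorem sq_mem (hF : Fintype.card F = q ^ 2) (B : HB q e w f) [CharP F 2] {x : F}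
    (hx : x ∈ Vx hF e w f M) : x ^ (q + 1) ∈ Az hF e w f M := by
  obtain ⟨g, hg, z, h⟩ := hx
  have h1 := h.mul hF h
  have h2 : x + x = 0 := CharTwo.add_self_eq_zero x
  have h3 : z + z - x ^ q * x = x ^ (q + 1) := by
    rw [CharTwo.add_self_eq_zero, zero_sub, CharTwo.neg_eq, pow_succ]
  rw [h2, h3] at h1
  exact ⟨_, M.mul_mem hg hg, h1⟩

/-- a transitive subgroup containing one full transvection group is everything -/
theorem eq_top_of_full (hF : Fintype.card F = q ^ 2) (hq : 3 ≤ q) (B : HB q e w f)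
    (hM : ∀ x y : IsoPt F q, ∃ m ∈ M, m • x = y)
    (hfull : ∀ z : F, z + z ^ q = 0 → z ∈ Az hF e w f M) : M = ⊤ := by
  rw [eq_top_iff, ← TT_eq_top hF (by norm_num) (by omega)]
  unfold TT
  rw [Subgroup.closure_le]
  rintro g ⟨v, c, hv, hvc⟩
  by_cases hv0 : v = 0
  · have h1 : g = 1 := by
      apply act_ext
      intro x
      rw [(isEich_zero_iff hF g v c).1 ((isEich_zero_iff_matrix hF g v c).2 hvc) x, hv0,
        smul_zero, add_zero, act_one]
    rw [h1]; exact M.one_mem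
  have hE := (isEich_zero_iff_matrix hF g v c).2 hvc
  obtain ⟨m, hm, h1⟩ := hM (mkPt v hv0 hv) (mkPt e B.e_ne B.ee)
  rw [smul_mkPt, mkPt_eq_iff] at h1
  obtain ⟨d, hd, h2⟩ := h1
  have hE' := hE.conj m
  rw [act_zero, h2] at hE'
  -- h := m g m⁻¹ is a transvection with centre e
  have he : act (m * g * m⁻¹) e = e := by
    rw [(isEich_zero_iff hF _ _ _).1 hE', hermForm_smul_right, B.ee]; simp
  have hw : act (m * g * m⁻¹) w = w := by
    rw [(isEich_zero_iff hF _ _ _).1 hE', hermForm_smul_right, B.we hF]; simp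
  have hPU := PU.of_fix hF B he
  have hx : hermForm 3 F q (act (m * g * m⁻¹) f) w = 0 := by
    have h3 : hermForm 3 F q (act (m * g * m⁻¹) f) (act (m * g * m⁻¹) w) = 0 := by
      rw [act_form, B.fw]
    rwa [hw] at h3
  rw [hx] at hPU
  have hrel := hPU.rel hF B
  rw [zero_pow (by omega), add_zero] at hrel
  obtain ⟨g', hg', h3⟩ := hfull _ hrel
  have h4 := PU.unique hF B hPU h3
  have h5 : g = m⁻¹ * g' * m := by rw [← h4]; group
  rw [h5]
  exact M.mul_mem (M.mul_mem (M.inv_mem hm) hg') hm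

end Cfsg.Agent.H48.U3
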