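import Cfsg.Agent.Dk.Cases

/-!
# Two consequences of the classification of finite Moebius groups
-/

set_option autoImplicit false
set_option linter.unusedSectionVars false

namespace Cfsg.Agent.H48.U3

open MulAction Cfsg.Agent.Dk

variable {p : ℕ} {Γ X K : Type*} [Group Γ] [MulAction Γ X] [Field K] [Fact p.Prime] [CharP K p]
  [Finite Γ]

theorem card_inf_ge {G : Type*} [Group G] [Finite G] (H L : Subgroup G) :
    Nat.card L ≤ H.index * Nat.card (H ⊓ L : Subgroup G) := by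
  have h1 : Nat.card (H ⊓ L : Subgroup G) * H.relIndex L = Nat.card L := by
    have h2 : Nat.card (H.subgroupOf L) = Nat.card (H ⊓ L : Subgroup G) := by
      rw [← Subgroup.inf_subgroupOf_right]
      exact Nat.card_congr (Subgroup.subgroupOfEquivOfLe inf_le_right).toEquiv
    rw [← h2]
    exact Subgroup.card_mul_index _
  rw [← h1, mul_comm]
  refine Nat.mul_le_mul_right _ ?_
  have h3 := Subgroup.relIndex_le_of_le_right (H := H) (K := L) (L := ⊤) le_top (by
    rw [Subgroup.relIndex_top_right]; exact Subgroup.index_ne_zero_of_finite)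
  rwa [Subgroup.relIndex_top_right] at h3

theorem comm_of_U_bot (M : Mob p Γ X K) {z : X} (hz : M.U z = ⊥) {g h : Γ} (hg : g • z = z)
    (hh : h • z = z) : g * h = h * g := by
  have h1 : (g * h) * (h * g)⁻¹ = 1 := by
    have h2 : (g * h) * (h * g)⁻¹ ∈ M.U z := by
      have hm : (g * h) * (h * g)⁻¹ ∈ stabilizer Γ z :=
        (stabilizer Γ z).mul_mem ((stabilizer Γ z).mul_mem hg hh)
          ((stabilizer Γ z).inv_mem ((stabilizer Γ z).mul_mem hh hg))
      have h3 := M.chi_spec z ⟨_, hm⟩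
      refine h3.1 ?_
      have h4 : (⟨(g * h) * (h * g)⁻¹, hm⟩ : stabilizer Γ z) =
          (⟨g, hg⟩ * ⟨h, hh⟩) * (⟨h, hh⟩ * ⟨g, hg⟩)⁻¹ := rfl
      rw [h4, map_mul, map_inv, map_mul, map_mul, mul_comm ((M.chi z).choose ⟨h, hh⟩),
        mul_inv_cancel]
    rw [hz] at h2
    exact h2
  exact mul_inv_eq_one.1 h1

theorem mob_small (M : Mob p Γ X K) (hp : ¬ p ∣ Nat.card Γ) (x0 : X)
    (hN : 3 ≤ Nat.card (orbit Γ x0)) (hm : 3 ≤ Nat.card (stabilizer Γ x0)) :
    Nat.card Γ = 12 ∨ Nat.card Γ = 24 ∨ Nat.card Γ = 60 := by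
  classical
  have : Nontrivial Γ := by
    rw [← Finite.one_lt_card_iff_nontrivial]
    have := Subgroup.card_le_card_group (stabilizer Γ x0)
    omega
  have hUall : ∀ x, M.U x = ⊥ := by
    intro x
    by_contra h
    exact hp (M.dvd_of_U_ne_bot h)
  have key : ∀ z : X, Nat.card (orbit Γ z) ≤ 2 → False := by
    intro z hz
    have hidx : (stabilizer Γ z).index ≤ 2 := by
      rw [MulAction.index_stabilizer]
      rwa [Nat.card_coe_set_eq] at hz
    have hex : ∀ c ∈ orbit Γ x0, ∃ g : Γ, g ≠ 1 ∧ g • z = z ∧ g • c = c := by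
      rintro c ⟨h, rfl⟩
      have h1 := card_inf_ge (stabilizer Γ z) (stabilizer Γ (h • x0))
      have h2 : Nat.card (stabilizer Γ (h • x0)) = Nat.card (stabilizer Γ x0) :=
        Nat.card_congr (MulAction.stabilizerEquivStabilizer (rfl : h • x0 = h • x0)).symm.toEquiv
      have h3 : 1 < Nat.card (stabilizer Γ z ⊓ stabilizer Γ (h • x0) : Subgroup Γ) := by
        by_contra h4
        have h5 : Nat.card (stabilizer Γ z ⊓ stabilizer Γ (h • x0) : Subgroup Γ) ≤ 1 := by omega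
        have h6 : (stabilizer Γ z).index *
            Nat.card (stabilizer Γ z ⊓ stabilizer Γ (h • x0) : Subgroup Γ) ≤ 2 * 1 :=
          Nat.mul_le_mul hidx h5
        omega
      have h7 : (stabilizer Γ z ⊓ stabilizer Γ (h • x0) : Subgroup Γ) ≠ ⊥ :=
        (Subgroup.one_lt_card_iff_ne_bot _).1 h3
      obtain ⟨g, hg⟩ := Subgroup.ne_bot_iff_exists_ne_one.1 h7
      exact ⟨g.1, fun h => hg (Subtype.ext h), g.2.1, g.2.2⟩
    -- three points in the orbit
    have hfin := finite_orbit (Γ := Γ) x0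
    have h3 : 2 < (orbit Γ x0).ncard := by
      rw [← Nat.card_coe_set_eq]; omega
    obtain ⟨a, b, c, ha, hb, hc, hab, hac, hbc⟩ := (Set.two_lt_ncard_iff (Set.toFinite _)).1 h3
    obtain ⟨c1, hc1, c2, hc2, h12, hz1, hz2⟩ : ∃ c1 ∈ orbit Γ x0, ∃ c2 ∈ orbit Γ x0, c1 ≠ c2 ∧
        c1 ≠ z ∧ c2 ≠ z := by
      by_cases h1 : a = z
      · exact ⟨b, hb, c, hc, hbc, fun h => hab (h1.trans h.symm), fun h => hac (h1.trans h.symm)⟩
      · by_cases h2 : b = z
        · exact ⟨a, ha, c, hc, hac, h1, fun h => hbc (h2.trans h.symm)⟩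
        · exact ⟨a, ha, b, hb, hab, h1, h2⟩
    obtain ⟨g, hg1, hgz, hgc⟩ := hex c1 hc1
    obtain ⟨g', hg1', hgz', hgc'⟩ := hex c2 hc2
    have hcomm := comm_of_U_bot M (hUall z) hgz hgz'
    have h4 : g • g' • c1 = g' • c1 := by
      rw [← mul_smul, hcomm, mul_smul, hgc]
    by_cases h5 : g' • c1 = c1
    · exact hg1' (M.eq_one_of_three (Ne.symm hz1) (Ne.symm hz2) h12 hgz' h5 hgc')
    · refine hg1 (M.eq_one_of_three (Ne.symm hz1) (?_ : z ≠ g' • c1) (Ne.symm h5) hgz hgc h4)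
      intro h6
      rw [← hgz'] at h6
      exact hz1 (smul_left_cancel g' h6).symm
  rcases M.cases with ⟨z, hz⟩ | ⟨z, -, hz⟩ | ⟨-, h, -⟩ | ⟨-, h, -⟩ | ⟨-, h, -⟩ | ⟨z, hz, -⟩
  · exfalso
    refine key z ?_
    have : orbit Γ z = {z} := by
      ext y
      constructor
      · rintro ⟨g, rfl⟩; exact hz g
      · rintro rfl; exact mem_orbit_self _
    rw [this]
    simp
  · exact (key z (by rw [hz])).elim
  · exact Or.inl h
  · exact Or.inr (Or.inl h)
  · exact Or.inr (Or.inr h)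
  · exfalso
    rw [hUall z, Subgroup.card_bot] at hz
    omega

theorem mob_modular (M : Mob p Γ X K) (x0 : X) (hU : M.U x0 ≠ ⊥)
    (hN : 2 ≤ Nat.card (orbit Γ x0)) :
    Nat.card (orbit Γ x0) = Nat.card (M.U x0) + 1 ∨ (p = 2 ∧ Nat.card (M.U x0) = 2) ∨
      (p = 3 ∧ Nat.card Γ = 60) := by
  classical
  have hdvd := M.dvd_of_U_ne_bot hU
  have : Nontrivial Γ := by
    obtain ⟨u, hu⟩ := (M.U x0).ne_bot_iff_exists_ne_one.1 hU
    exact ⟨u, 1, fun h => hu (Subtype.ext h)⟩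
  rcases M.cases with ⟨z, hz⟩ | ⟨z, hUz, hz⟩ | ⟨h0, h, -⟩ | ⟨h0, h, -⟩ | ⟨h0, h, -⟩ | ⟨z, hz, hz'⟩
  · exfalso
    have hfin := finite_orbit (Γ := Γ) x0
    have h1 : 1 < (orbit Γ x0).ncard := by
      rw [← Nat.card_coe_set_eq]; omega
    obtain ⟨c, hc, hcz⟩ := (Set.one_lt_ncard_iff_nontrivial.1 h1).exists_ne z
    obtain ⟨h, rfl⟩ := hc
    have h2 : M.U (h • x0) ≠ ⊥ := by
      intro h3
      have := M.card_U_smul h x0
      rw [h3, Subgroup.card_bot] at this
      exact hU (Subgroup.card_eq_one.1 this.symm)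
    obtain ⟨u, hu⟩ := (M.U (h • x0)).ne_bot_iff_exists_ne_one.1 h2
    exact hcz (M.eq_of_mem_U u.2 (fun h => hu (Subtype.ext h)) (hz u)).symm
  · right; left
    have hidx : (stabilizer Γ z).index = 2 := by
      rw [MulAction.index_stabilizer]
      rwa [Nat.card_coe_set_eq] at hz
    have h1 := card_inf_ge (stabilizer Γ z) (M.U x0)
    have h2 : stabilizer Γ z ⊓ M.U x0 = ⊥ := by
      rw [eq_bot_iff]
      rintro u ⟨hu1, hu2⟩
      by_contra hu
      have h3 := M.eq_of_mem_U hu2 hu hu1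
      rw [h3] at hUz
      exact hU hUz
    rw [h2, Subgroup.card_bot, hidx] at h1
    have h3 := (Subgroup.one_lt_card_iff_ne_bot (M.U x0)).2 hU
    have h4 : Nat.card (M.U x0) = 2 := by omega
    refine ⟨?_, h4⟩
    obtain ⟨k, hk⟩ := IsPGroup.iff_card.1 (M.isPGroup_U x0)
    rw [h4] at hk
    have hd : p ∣ 2 := by
      rw [hk]
      apply dvd_pow_self
      rintro rfl
      norm_num at hk
    exact (Nat.prime_dvd_prime_iff_eq Fact.out Nat.prime_two).1 hd
  · rw [h] at hdvd; exact absurd hdvd h0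
  · rw [h] at hdvd; exact absurd hdvd h0
  · rw [h] at hdvd
    rcases h0 with h0 | h0
    · exact absurd hdvd h0
    · exact Or.inr (Or.inr ⟨h0, h⟩)
  · left
    have hUz : M.U z ≠ ⊥ := by
      intro h; rw [h, Subgroup.card_bot] at hz; omega
    obtain ⟨g, hg⟩ := M.exists_smul_eq hU hUz
    have h1 : orbit Γ z = orbit Γ x0 := by rw [← hg]; exact orbit_smul g x0
    rw [← h1, hz', ← hg, M.card_U_smul]

end Cfsg.Agent.H48.U3
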