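import Cfsg.Agent.H48.U3F
import Cfsg.Agent.H48.U3G
import Cfsg.Agent.Dk.Act

/-!
# The action on a nondegenerate plane
-/

set_option autoImplicit false
set_option linter.unusedSectionVars false

namespace Cfsg.Agent.H48.U3

open Finset Matrix Cfsg.Agent.Uni Cfsg.Agent.Dk
open LinearAlgebra.Projectivization Projectivization
open scoped MatrixGroups
open Cfsg.Agent.H81 (pt0 ptz)

attribute [local instance 10] pact

variable {F : Type*} [Field F] [Fintype F] {q : ℕ}

/-- stabilizer of the point `w` -/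
def Nw (w : Fin 3 → F) : Subgroup (SU 3 F q) where
  carrier := {g | ∃ c : F, c ≠ 0 ∧ act g w = c • w}
  one_mem' := ⟨1, one_ne_zero, by rw [act_one, one_smul]⟩
  mul_mem' := by
    rintro a b ⟨c, hc, h⟩ ⟨c', hc', h'⟩
    exact ⟨c' * c, mul_ne_zero hc' hc, by rw [act_mul, h', act_smul, h, smul_smul]⟩
  inv_mem' := by
    rintro a ⟨c, hc, h⟩
    exact ⟨c⁻¹, inv_ne_zero hc, inv_fix hc h⟩

variable {e w f : Fin 3 → F}

theorem perp_of_Nw (hF : Fintype.card F = q ^ 2) {g : SU 3 F q} (hg : g ∈ Nw w) {x : Fin 3 → F}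
    (hx : hermForm 3 F q x w = 0) : hermForm 3 F q (act g x) w = 0 := by
  obtain ⟨c, hc, h⟩ := hg
  have h1 : hermForm 3 F q (act g x) (act g w) = 0 := by rw [act_form, hx]
  rw [h, hermForm_smul_right] at h1
  exact (mul_eq_zero.1 h1).resolve_left (pow_ne_zero _ hc)

theorem plane_e (hF : Fintype.card F = q ^ 2) (B : HB q e w f) {g : SU 3 F q} (hg : g ∈ Nw w) :
    act g e = hermForm 3 F q (act g e) f • e + hermForm 3 F q (act g e) e • f := by
  conv_lhs => rw [B.expand hF (act g e), perp_of_Nw hF hg B.ew]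
  rw [zero_smul, add_zero]

theorem plane_f (hF : Fintype.card F = q ^ 2) (B : HB q e w f) {g : SU 3 F q} (hg : g ∈ Nw w) :
    act g f = hermForm 3 F q (act g f) f • e + hermForm 3 F q (act g f) e • f := by
  conv_lhs => rw [B.expand hF (act g f), perp_of_Nw hF hg B.fw]
  rw [zero_smul, add_zero]

/-- matrix on the plane -/
noncomputable def Rm (hF : Fintype.card F = q ^ 2) (B : HB q e w f) :
    (Nw w : Subgroup (SU 3 F q)) →* Matrix (Fin 2) (Fin 2) F where
  toFun g := !![hermForm 3 F q (act g.1 e) f, hermForm 3 F q (act g.1 f) f;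
    hermForm 3 F q (act g.1 e) e, hermForm 3 F q (act g.1 f) e]
  map_one' := by
    show !![hermForm 3 F q (act 1 e) f, hermForm 3 F q (act 1 f) f;
      hermForm 3 F q (act 1 e) e, hermForm 3 F q (act 1 f) e] = 1
    rw [act_one, act_one, B.ef, B.ff, B.ee, B.fe hF]
    ext i j; fin_cases i <;> fin_cases j <;> rfl
  map_mul' a b := by
    show !![hermForm 3 F q (act (a.1 * b.1) e) f, hermForm 3 F q (act (a.1 * b.1) f) f;
      hermForm 3 F q (act (a.1 * b.1) e) e, hermForm 3 F q (act (a.1 * b.1) f) e] = _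
    have h1 : act (a.1 * b.1) e = hermForm 3 F q (act b.1 e) f • act a.1 e +
        hermForm 3 F q (act b.1 e) e • act a.1 f := by
      rw [act_mul]
      conv_lhs => rw [plane_e hF B b.2]
      rw [act_add, act_smul, act_smul]
    have h2 : act (a.1 * b.1) f = hermForm 3 F q (act b.1 f) f • act a.1 e +
        hermForm 3 F q (act b.1 f) e • act a.1 f := by
      rw [act_mul]
      conv_lhs => rw [plane_f hF B b.2]
      rw [act_add, act_smul, act_smul]
    rw [h1, h2]
    simp only [hermForm_add_left, hermForm_smul_left]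
    ext i j
    fin_cases i <;> fin_cases j <;> simp [Matrix.mul_apply, Fin.sum_univ_two] <;> ring

/-- the homomorphism to `PGL₂` -/
noncomputable def ph (hF : Fintype.card F = q ^ 2) (B : HB q e w f) :
    (Nw w : Subgroup (SU 3 F q)) →* PGL(2, F) :=
  (ProjGenLinGroup.mk : GL (Fin 2) F →* PGL(2, F)).comp (Rm hF B).toHomUnits

variable {K : Type*} [Field K] [Algebra F K]

theorem toHomUnits_val (hF : Fintype.card F = q ^ 2) (B : HB q e w f)
    (g : (Nw w : Subgroup (SU 3 F q))) : ((Rm hF B).toHomUnits g).1 = Rm hF B g := rfl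

theorem ph_pt0_iff (hF : Fintype.card F = q ^ 2) (B : HB q e w f)
    (g : (Nw w : Subgroup (SU 3 F q))) :
    ph hF B g • pt0 K = pt0 K ↔ ∃ c : F, act g.1 e = c • e := by
  have h1 : ph hF B g • pt0 K = pt0 K ↔ hermForm 3 F q (act g.1 e) e = 0 :=
    mk_smul_pt0_iff ((Rm hF B).toHomUnits g)
  rw [h1]
  constructor
  · intro h
    have := plane_e hF B g.2
    rw [h, zero_smul, add_zero] at this
    exact ⟨_, this⟩
  · rintro ⟨c, hc⟩
    rw [hc, hermForm_smul_left, B.ee, mul_zero]

theorem ph_pt0_ptz_iff (hF : Fintype.card F = q ^ 2) (B : HB q e w f)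
    (g : (Nw w : Subgroup (SU 3 F q))) (z : F) :
    ph hF B g • pt0 K = ptz K (algebraMap F K z) ↔ ∃ c : F, act g.1 e = c • (z • e + f) := by
  have h1 : ph hF B g • pt0 K = ptz K (algebraMap F K z) ↔
      algebraMap F K (hermForm 3 F q (act g.1 e) f) =
        algebraMap F K z * algebraMap F K (hermForm 3 F q (act g.1 e) e) :=
    mk_smul_pt0_ptz_iff ((Rm hF B).toHomUnits g) _
  rw [h1, ← map_mul, (algebraMap F K).injective.eq_iff]
  constructor
  · intro h
    refine ⟨hermForm 3 F q (act g.1 e) e, ?_⟩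
    conv_lhs => rw [plane_e hF B g.2, h]
    module
  · rintro ⟨c, hc⟩
    rw [hc]
    simp only [hermForm_smul_left, hermForm_add_left, B.ef, B.ff, B.ee, B.fe hF]
    ring

theorem ph_ptz_ptz_iff (hF : Fintype.card F = q ^ 2) (B : HB q e w f)
    (g : (Nw w : Subgroup (SU 3 F q))) (z z' : F) :
    ph hF B g • ptz K (algebraMap F K z) = ptz K (algebraMap F K z') ↔
      ∃ c : F, act g.1 (z • e + f) = c • (z' • e + f) := by
  have h1 : ph hF B g • ptz K (algebraMap F K z) = ptz K (algebraMap F K z') ↔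
      algebraMap F K (hermForm 3 F q (act g.1 e) f) * algebraMap F K z +
        algebraMap F K (hermForm 3 F q (act g.1 f) f) = algebraMap F K z' *
        (algebraMap F K (hermForm 3 F q (act g.1 e) e) * algebraMap F K z +
          algebraMap F K (hermForm 3 F q (act g.1 f) e)) :=
    mk_smul_ptz_iff ((Rm hF B).toHomUnits g) _ _
  rw [h1, ← map_mul, ← map_add, ← map_mul, ← map_add, ← map_mul,
    (algebraMap F K).injective.eq_iff]
  constructor
  · intro h
    refine ⟨hermForm 3 F q (act g.1 e) e * z + hermForm 3 F q (act g.1 f) e, ?_⟩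
    rw [act_add, act_smul]
    conv_lhs => rw [plane_e hF B g.2, plane_f hF B g.2]
    have h3 : hermForm 3 F q (act g.1 f) f = z' *
        (hermForm 3 F q (act g.1 e) e * z + hermForm 3 F q (act g.1 f) e) -
        hermForm 3 F q (act g.1 e) f * z := by linear_combination h
    rw [h3]
    module
  · rintro ⟨c, hc⟩
    rw [act_add, act_smul] at hc
    have h2 := congrArg (fun t => hermForm 3 F q t f) hc
    have h3 := congrArg (fun t => hermForm 3 F q t e) hc
    simp only [hermForm_smul_left, hermForm_add_left, B.ef, B.ff, B.ee, B.fe hF] at h2 h3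
    linear_combination h2 - z' * h3

theorem ph_eq_one_iff (hF : Fintype.card F = q ^ 2) (B : HB q e w f)
    (g : (Nw w : Subgroup (SU 3 F q))) :
    ph hF B g = 1 ↔ ∃ c : F, act g.1 e = c • e ∧ act g.1 f = c • f := by
  have h1 : ph hF B g = 1 ↔ hermForm 3 F q (act g.1 e) e = 0 ∧
      hermForm 3 F q (act g.1 f) f = 0 ∧
      hermForm 3 F q (act g.1 f) e = hermForm 3 F q (act g.1 e) f :=
    mk_eq_one_iff (g := (Rm hF B).toHomUnits g)
  rw [h1]
  constructor
  · rintro ⟨h2, h3, h4⟩
    refine ⟨hermForm 3 F q (act g.1 e) f, ?_, ?_⟩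
    · conv_lhs => rw [plane_e hF B g.2, h2]
      rw [zero_smul, add_zero]
    · conv_lhs => rw [plane_f hF B g.2, h3, h4]
      rw [zero_smul, zero_add]
  · rintro ⟨c, h2, h3⟩
    rw [h2, h3]
    simp [hermForm_smul_left, B.ef, B.ff, B.ee, B.fe hF]

/-- the isotropic points of the plane -/
def Lp (F K : Type*) [Field F] [Field K] [Algebra F K] (q : ℕ) : Set (ℙ K (Fin 2 → K)) :=
  {x | x = pt0 K ∨ ∃ a : F, a + a ^ q = 0 ∧ x = ptz K (algebraMap F K a)}

theorem card_skew (hF : Fintype.card F = q ^ 2) : Nat.card {a : F // a + a ^ q = 0} = q := by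
  obtain ⟨s, hs0, hs⟩ := exists_skew hF
  have key : Nat.card {a : F // a + a ^ q = 0} = Nat.card {c : F // c ^ q = c} := by
    refine Nat.card_congr ⟨fun a => ⟨a.1 / s, ?_⟩, fun c => ⟨c.1 * s, ?_⟩, ?_, ?_⟩
    · rw [div_pow, hs, eq_neg_of_add_eq_zero_right a.2, neg_div_neg_eq]
    · rw [mul_pow, c.2, hs]; ring
    · intro a; exact Subtype.ext (div_mul_cancel₀ _ hs0)
    · intro a; exact Subtype.ext (mul_div_cancel_right₀ _ hs0)
  rw [key, card_fixed hF]

theorem card_Lp (hF : Fintype.card F = q ^ 2) : Nat.card (Lp F K q) = q + 1 := by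
  have h1 : Nat.card (Option {a : F // a + a ^ q = 0}) = q + 1 := by
    rw [Finite.card_option, card_skew hF]
  rw [← h1]
  symm
  refine Nat.card_eq_of_bijective (f := fun o : Option {a : F // a + a ^ q = 0} => match o with
    | none => ⟨pt0 K, Or.inl rfl⟩
    | some a => ⟨ptz K (algebraMap F K a.1), Or.inr ⟨a.1, a.2, rfl⟩⟩) ⟨?_, ?_⟩
  · rintro (_ | a) (_ | b) h
    · rfl
    · exact absurd (congrArg (fun s : Lp F K q => (s : ℙ K (Fin 2 → K))) h) (H81.pt0_ne_ptz _)
    · exact absurd (congrArg (fun s : Lp F K q => (s : ℙ K (Fin 2 → K))) h).symm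
        (H81.pt0_ne_ptz _)
    · have h2 : ptz K (algebraMap F K a.1) = ptz K (algebraMap F K b.1) :=
        congrArg (fun s : Lp F K q => (s : ℙ K (Fin 2 → K))) h
      rw [ptz_eq_iff] at h2
      rw [Subtype.ext ((algebraMap F K).injective h2)]
  · rintro ⟨x, rfl | ⟨a, ha, rfl⟩⟩
    · exact ⟨none, rfl⟩
    · exact ⟨some ⟨a, ha⟩, rfl⟩

/-- the isotropic vectors of the plane -/
theorem iso_vec (hF : Fintype.card F = q ^ 2) (B : HB q e w f) {a : F} (ha : a + a ^ q = 0) :
    hermForm 3 F q (a • e + f) (a • e + f) = 0 ∧ a • e + f ≠ 0 := by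
  refine ⟨?_, ?_⟩
  · simp only [hermForm_add_left, hermForm_add_right hF, hermForm_smul_left, hermForm_smul_right,
      B.ef, B.ff, B.ee, B.fe hF]
    linear_combination ha
  · intro h
    have := congrArg (fun t => hermForm 3 F q t e) h
    simp only [hermForm_smul_left, hermForm_add_left, B.ee, B.fe hF, hermForm_zero_left] at this
    simp at this

theorem ph_smul_pt0_mem (hF : Fintype.card F = q ^ 2) (B : HB q e w f)
    (g : (Nw w : Subgroup (SU 3 F q))) : ph hF B g • pt0 K ∈ Lp F K q := by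
  have h1 := plane_e hF B g.2
  set a := hermForm 3 F q (act g.1 e) f
  set b := hermForm 3 F q (act g.1 e) e
  by_cases hb : b = 0
  · left
    rw [ph_pt0_iff]
    refine ⟨a, ?_⟩
    rw [h1, hb, zero_smul, add_zero]
  · right
    refine ⟨a / b, ?_, ?_⟩
    · have h2 : hermForm 3 F q (act g.1 e) (act g.1 e) = 0 := by rw [act_form, B.ee]
      rw [h1] at h2
      simp only [hermForm_add_left, hermForm_add_right hF, hermForm_smul_left,
        hermForm_smul_right, B.ef, B.ff, B.ee, B.fe hF] at h2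
      have h3 : a * b ^ q + a ^ q * b = 0 := by linear_combination h2
      rw [div_pow]
      have hbq : b ^ q ≠ 0 := pow_ne_zero _ hb
      field_simp
      linear_combination h3
    · rw [ph_pt0_ptz_iff]
      refine ⟨b, ?_⟩
      rw [h1, smul_add, smul_smul, mul_div_cancel₀ _ hb]

end Cfsg.Agent.H48.U3
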