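import Cfsg.Agent.H48.U3H

/-!
# Transvections in a transitive subgroup
-/

set_option autoImplicit false
set_option linter.unusedSectionVars false

namespace Cfsg.Agent.H48.U3

open Finset Matrix Cfsg.Agent.Uni Cfsg.Agent.Dk
open LinearAlgebra.Projectivization Projectivization
open scoped MatrixGroups
open Cfsg.Agent.H81 (pt0 ptz)

attribute [local instance 10] pact

variable {F : Type*} [Field F] [Fintype F] {q : ℕ}

variable {e w f : Fin 3 → F}

/-- stabilizer of the vector `w` in `M` -/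
def Cw (w : Fin 3 → F) (M : Subgroup (SU 3 F q)) : Subgroup (SU 3 F q) := Qe w M

theorem Cw_le (M : Subgroup (SU 3 F q)) : Cw w M ≤ Nw w := fun g hg =>
  ⟨1, one_ne_zero, by rw [hg.2, one_smul]⟩

theorem PU.isEich (hF : Fintype.card F = q ^ 2) (B : HB q e w f) {g : SU 3 F q} {z : F}
    (h : PU e w f g 0 z) : IsEich g e 0 z := by
  rw [isEich_zero_iff hF]
  intro x
  have hw := h.hw
  have hf := h.hf
  rw [zero_pow_q hF, zero_smul, sub_zero] at hw
  rw [zero_smul, add_zero] at hf
  conv_lhs => rw [B.expand hF x]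
  rw [act_add, act_add, act_smul, act_smul, act_smul, h.he, hw, hf]
  conv_rhs => rw [B.expand hF x]
  simp only [hermForm_add_left, hermForm_smul_left, B.ee, B.we hF, B.fe hF]
  module

theorem PU.pow_zero (hF : Fintype.card F = q ^ 2) {g : SU 3 F q} {z : F}
    (h : PU e w f g 0 z) (n : ℕ) : PU e w f (g ^ n) 0 (n * z) := by
  induction n with
  | zero => simpa using PU.one hF
  | succ n ih =>
    have := ih.mul hF h
    rw [pow_succ]
    convert this using 1
    · ring
    · push_cast; rw [mul_zero]; ring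

theorem PU.pow_char (hF : Fintype.card F = q ^ 2) (B : HB q e w f) {p : ℕ} [CharP F p]
    {g : SU 3 F q} {z : F} (h : PU e w f g 0 z) : g ^ p = 1 := by
  have h1 := h.pow_zero hF p
  rw [CharP.cast_eq_zero, zero_mul] at h1
  exact PU.unique hF B h1 (PU.one hF)

/-- a transvection in `M` with arbitrary centre -/
theorem exists_transv_at (hF : Fintype.card F = q ^ 2) (B : HB q e w f)
    {p : ℕ} [CharP F p] {M : Subgroup (SU 3 F q)}
    (hM : ∀ x y : IsoPt F q, ∃ m ∈ M, m • x = y) (hA : Az hF e w f M ≠ ⊥) {v : Fin 3 → F}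
    (hv0 : v ≠ 0) (hv : hermForm 3 F q v v = 0) : ∃ t ∈ M, t ≠ 1 ∧ t ^ p = 1 ∧ act t v = v ∧
      ∃ s : F, ∀ x, act t x = x + (s * hermForm 3 F q x v) • v := by
  obtain ⟨z, hz⟩ := (AddSubgroup.ne_bot_iff_exists_ne_zero).1 hA
  obtain ⟨g, hg, hP⟩ := z.2
  have hz0 : (z : F) ≠ 0 := fun h => hz (Subtype.ext h)
  have hg1 : g ≠ 1 := by
    rintro rfl
    have := hP.z_eq hF B
    rw [act_one, B.ff] at this
    exact hz0 this.symm
  obtain ⟨m, hm, h1⟩ := hM (mkPt e B.e_ne B.ee) (mkPt v hv0 hv)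
  rw [smul_mkPt, mkPt_eq_iff] at h1
  obtain ⟨d, hd, h2⟩ := h1
  have hE := (hP.isEich hF B).conj m
  rw [act_zero, h2, isEich_zero_iff hF] at hE
  refine ⟨m * g * m⁻¹, M.mul_mem (M.mul_mem hm hg) (M.inv_mem hm), ?_, ?_, ?_, z * d ^ q * d, ?_⟩
  · rwa [Ne, conj_eq_one_iff]
  · rw [conj_pow, hP.pow_char hF B (p := p)]; group
  · rw [hE, hermForm_smul_right, hv]; simp
  · intro x
    rw [hE, hermForm_smul_right, smul_smul]
    congr 2
    ring

section

variable (hF : Fintype.card F = q ^ 2) (B : HB q e w f) (M : Subgroup (SU 3 F q))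

/-- the homomorphism on `Cw` -/
noncomputable def phC : Cw w M →* PGL(2, F) := (ph hF B).comp (Subgroup.inclusion (Cw_le M))

/-- the group induced on the line -/
noncomputable abbrev GaC : Subgroup PGL(2, F) := (phC hF B M).range

end

instance finGa (hF : Fintype.card F = q ^ 2) (B : HB q e w f) (M : Subgroup (SU 3 F q)) :
    Finite (GaC hF B M) :=
  Finite.of_surjective (phC hF B M).rangeRestrict (phC hF B M).rangeRestrict_surjective

theorem skew_unit {x : F} {q : ℕ} (h : x + x ^ q = 0) : x ^ q = -x :=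
  eq_neg_of_add_eq_zero_right h

section

variable {p : ℕ} [hp : Fact p.Prime] [CharP F p]
variable {K : Type*} [Field K] [Algebra F K] [CharP K p] [IsAlgClosed K]

/-- mobius structure -/
theorem mobC (hF : Fintype.card F = q ^ 2) (B : HB q e w f) (M : Subgroup (SU 3 F q)) :
    Mob p (GaC hF B M) (ℙ K (Fin 2 → K)) K := (mobF (F := F)).subgroup _

theorem U_pt_ne_bot (hF : Fintype.card F = q ^ 2) (B : HB q e w f) (M : Subgroup (SU 3 F q))
    (hM : ∀ x y : IsoPt F q, ∃ m ∈ M, m • x = y) (hA : Az hF e w f M ≠ ⊥)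
    {x : ℙ K (Fin 2 → K)} (hx : x ∈ Lp F K q) : (mobC (p := p) hF B M).U x ≠ ⊥ := by
  obtain ⟨v, hv0, hv, hvw, hvx⟩ : ∃ v : Fin 3 → F, v ≠ 0 ∧ hermForm 3 F q v v = 0 ∧
      (∃ a b : F, v = a • e + b • f) ∧ ∀ g : (Nw w : Subgroup (SU 3 F q)), act g.1 v = v →
        ph hF B g • x = x := by
    rcases hx with rfl | ⟨a, ha, rfl⟩
    · exact ⟨e, B.e_ne, B.ee, ⟨1, 0, by simp⟩, fun g hg => (ph_pt0_iff hF B g).2
        ⟨1, by rw [hg, one_smul]⟩⟩
    · obtain ⟨h1, h2⟩ := iso_vec hF B ha
      exact ⟨_, h2, h1, ⟨a, 1, by simp⟩, fun g hg => (ph_ptz_ptz_iff hF B g _ _).2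
        ⟨1, by rw [hg, one_smul]⟩⟩
  obtain ⟨t, htM, ht1, htp, htv, s, hts⟩ := exists_transv_at (p := p) hF B hM hA hv0 hv
  have htw : act t w = w := by
    obtain ⟨a, b, rfl⟩ := hvw
    rw [hts, hermForm_add_right hF, hermForm_smul_right, hermForm_smul_right, B.we hF, B.wf hF]
    simp
  let t' : Cw w M := ⟨t, htM, htw⟩
  let γ : GaC hF B M := ⟨phC hF B M t', t', rfl⟩
  have hγx : γ • x = x := hvx _ htv
  have hγp : γ ^ p ^ 1 = 1 := by
    apply Subtype.ext
    show (phC hF B M t') ^ p ^ 1 = 1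
    rw [pow_one, ← map_pow]
    have : t' ^ p = 1 := Subtype.ext htp
    rw [this, map_one]
  have hγ1 : γ ≠ 1 := by
    intro h
    have h1 : ph hF B (Subgroup.inclusion (Cw_le M) t') = 1 := congrArg Subtype.val h
    rw [ph_eq_one_iff] at h1
    obtain ⟨c, h2, h3⟩ := h1
    have h2 : act t e = c • e := h2
    have h3 : act t f = c • f := h3
    have h4 : act t v = c • v := by
      obtain ⟨a, b, rfl⟩ := hvw
      rw [act_add, act_smul, act_smul, h2, h3]; module
    have hc : c = 1 := by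
      rw [htv] at h4
      have h5 : (c - 1) • v = 0 := by rw [sub_smul, one_smul, ← h4, sub_self]
      rcases smul_eq_zero.1 h5 with h6 | h6
      · exact sub_eq_zero.1 h6
      · exact absurd h6 hv0
    apply ht1
    apply B.ext_act hF
    · rw [h2, hc, one_smul, act_one]
    · rw [htw, act_one]
    · rw [h3, hc, one_smul, act_one]
  intro hb
  have := (mobC (p := p) (K := K) hF B M).mem_U_of_pow hγx hγp
  rw [hb] at this
  exact hγ1 this

include p in
theorem orbit_eq_Lp (hF : Fintype.card F = q ^ 2) (B : HB q e w f) (M : Subgroup (SU 3 F q))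
    (hM : ∀ x y : IsoPt F q, ∃ m ∈ M, m • x = y) (hA : Az hF e w f M ≠ ⊥) :
    MulAction.orbit (GaC hF B M) (pt0 K) = Lp F K q := by
  have hU : ∀ {x : ℙ K (Fin 2 → K)}, x ∈ Lp F K q → (mobC (p := p) hF B M).U x ≠ ⊥ :=
    fun hx => U_pt_ne_bot hF B M hM hA hx
  ext x
  constructor
  · rintro ⟨⟨γ, c, rfl⟩, rfl⟩
    exact ph_smul_pt0_mem hF B (Subgroup.inclusion (Cw_le M) c)
  · intro hx
    obtain ⟨γ, hγ⟩ := (mobC (p := p) (K := K) hF B M).exists_smul_eq (hU (Or.inl rfl)) (hU hx)
    exact ⟨γ, hγ⟩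

theorem card_U_pt0 (hF : Fintype.card F = q ^ 2) (B : HB q e w f) (M : Subgroup (SU 3 F q)) :
    Nat.card ((mobC (p := p) (K := K) hF B M).U (pt0 K)) = Nat.card (Az hF e w f M) := by
  symm
  have hC : ∀ z : Az hF e w f M, z.2.choose ∈ Cw w M := fun z =>
    ⟨z.2.choose_spec.1, by
      rw [z.2.choose_spec.2.hw, zero_pow_q hF, zero_smul, sub_zero]⟩
  have key : ∀ z : Az hF e w f M, (⟨phC hF B M ⟨_, hC z⟩, ⟨_, rfl⟩⟩ : GaC hF B M) ∈
      (mobC (p := p) (K := K) hF B M).U (pt0 K) := by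
    intro z
    refine (mobC (p := p) (K := K) hF B M).mem_U_of_pow (k := 1) ?_ ?_
    · exact (ph_pt0_iff hF B _).2 ⟨1, by
        rw [one_smul]; exact z.2.choose_spec.2.he⟩
    · apply Subtype.ext
      show (phC hF B M ⟨_, hC z⟩) ^ p ^ 1 = 1
      rw [pow_one, ← map_pow]
      have : (⟨_, hC z⟩ : Cw w M) ^ p = 1 := Subtype.ext (z.2.choose_spec.2.pow_char hF B)
      rw [this, map_one]
  refine Nat.card_eq_of_bijective (f := fun z => ⟨_, key z⟩) ⟨?_, ?_⟩
  · intro z z' h
    have h1 : phC hF B M ⟨_, hC z⟩ = phC hF B M ⟨_, hC z'⟩ :=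
      congrArg (fun t => (((t : (mobC (p := p) (K := K) hF B M).U (pt0 K)) : GaC hF B M) :
        PGL(2, F))) h
    have h2 : phC hF B M (⟨_, hC z⟩⁻¹ * ⟨_, hC z'⟩) = 1 := by
      rw [map_mul, map_inv, h1, inv_mul_cancel]
    obtain ⟨c, h3, h4⟩ := (ph_eq_one_iff hF B _).1 h2
    set g := z.2.choose
    set g' := z'.2.choose
    have hg := z.2.choose_spec.2
    have hg' := z'.2.choose_spec.2
    have h3 : act (g⁻¹ * g') e = c • e := h3
    have h4 : act (g⁻¹ * g') f = c • f := h4
    have h5 := (hg.inv hF).mul hF hg'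
    rw [h5.he] at h3
    have hc : c = 1 := by
      have h5 : (c - 1) • e = 0 := by rw [sub_smul, one_smul, ← h3, sub_self]
      rcases smul_eq_zero.1 h5 with h6 | h6
      · exact sub_eq_zero.1 h6
      · exact absurd h6 B.e_ne
    rw [hc, one_smul] at h4
    have h6 : act g f = act g' f := by
      have := congrArg (act g) h4
      rw [act_mul, act_act_inv] at this
      exact this.symm
    apply Subtype.ext
    rw [← hg.z_eq hF B, ← hg'.z_eq hF B]
    show hermForm 3 F q (act g f) f = hermForm 3 F q (act g' f) f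
    rw [h6]
  · rintro ⟨⟨γ, c, rfl⟩, hγ⟩
    obtain ⟨g, hgM, hgw⟩ := c
    have h1 := (mobC (p := p) (K := K) hF B M).smul_of_mem_U hγ
    obtain ⟨l, hl⟩ := (ph_pt0_iff hF B _).1 h1
    have hl : act g e = l • e := hl
    have h2 := (mobC (p := p) (K := K) hF B M).pow_of_mem_U hγ
    have h2' : (phC hF B M ⟨g, hgM, hgw⟩) ^ p = 1 := congrArg Subtype.val h2
    rw [← map_pow] at h2'
    obtain ⟨c, h3, h4⟩ := (ph_eq_one_iff hF B _).1 h2'
    have h3 : act (g ^ p) e = c • e := h3
    have h4 : act (g ^ p) f = c • f := h4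
    obtain ⟨hl0, m, s, n, y, t, h5, h6, h7, h8, -⟩ := borel hF B hl
    have hpow : ∀ k : ℕ, act (g ^ k) e = l ^ k • e := by
      intro k
      induction k with
      | zero => rw [pow_zero, pow_zero, act_one, one_smul]
      | succ k ih => rw [pow_succ, act_mul, hl, act_smul, ih, smul_smul, pow_succ, mul_comm]
    -- `l ^ (q+1) = 1`
    have hcl : c = l ^ p := by
      rw [hpow] at h3
      have h5 : (l ^ p - c) • e = 0 := by rw [sub_smul, h3, sub_self]
      rcases smul_eq_zero.1 h5 with h6 | h6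
      · exact (sub_eq_zero.1 h6).symm
      · exact absurd h6 B.e_ne
    have hN : c * c ^ q = 1 := by
      have : hermForm 3 F q (act (g ^ p) e) (act (g ^ p) f) = 1 := by rw [act_form, B.ef]
      rw [h3, h4, hermForm_smul_left, hermForm_smul_right, B.ef] at this
      linear_combination this
    have hNl : l * l ^ q = 1 := by
      have h9 : (l * l ^ q) ^ p = 1 := by
        rw [mul_pow, ← pow_mul, mul_comm q p, pow_mul, ← hcl]; exact hN
      have h10 : (l * l ^ q - 1) ^ p = 0 := by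
        rw [sub_pow_char, h9, one_pow, sub_self]
      exact sub_eq_zero.1 (pow_eq_zero_iff hp.out.ne_zero |>.1 h10)
    -- `l ^ q = l`
    have hm : m = 1 := by
      have := congrArg (fun t => hermForm 3 F q t w) h5
      simp only [hermForm_add_left, hermForm_smul_left, B.ww, B.ew] at this
      rw [hgw, B.ww] at this
      linear_combination -this
    rw [hm, one_mul] at h8
    rw [← h8] at hNl
    have hl2 : l ^ (p + 1) = 1 := by
      rcases hp.out.eq_two_or_odd' with h | h
      · have h9 : (l - 1) ^ p = 0 := by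
          rw [sub_pow_char, one_pow]
          have : l ^ p = 1 := by rw [h, sq]; exact hNl
          rw [this, sub_self]
        have h10 : l = 1 := sub_eq_zero.1 (pow_eq_zero_iff hp.out.ne_zero |>.1 h9)
        rw [h10, one_pow]
      · obtain ⟨k, hk⟩ := h
        have : p + 1 = 2 * (k + 1) := by omega
        rw [this, pow_mul, sq, hNl, one_pow]
    -- replace g by g ^ (p+1)
    have hg'e : act (g ^ (p + 1)) e = e := by rw [hpow, hl2, one_smul]
    have hg'w : act (g ^ (p + 1)) w = w := (Qe w M).pow_mem (⟨hgM, hgw⟩ : g ∈ Qe w M) (p + 1) |>.2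
    have hg'M : g ^ (p + 1) ∈ M := M.pow_mem hgM _
    have hPU := PU.of_fix hF B hg'e
    have hx : hermForm 3 F q (act (g ^ (p + 1)) f) w = 0 := by
      have : hermForm 3 F q (act (g ^ (p + 1)) f) (act (g ^ (p + 1)) w) = 0 := by
        rw [act_form, B.fw]
      rwa [hg'w] at this
    rw [hx] at hPU
    let z : Az hF e w f M := ⟨_, _, hg'M, hPU⟩
    refine ⟨z, ?_⟩
    apply Subtype.ext
    apply Subtype.ext
    show phC hF B M ⟨_, hC z⟩ = phC hF B M ⟨g, hgM, hgw⟩
    have h9 : z.2.choose = g ^ (p + 1) := PU.unique hF B z.2.choose_spec.2 hPU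
    have h10 : (⟨_, hC z⟩ : Cw w M) = ⟨g, hgM, hgw⟩ ^ (p + 1) := Subtype.ext h9
    rw [h10, map_pow, pow_succ, ← map_pow, h2', one_mul]

end

theorem eq_pow_of_dvd {p n k : ℕ} (hp : p.Prime) (h : n ∣ p ^ k) : ∃ j, n = p ^ j := by
  obtain ⟨j, -, hj⟩ := (Nat.dvd_prime_pow hp).1 h
  exact ⟨j, hj⟩

/-- **Case C.** The transvection part of a proper transitive subgroup. -/
theorem case_C (hF : Fintype.card F = q ^ 2) (hq : 3 ≤ q) (B : HB q e w f) {p : ℕ}
    [hp : Fact p.Prime] [hcp : CharP F p] {M : Subgroup (SU 3 F q)}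
    (hM : ∀ x y : IsoPt F q, ∃ m ∈ M, m • x = y) (hne : M ≠ ⊤) (hA : Az hF e w f M ≠ ⊥) :
    (p = 2 ∧ Nat.card (Az hF e w f M) = 2) ∨ (q = 9 ∧ p = 3 ∧ Nat.card (Az hF e w f M) = 3) := by
  classical
  have : CharP (AlgebraicClosure F) p :=
    charP_of_injective_algebraMap (algebraMap F (AlgebraicClosure F)).injective p
  set K := AlgebraicClosure F
  let MM := mobC (p := p) (K := K) hF B M
  have hU := U_pt_ne_bot (p := p) (K := K) hF B M hM hA (x := pt0 K) (Or.inl rfl)
  have horb := orbit_eq_Lp (p := p) (K := K) hF B M hM hA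
  have hcard : Nat.card (MulAction.orbit (GaC hF B M) (pt0 K)) = q + 1 := by
    rw [horb, card_Lp hF]
  have hcU := card_U_pt0 (p := p) (K := K) hF B M
  -- A is not full
  have hfull : Nat.card (Az hF e w f M) ≠ q := by
    intro h
    apply hne
    apply eq_top_of_full hF hq B hM
    let ι : Az hF e w f M → {a : F // a + a ^ q = 0} := fun z => ⟨z.1, Az_skew hF B z.2⟩
    have hinj : Function.Injective ι := fun a b hab =>
      Subtype.ext (congrArg (fun t : {a : F // a + a ^ q = 0} => (t : F)) hab)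
    have hbij : Function.Bijective ι := by
      rw [Nat.bijective_iff_injective_and_card]
      exact ⟨hinj, by rw [h, card_skew hF]⟩
    intro z hz
    obtain ⟨a, ha⟩ := hbij.2 ⟨z, hz⟩
    have : (a : F) = z := congrArg Subtype.val ha
    rw [← this]; exact a.2
  rcases mob_modular MM (pt0 K) hU (by rw [hcard]; omega) with h | ⟨h1, h2⟩ | ⟨h1, h2⟩
  · exfalso
    rw [hcard] at h
    apply hfull
    rw [← hcU]
    exact (Nat.succ_injective h).symm
  · left
    exact ⟨h1, by rw [← hcU]; exact h2⟩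
  · right
    obtain ⟨p', b, hp', hc', hb, hqb⟩ := q_prime_pow hF
    have hpp : p' = 3 := (CharP.eq F hc' hcp).trans h1
    subst hpp
    have h3 := (Subgroup.one_lt_card_iff_ne_bot _).2 hU
    rw [hcU] at h3
    obtain ⟨k, hk⟩ := IsPGroup.iff_card.1 (MM.isPGroup_U (pt0 K))
    have hk' : Nat.card (Az hF e w f M) = 3 ^ k := by rw [← hcU, ← h1]; exact hk
    have hd : Nat.card (Az hF e w f M) ∣ 60 := by
      rw [← h2, ← hcU]; exact Subgroup.card_subgroup_dvd_card _
    have hk1 : k = 1 := by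
      have hk0 : k ≠ 0 := by
        rintro rfl
        rw [hk'] at h3; norm_num at h3
      have hk2 : k < 2 := by
        by_contra hcon
        have : 3 ^ 2 ∣ 60 := (pow_dvd_pow 3 (by omega : 2 ≤ k)).trans (hk' ▸ hd)
        norm_num at this
      omega
    rw [hk1, pow_one] at hk'
    have horb' : q + 1 ∣ 60 := by
      rw [← hcard, ← h2]
      exact Dvd.intro _ (card_orbit_mul (Γ := GaC hF B M) (pt0 K))
    have hb2 : 2 ≤ b := by
      by_contra hcon
      have : b = 1 := by omega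
      rw [this, pow_one] at hqb
      exact hfull (by rw [hk', hqb])
    have hb3 : b < 4 := by
      by_contra hcon
      have h5 : 3 ^ 4 ≤ 3 ^ b := Nat.pow_le_pow_right (by norm_num) (by omega)
      have := Nat.le_of_dvd (by norm_num) horb'
      omega
    have : b = 2 ∨ b = 3 := by omega
    rcases this with rfl | rfl
    · exact ⟨by rw [hqb]; norm_num, h1, hk'⟩
    · rw [hqb] at horb'; norm_num at horb'

end Cfsg.Agent.H48.U3
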