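import Cfsg.Agent.H48.U3I

/-!
# Subgroups without transvections: centralizer of an involution
-/

set_option autoImplicit false
set_option linter.unusedSectionVars false

namespace Cfsg.Agent.H48.U3

open Finset Matrix Cfsg.Agent.Uni Cfsg.Agent.Dk
open LinearAlgebra.Projectivization Projectivization
open scoped MatrixGroups
open Cfsg.Agent.H81 (pt0 ptz)

attribute [local instance 10] pact

variable {F : Type*} [Field F] [Fintype F] {q : ℕ}

variable {e w f : Fin 3 → F}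

theorem card_addSubgroup_dvd (hF : Fintype.card F = q ^ 2) (V : AddSubgroup F) :
    Nat.card V ∣ q ^ 2 := by
  rw [← hF, ← Nat.card_eq_fintype_card]
  exact AddSubgroup.card_addSubgroup_dvd_card V

theorem odd_card_Qe (hF : Fintype.card F = q ^ 2) (B : HB q e w f) (hq : Odd q)
    (M : Subgroup (SU 3 F q)) : Odd (Nat.card (Qe e M)) := by
  rw [← card_Qe hF B]
  exact Nat.odd_mul.2 ⟨(hq.pow).of_dvd_nat (card_addSubgroup_dvd hF _),
    (hq.pow).of_dvd_nat (card_addSubgroup_dvd hF _)⟩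

/-- conjugacy of involutions of `M` acting as `-1` on `e` -/
theorem conj_invol (hF : Fintype.card F = q ^ 2) (B : HB q e w f) (hq : Odd q)
    {M : Subgroup (SU 3 F q)} {t t' : SU 3 F q} (ht : t ∈ M) (ht' : t' ∈ M) (h2 : t * t = 1)
    (h2' : t' * t' = 1) (he : act t e = -e) (he' : act t' e = -e) :
    ∃ r ∈ Qe e M, r * t * r⁻¹ = t' := by
  obtain ⟨k, hk⟩ := odd_card_Qe hF B hq M
  set s := t' * t with hs
  have hsQ : s ∈ Qe e M := by
    refine ⟨M.mul_mem ht' ht, ?_⟩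
    rw [hs, act_mul, he, act_neg, he', neg_neg]
  have hsn : s ^ Nat.card (Qe e M) = 1 := by
    have : (⟨s, hsQ⟩ : Qe e M) ^ Nat.card (Qe e M) = 1 := pow_card_eq_one'
    exact congrArg Subtype.val this
  have htinv : t⁻¹ = t := inv_eq_of_mul_eq_one_right h2
  have ht'inv : t'⁻¹ = t' := inv_eq_of_mul_eq_one_right h2'
  have hsinv : t * s * t⁻¹ = s⁻¹ := by
    rw [hs, _root_.mul_inv_rev, htinv, ht'inv, mul_assoc, mul_assoc, h2, mul_one]
  refine ⟨s ^ (k + 1), (Qe e M).pow_mem hsQ _, ?_⟩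
  have h3 : t * (s ^ (k + 1))⁻¹ * t⁻¹ = s ^ (k + 1) := by
    rw [← inv_pow, ← conj_pow]
    congr 1
    have h5 : t * s⁻¹ * t⁻¹ = (t * s * t⁻¹)⁻¹ := by group
    rw [h5, hsinv, inv_inv]
  have h4 : s ^ (k + 1) * t * (s ^ (k + 1))⁻¹ = s ^ (k + 1) * (t * (s ^ (k + 1))⁻¹ * t⁻¹) * t := by
    group
  rw [h4, h3, ← pow_add]
  have h5 : k + 1 + (k + 1) = Nat.card (Qe e M) + 1 := by omega
  rw [h5, pow_succ, hsn, one_mul, hs, mul_assoc, h2, mul_one]

/-- the centralizer of `t` in `M` -/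
def Ct (t : SU 3 F q) (M : Subgroup (SU 3 F q)) : Subgroup (SU 3 F q) :=
  M ⊓ Subgroup.centralizer {t}

/-- `t` is the involution attached to the basis -/
structure TI (e w f : Fin 3 → F) (t : SU 3 F q) : Prop where
  he : act t e = -e
  hw : act t w = w
  hf : act t f = -f

theorem TI.sq (hF : Fintype.card F = q ^ 2) (B : HB q e w f) {t : SU 3 F q} (T : TI e w f t) :
    t * t = 1 := by
  apply B.ext_act hF
  · rw [act_mul, T.he, act_neg, T.he, neg_neg, act_one]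
  · rw [act_mul, T.hw, T.hw, act_one]
  · rw [act_mul, T.hf, act_neg, T.hf, neg_neg, act_one]

theorem TI.fix (hF : Fintype.card F = q ^ 2) (B : HB q e w f) (h2 : (2 : F) ≠ 0) {t : SU 3 F q}
    (T : TI e w f t) {x : Fin 3 → F} (hx : act t x = x) : ∃ c : F, x = c • w := by
  refine ⟨hermForm 3 F q x w, ?_⟩
  have h1 : ∀ y, act t y = -y → hermForm 3 F q x y = 0 := by
    intro y hy
    have h3 : hermForm 3 F q (act t x) (act t y) = hermForm 3 F q x y := act_form _ _ _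
    rw [hx, hy, hermForm_neg_right hF] at h3
    have h4 : (2 : F) * hermForm 3 F q x y = 0 := by linear_combination -h3
    exact (mul_eq_zero.1 h4).resolve_left h2
  conv_lhs => rw [B.expand hF x, h1 f T.hf, h1 e T.he]
  simp

theorem Ct_le (hF : Fintype.card F = q ^ 2) (B : HB q e w f) (h2 : (2 : F) ≠ 0) {t : SU 3 F q}
    (T : TI e w f t) (M : Subgroup (SU 3 F q)) : Ct t M ≤ Nw w := by
  rintro g ⟨-, hg⟩
  have hg' : t * g = g * t := by
    have := Subgroup.mem_centralizer_iff.1 hg t rfl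
    exact this
  have h1 : act t (act g w) = act g w := by
    rw [← act_mul, hg', act_mul, T.hw]
  obtain ⟨c, hc⟩ := T.fix hF B h2 h1
  refine ⟨c, ?_, hc⟩
  rintro rfl
  rw [zero_smul] at hc
  exact act_ne_zero B.w_ne hc

theorem mem_Ct {t : SU 3 F q} {M : Subgroup (SU 3 F q)} {g : SU 3 F q} :
    g ∈ Ct t M ↔ g ∈ M ∧ g * t = t * g := by
  unfold Ct
  rw [Subgroup.mem_inf, Subgroup.mem_centralizer_iff]
  constructor
  · rintro ⟨h1, h2⟩
    exact ⟨h1, (h2 t rfl).symm⟩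
  · rintro ⟨h1, h2⟩
    exact ⟨h1, fun h hh => by rw [Set.mem_singleton_iff.1 hh]; exact h2.symm⟩

/-- surjectivity onto the eigenvalue group -/
theorem exists_Ct_La (hF : Fintype.card F = q ^ 2) (B : HB q e w f) (hq : Odd q)
    {M : Subgroup (SU 3 F q)} {t : SU 3 F q} (ht : t ∈ M) (T : TI e w f t) {l : Fˣ}
    (hl : l ∈ La e M) : ∃ g ∈ Ct t M, act g e = (l : F) • e := by
  obtain ⟨g, hg, hge⟩ := hl
  have h2 := T.sq hF B
  obtain ⟨r, hr, h3⟩ := conj_invol hF B hq (t := t) (t' := g * t * g⁻¹) ht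
    (M.mul_mem (M.mul_mem hg ht) (M.inv_mem hg)) h2 (by
      have : g * t * g⁻¹ * (g * t * g⁻¹) = g * (t * t) * g⁻¹ := by group
      rw [this, h2]; group) T.he (by
      rw [act_mul, act_mul, inv_fix l.ne_zero hge, act_smul, T.he, act_smul, act_neg, hge,
        smul_neg, smul_smul, inv_mul_cancel₀ l.ne_zero, one_smul])
  refine ⟨r⁻¹ * g, mem_Ct.2 ⟨M.mul_mem (M.inv_mem hr.1) hg, ?_⟩, ?_⟩
  · have h4 : r * t = g * t * g⁻¹ * r := by rw [← h3]; group
    have h5 : t = r⁻¹ * (g * t * g⁻¹) * r := by rw [← h3]; group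
    calc r⁻¹ * g * t = (r⁻¹ * (g * t * g⁻¹) * r) * (r⁻¹ * g) := by group
      _ = t * (r⁻¹ * g) := by rw [← h5]
  · rw [act_mul, hge, act_smul]
    congr 1
    exact ((Qe e M).inv_mem hr).2

/-- transitivity on the points of the line -/
theorem exists_Ct_pt (hF : Fintype.card F = q ^ 2) (B : HB q e w f) (hq : Odd q)
    {M : Subgroup (SU 3 F q)} (hM : ∀ x y : IsoPt F q, ∃ m ∈ M, m • x = y)
    {t : SU 3 F q} (ht : t ∈ M) (T : TI e w f t) {v : Fin 3 → F}
    (hv0 : v ≠ 0) (hv : hermForm 3 F q v v = 0) (htv : act t v = -v) :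
    ∃ g ∈ Ct t M, ∃ c : F, act g e = c • v := by
  obtain ⟨g, hg, h1⟩ := hM (mkPt e B.e_ne B.ee) (mkPt v hv0 hv)
  rw [smul_mkPt, mkPt_eq_iff] at h1
  obtain ⟨c, hc, hge⟩ := h1
  have h2 := T.sq hF B
  have hginv : act g⁻¹ v = c⁻¹ • e := by
    have : act g (c⁻¹ • e) = v := by rw [act_smul, hge, smul_smul, inv_mul_cancel₀ hc, one_smul]
    conv_lhs => rw [← this, act_inv_act]
  obtain ⟨r, hr, h3⟩ := conj_invol hF B hq (t := t) (t' := g⁻¹ * t * g) ht
    (M.mul_mem (M.mul_mem (M.inv_mem hg) ht) hg) h2 (by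
      have : g⁻¹ * t * g * (g⁻¹ * t * g) = g⁻¹ * (t * t) * g := by group
      rw [this, h2]; group) T.he (by
      rw [act_mul, act_mul, hge, act_smul, htv, act_smul, act_neg, hginv, smul_neg, smul_smul,
        mul_inv_cancel₀ hc, one_smul])
  refine ⟨g * r, mem_Ct.2 ⟨M.mul_mem hg hr.1, ?_⟩, c, ?_⟩
  · have h4 : r * t = g⁻¹ * t * g * r := by rw [← h3]; group
    calc g * r * t = g * (r * t) := by group
      _ = t * (g * r) := by rw [h4]; group
  · rw [act_mul, hr.2, hge]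

/-- the eigenvalue determines the element of `Ct` -/
theorem Ct_fix_eq_one (hF : Fintype.card F = q ^ 2) (B : HB q e w f) (h2 : (2 : F) ≠ 0)
    {M : Subgroup (SU 3 F q)} (hA : Az hF e w f M = ⊥) {t : SU 3 F q} (T : TI e w f t)
    {g : SU 3 F q} (hg : g ∈ Ct t M) (hge : act g e = e) : g = 1 := by
  obtain ⟨hgM, hgt⟩ := mem_Ct.1 hg
  obtain ⟨c, hc, hgw⟩ := Ct_le hF B h2 T M hg
  have hP := PU.of_fix hF B hge
  have hx : hermForm 3 F q (act g f) w = 0 :=
    perp_of_Nw hF (⟨c, hc, hgw⟩ : g ∈ Nw w) B.fw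
  rw [hx] at hP
  have hz : hermForm 3 F q (act g f) f ∈ Az hF e w f M := ⟨g, hgM, hP⟩
  rw [hA, AddSubgroup.mem_bot] at hz
  rw [hz] at hP
  exact PU.unique hF B hP (PU.one hF)

section

variable (hF : Fintype.card F = q ^ 2) (B : HB q e w f) (h2 : (2 : F) ≠ 0) {t : SU 3 F q}
  (T : TI e w f t) (M : Subgroup (SU 3 F q))

/-- the homomorphism on `Ct` -/
noncomputable def phT : Ct t M →* PGL(2, F) :=
  (ph hF B).comp (Subgroup.inclusion (Ct_le hF B h2 T M))

/-- the group induced on the line -/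
noncomputable abbrev GaT : Subgroup PGL(2, F) := (phT hF B h2 T M).range

instance finGaT : Finite (GaT hF B h2 T M) :=
  Finite.of_surjective (phT hF B h2 T M).rangeRestrict (phT hF B h2 T M).rangeRestrict_surjective

end

variable {K : Type*} [Field K] [Algebra F K]

theorem orbit_eq_LpT (hF : Fintype.card F = q ^ 2) (B : HB q e w f) (hq : Odd q)
    (h2 : (2 : F) ≠ 0) {M : Subgroup (SU 3 F q)}
    (hM : ∀ x y : IsoPt F q, ∃ m ∈ M, m • x = y)
    {t : SU 3 F q} (ht : t ∈ M) (T : TI e w f t) :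
    MulAction.orbit (GaT hF B h2 T M) (pt0 K) = Lp F K q := by
  ext x
  constructor
  · rintro ⟨⟨γ, c, rfl⟩, rfl⟩
    exact ph_smul_pt0_mem hF B (Subgroup.inclusion (Ct_le hF B h2 T M) c)
  · rintro (rfl | ⟨a, ha, rfl⟩)
    · exact MulAction.mem_orbit_self _
    · obtain ⟨h1, h0⟩ := iso_vec hF B ha
      obtain ⟨g, hg, c, hc⟩ := exists_Ct_pt hF B hq hM ht T h0 h1 (by
        rw [act_add, act_smul, T.he, T.hf]; module)
      refine ⟨⟨phT hF B h2 T M ⟨g, hg⟩, ⟨g, hg⟩, rfl⟩, ?_⟩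
      exact (ph_pt0_ptz_iff hF B (Subgroup.inclusion (Ct_le hF B h2 T M) ⟨g, hg⟩) a).2 ⟨c, hc⟩

/-- order of the stabilizer in the induced group -/
theorem card_stab_T (hF : Fintype.card F = q ^ 2) (B : HB q e w f) (hq : Odd q)
    (h2 : (2 : F) ≠ 0) {M : Subgroup (SU 3 F q)} (hA : Az hF e w f M = ⊥)
    {t : SU 3 F q} (ht : t ∈ M) (T : TI e w f t) : ∃ k0 : ℕ, Even k0 ∧
      k0 ≤ Nat.card {l : La e M // (l.1 : Fˣ) ^ (q + 1) = 1} ∧
      Nat.card (MulAction.stabilizer (GaT hF B h2 T M) (pt0 K)) * k0 = Nat.card (La e M) := by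
  -- the subgroup `D` of `Ct` fixing the point `e`
  let D : Subgroup (Ct t M) := (MulAction.stabilizer (SU 3 F q) (mkPt e B.e_ne B.ee)).subgroupOf _
  have hmemD : ∀ g : Ct t M, g ∈ D ↔ ∃ l : F, l ≠ 0 ∧ act g.1 e = l • e := fun g =>
    mem_stab_iff B
  let ψ : D →* PGL(2, F) := (phT hF B h2 T M).comp D.subtype
  have hl : ∀ g : D, hermForm 3 F q (act g.1.1 e) f ≠ 0 ∧
      act g.1.1 e = hermForm 3 F q (act g.1.1 e) f • e := by
    intro g
    obtain ⟨l, hl, h⟩ := (hmemD g.1).1 g.2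
    rw [h, hermForm_smul_left, B.ef, mul_one]
    exact ⟨hl, rfl⟩
  have hcD : Nat.card D = Nat.card (La e M) := by
    refine Nat.card_eq_of_bijective (f := fun g : D => (⟨Units.mk0 _ (hl g).1, g.1.1,
      (mem_Ct.1 g.1.2).1, (hl g).2⟩ : La e M)) ⟨?_, ?_⟩
    · intro a b hab
      have h1 : hermForm 3 F q (act a.1.1 e) f = hermForm 3 F q (act b.1.1 e) f :=
        congrArg (fun l : La e M => ((l : Fˣ) : F)) hab
      have h3 : act (b.1.1⁻¹ * a.1.1) e = e := by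
        rw [act_mul, (hl a).2, h1, ← (hl b).2, act_inv_act]
      have h4 := Ct_fix_eq_one hF B h2 hA T ((Ct t M).mul_mem ((Ct t M).inv_mem b.1.2) a.1.2) h3
      have h5 : a.1.1 = b.1.1 := (inv_mul_eq_one.1 h4).symm
      exact Subtype.ext (Subtype.ext h5)
    · rintro ⟨l, hlM⟩
      obtain ⟨g, hg, hge⟩ := exists_Ct_La hF B hq ht T hlM
      refine ⟨⟨⟨g, hg⟩, (hmemD _).2 ⟨l, l.ne_zero, hge⟩⟩, ?_⟩
      apply Subtype.ext
      apply Units.ext
      show hermForm 3 F q (act g e) f = l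
      rw [hge, hermForm_smul_left, B.ef, mul_one]
  have hrange : Nat.card ψ.range =
      Nat.card (MulAction.stabilizer (GaT hF B h2 T M) (pt0 K)) := by
    refine Nat.card_congr ⟨fun γ => ⟨⟨γ.1, ?_⟩, ?_⟩, fun γ => ⟨γ.1.1, ?_⟩, fun _ => rfl, fun _ => rfl⟩
    · obtain ⟨g, hg⟩ := γ.2
      exact ⟨g.1, hg⟩
    · obtain ⟨γ, g, rfl⟩ := γ
      have := (ph_pt0_iff (K := K) hF B (Subgroup.inclusion (Ct_le hF B h2 T M) g.1)).2
        ⟨_, (hl g).2⟩
      exact this
    · obtain ⟨⟨γ, g, rfl⟩, hγ⟩ := γ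
      have hγ' : ph hF B (Subgroup.inclusion (Ct_le hF B h2 T M) g) • pt0 K = pt0 K := hγ
      obtain ⟨c, hc⟩ := (ph_pt0_iff (K := K) hF B _).1 hγ'
      have hc : act g.1 e = c • e := hc
      refine ⟨⟨g, (hmemD g).2 ⟨c, ?_, hc⟩⟩, rfl⟩
      rintro rfl
      rw [zero_smul] at hc
      exact act_ne_zero B.e_ne hc
  have hmul := card_ker_mul_range ψ
  rw [hrange, hcD, mul_comm] at hmul
  refine ⟨Nat.card ψ.ker, ?_, ?_, hmul⟩
  · -- `t` is in the kernel
    have htC : t ∈ Ct t M := mem_Ct.2 ⟨ht, rfl⟩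
    have htD : (⟨t, htC⟩ : Ct t M) ∈ D := (hmemD _).2 ⟨-1, by simp, by rw [T.he, neg_smul, one_smul]⟩
    have htk : (⟨⟨t, htC⟩, htD⟩ : D) ∈ ψ.ker := by
      rw [MonoidHom.mem_ker]
      exact (ph_eq_one_iff hF B (Subgroup.inclusion (Ct_le hF B h2 T M) ⟨t, htC⟩)).2
        ⟨-1, by show act t e = _; rw [T.he, neg_smul, one_smul], by
          show act t f = _; rw [T.hf, neg_smul, one_smul]⟩
    let τ : ψ.ker := ⟨_, htk⟩
    have hτ2 : τ ^ 2 = 1 := by
      apply Subtype.ext; apply Subtype.ext; apply Subtype.ext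
      show t ^ 2 = 1
      rw [sq]; exact T.sq hF B
    have hτ1 : τ ≠ 1 := by
      intro h
      have h3 : t = 1 := congrArg (fun x : ψ.ker => (((x : D) : Ct t M) : SU 3 F q)) h
      have h4 := T.he
      rw [h3, act_one] at h4
      have h5 : (2 : F) • e = 0 := by
        rw [two_smul]
        nth_rewrite 2 [h4]
        exact add_neg_cancel e
      rcases smul_eq_zero.1 h5 with h6 | h6
      · exact h2 h6
      · exact B.e_ne h6
    have h7 := orderOf_dvd_natCard τ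
    rw [orderOf_eq_prime hτ2 hτ1] at h7
    exact even_iff_two_dvd.2 h7
  · have hlam : ∀ g : D, (Units.mk0 _ (hl g).1 : Fˣ) ∈ La e M := fun g =>
      ⟨g.1.1, (mem_Ct.1 g.1.2).1, (hl g).2⟩
    refine Nat.card_le_card_of_injective (fun g : ψ.ker =>
      (⟨⟨Units.mk0 _ (hl g.1).1, hlam g.1⟩, ?_⟩ : {l : La e M // (l.1 : Fˣ) ^ (q + 1) = 1})) ?_
    · have hk := (MonoidHom.mem_ker).1 g.2
      obtain ⟨c, h3, h4⟩ := (ph_eq_one_iff hF B
        (Subgroup.inclusion (Ct_le hF B h2 T M) g.1.1)).1 hk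
      have h3 : act g.1.1.1 e = c • e := h3
      have h4 : act g.1.1.1 f = c • f := h4
      apply Units.ext
      show hermForm 3 F q (act g.1.1.1 e) f ^ (q + 1) = 1
      rw [h3, hermForm_smul_left, B.ef, mul_one]
      have : hermForm 3 F q (act g.1.1.1 e) (act g.1.1.1 f) = 1 := by rw [act_form, B.ef]
      rw [h3, h4, hermForm_smul_left, hermForm_smul_right, B.ef] at this
      rw [pow_succ]
      linear_combination this
    · intro a b hab
      have h1 : hermForm 3 F q (act a.1.1.1 e) f = hermForm 3 F q (act b.1.1.1 e) f :=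
        congrArg (fun l : {l : La e M // (l.1 : Fˣ) ^ (q + 1) = 1} => ((l.1 : Fˣ) : F)) hab
      have h3 : act (b.1.1.1⁻¹ * a.1.1.1) e = e := by
        rw [act_mul, (hl a.1).2, h1, ← (hl b.1).2, act_inv_act]
      have h4 := Ct_fix_eq_one hF B h2 hA T
        ((Ct t M).mul_mem ((Ct t M).inv_mem b.1.1.2) a.1.1.2) h3
      have h5 : a.1.1.1 = b.1.1.1 := (inv_mul_eq_one.1 h4).symm
      exact Subtype.ext (Subtype.ext (Subtype.ext h5))

end Cfsg.Agent.H48.U3
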