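import Cfsg.Agent.Uni.Basic

/-!
# Arithmetic of the parameters
-/

set_option autoImplicit false
set_option linter.unusedSectionVars false

namespace Cfsg.Agent.H48.U3

open Finset Cfsg.Agent.Uni

variable {F : Type*} [Field F] [Fintype F] {q : ℕ}

/-- multiplicative stabilizer of an additive subgroup -/
def mst (V : AddSubgroup F) : Subgroup Fˣ where
  carrier := {u | ∀ x ∈ V, (u : F) * x ∈ V}
  one_mem' := fun x hx => by rwa [Units.val_one, one_mul]
  mul_mem' := by
    intro a b ha hb x hx
    rw [Units.val_mul, mul_assoc]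
    exact ha _ (hb _ hx)
  inv_mem' := by
    intro a ha x hx
    have h1 : ∀ n : ℕ, (a : F) ^ n * x ∈ V := by
      intro n
      induction n with
      | zero => rwa [pow_zero, one_mul]
      | succ n ih =>
        rw [pow_succ', mul_assoc]
        exact ha _ ih
    have h2 : a⁻¹ = a ^ (orderOf a - 1) := by
      rw [inv_eq_iff_mul_eq_one, ← pow_succ']
      have : 0 < orderOf a := orderOf_pos a
      rw [Nat.sub_add_cancel this, pow_orderOf_eq_one]
    rw [h2, Units.val_pow_eq_pow_val]
    exact h1 _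

theorem card_mst_lt {V : AddSubgroup F} (hV : V ≠ ⊥) : Nat.card (mst V) < Nat.card V := by
  classical
  obtain ⟨x, hx⟩ := (AddSubgroup.ne_bot_iff_exists_ne_zero).1 hV
  have hx0 : (x : F) ≠ 0 := fun h => hx (Subtype.ext h)
  have h1 : Nat.card (Option (mst V)) ≤ Nat.card V := by
    refine Nat.card_le_card_of_injective (fun o : Option (mst V) => match o with
      | none => (0 : V)
      | some u => ⟨(u.1 : F) * x, u.2 _ x.2⟩) ?_
    rintro (_ | a) (_ | b) h
    · rfl
    · have h3 : (0 : F) = (b.1 : F) * x := congrArg Subtype.val h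
      exact absurd h3.symm (mul_ne_zero b.1.ne_zero hx0)
    · have h3 : (a.1 : F) * x = 0 := congrArg Subtype.val h
      exact absurd h3 (mul_ne_zero a.1.ne_zero hx0)
    · have h3 : (a.1 : F) * x = (b.1 : F) * x := congrArg Subtype.val h
      have h4 := mul_right_cancel₀ hx0 h3
      rw [Subtype.ext (Units.ext h4)]
  rw [Finite.card_option] at h1
  omega

theorem card_le_of_pow {L : Subgroup Fˣ} {n : ℕ} (hn : 0 < n) (h : ∀ l ∈ L, l ^ n = 1) :
    Nat.card L ∣ n := by
  have h1 : L ≤ (powMonoidHom n : Fˣ →* Fˣ).ker := fun l hl => by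
    rw [MonoidHom.mem_ker]; exact h l hl
  have h2 := Subgroup.card_dvd_of_le h1
  refine h2.trans ?_
  rw [IsCyclic.card_powMonoidHom_ker]
  exact Nat.gcd_dvd_right _ _

theorem card_units' (hF : Fintype.card F = q ^ 2) : Nat.card Fˣ = q ^ 2 - 1 := by
  rw [card_units hF]
  have := Nat.sq_sub_sq q 1
  rw [one_pow] at this
  exact this.symm

theorem pow_card_units (hF : Fintype.card F = q ^ 2) (l : Fˣ) : l ^ (q ^ 2 - 1) = 1 := by
  rw [← card_units' hF]; exact pow_card_eq_one'

theorem pow_of_pow_two (hF : Fintype.card F = q ^ 2) {l : Fˣ} (h : l ^ (2 * q - 1) = 1) :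
    l ^ 3 = 1 := by
  have hq := two_le_q hF
  have h1 := pow_card_units hF l
  have h2 : l ^ (4 * (q ^ 2 - 1) + 3) = 1 := by
    have : 4 * (q ^ 2 - 1) + 3 = (2 * q - 1) * (2 * q + 1) := by
      have h3 : 1 ≤ q ^ 2 := Nat.one_le_pow _ _ (by omega)
      zify [h3, (show 1 ≤ 2 * q by omega)]
      ring
    rw [this, pow_mul, h, one_pow]
  rw [pow_add, mul_comm 4, pow_mul, h1, one_pow, one_mul] at h2
  exact h2

/-- data of the parameters -/
structure Par (q : ℕ) (L : Subgroup Fˣ) (V A : AddSubgroup F) : Prop where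
  hV : ∀ l ∈ L, ∀ x ∈ V, (l : F) ^ (2 * q - 1) * x ∈ V
  hA : ∀ l ∈ L, ∀ z ∈ A, (l : F) ^ (q + 1) * z ∈ A
  sk : ∀ z ∈ A, z + z ^ q = 0
  comm : ∀ x ∈ V, ∀ y ∈ V, y ^ q * x - x ^ q * y ∈ A
  sq : CharP F 2 → ∀ x ∈ V, x ^ (q + 1) ∈ A
  big : q ^ 2 - 1 ≤ Nat.card A * Nat.card V * Nat.card L

variable {L : Subgroup Fˣ} {V A : AddSubgroup F}

theorem Par.card_L_le (P : Par q L V A) (hF : Fintype.card F = q ^ 2) (hV : V ≠ ⊥) :
    Nat.card L < 3 * Nat.card V := by
  let ψ : L →* mst V :=
    { toFun := fun l => ⟨l.1 ^ (2 * q - 1), fun x hx => by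
        rw [Units.val_pow_eq_pow_val]; exact P.hV _ l.2 _ hx⟩
      map_one' := Subtype.ext (one_pow _)
      map_mul' := fun a b => Subtype.ext (mul_pow _ _ _) }
  have h1 : Nat.card ψ.ker ≤ 3 := by
    have h2 : Nat.card (ψ.ker.map L.subtype) = Nat.card ψ.ker :=
      Nat.card_congr (ψ.ker.equivMapOfInjective _ L.subtype_injective).symm.toEquiv
    rw [← h2]
    refine Nat.le_of_dvd (by norm_num) (card_le_of_pow (by norm_num) ?_)
    rintro _ ⟨l, hl, rfl⟩
    have h3 := MonoidHom.mem_ker.1 hl
    have h4 : (l : Fˣ) ^ (2 * q - 1) = 1 := congrArg Subtype.val h3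
    exact pow_of_pow_two hF h4
  have h2 : Nat.card ψ.ker * Nat.card ψ.range = Nat.card L := by
    rw [← Subgroup.index_ker, Subgroup.card_mul_index]
  have h3 : Nat.card ψ.range ≤ Nat.card (mst V) := Subgroup.card_le_card_group _
  have h4 := card_mst_lt hV
  calc Nat.card L = Nat.card ψ.ker * Nat.card ψ.range := h2.symm
    _ ≤ 3 * Nat.card (mst V) := Nat.mul_le_mul h1 h3
    _ < 3 * Nat.card V := by omega

/-- the multiples of `x` by the subfield -/
theorem card_le_of_line (hF : Fintype.card F = q ^ 2) {W : AddSubgroup F} {x : F} (hx : x ≠ 0)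
    (h : ∀ y ∈ W, (y / x) ^ q = y / x) : Nat.card W ≤ q := by
  rw [← card_fixed hF] 
  refine Nat.card_le_card_of_injective (fun y : W => (⟨y.1 / x, ?_⟩ : {c : F // c ^ _ = c})) ?_
  · exact h _ y.2
  · intro a b hab
    have h1 : (a : F) / x = (b : F) / x := congrArg Subtype.val hab
    apply Subtype.ext
    field_simp at h1
    exact h1

theorem card_pow {p b : ℕ} [hp : Fact p.Prime] (hF : Fintype.card F = (p ^ b) ^ 2)
    (W : AddSubgroup F) : ∃ j, Nat.card W = p ^ j := by
  have h1 : Nat.card W ∣ p ^ (b * 2) := by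
    rw [pow_mul, ← hF, ← Nat.card_eq_fintype_card]
    exact AddSubgroup.card_addSubgroup_dvd_card W
  obtain ⟨j, -, hj⟩ := (Nat.dvd_prime_pow hp.out).1 h1
  exact ⟨j, hj⟩

theorem Par.zero_case (P : Par q L V A) (hF : Fintype.card F = q ^ 2) (hq : 3 ≤ q)
    (hA : A = ⊥) : (V = ⊥ ∧ Nat.card L = q ^ 2 - 1) ∨ (Odd q ∧ Nat.card V = q ∧ 3 ∣ q + 1 ∧
      (Nat.card L = 3 * (q - 1) ∨ 2 * Nat.card L = 3 * (q - 1))) := by
  have hbig := P.big
  have hcA : Nat.card A = 1 := by rw [hA]; simp
  rw [hcA, one_mul] at hbig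
  by_cases hV : V = ⊥
  · left
    refine ⟨hV, ?_⟩
    have hcV : Nat.card V = 1 := by rw [hV]; simp
    rw [hcV, one_mul] at hbig
    have := Subgroup.card_le_card_group L
    rw [card_units' hF] at this
    omega
  · right
    obtain ⟨p, b, hp, hchar, hb, hqb⟩ := q_prime_pow hF
    have := Fact.mk hp
    obtain ⟨x0, hx0⟩ := (AddSubgroup.ne_bot_iff_exists_ne_zero).1 hV
    have hx00 : (x0 : F) ≠ 0 := fun h => hx0 (Subtype.ext h)
    have hp2 : p ≠ 2 := by
      rintro rfl
      have h1 := P.sq hchar x0 x0.2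
      rw [hA, AddSubgroup.mem_bot] at h1
      exact pow_ne_zero _ hx00 h1
    have hodd : Odd q := by
      rw [hqb]; exact (hp.odd_of_ne_two hp2).pow
    have hline : ∀ y ∈ V, (y / x0) ^ q = y / x0 := by
      intro y hy
      have h1 := P.comm x0 x0.2 y hy
      rw [hA, AddSubgroup.mem_bot] at h1
      rw [div_pow]
      have := pow_ne_zero q hx00
      field_simp
      linear_combination h1
    have hvq : Nat.card V ≤ q := card_le_of_line hF hx00 hline
    -- eigenvalues
    have hL3 : ∀ l ∈ L, l ^ (3 * (q - 1)) = 1 := by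
      intro l hl
      have h1 := hline _ (P.hV l hl _ x0.2)
      rw [mul_div_cancel_right₀ _ hx00] at h1
      have h2 : (l ^ (2 * q - 1)) ^ (q - 1) = 1 := by
        apply Units.ext
        rw [Units.val_pow_eq_pow_val, Units.val_pow_eq_pow_val, Units.val_one]
        exact (pow_pred_eq_one_iff hF (pow_ne_zero _ l.ne_zero)).2 h1
      rw [← pow_mul] at h2
      have h3 : l ^ ((2 * q - 1) * (q - 1) + 3 * (q - 1)) = 1 := by
        have : (2 * q - 1) * (q - 1) + 3 * (q - 1) = (q ^ 2 - 1) * 2 := by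
          have h3 : 1 ≤ q ^ 2 := Nat.one_le_pow _ _ (by omega)
          zify [h3, (show 1 ≤ 2 * q by omega), (show 1 ≤ q by omega)]
          ring
        rw [this, pow_mul, pow_card_units hF, one_pow]
      rw [pow_add, h2, one_mul] at h3
      exact h3
    have hLd : Nat.card L ∣ 3 * (q - 1) := card_le_of_pow (by omega) hL3
    have hLd2 : Nat.card L ∣ (q + 1) * (q - 1) := by
      rw [← card_units hF]; exact Subgroup.card_subgroup_dvd_card L
    have hLg : Nat.card L ∣ Nat.gcd 3 (q + 1) * (q - 1) := by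
      rw [← Nat.gcd_mul_right]
      exact Nat.dvd_gcd hLd hLd2
    have hqq : q ^ 2 - 1 = (q + 1) * (q - 1) := by
      have := Nat.sq_sub_sq q 1
      rwa [one_pow] at this
    have h3 : 3 ∣ q + 1 := by
      by_contra hcon
      have hg : Nat.gcd 3 (q + 1) = 1 := (Nat.Prime.coprime_iff_not_dvd Nat.prime_three).2 hcon
      rw [hg, one_mul] at hLg
      have h1 := Nat.le_of_dvd (by omega) hLg
      have h2 : Nat.card V * Nat.card L ≤ q * (q - 1) := Nat.mul_le_mul hvq h1
      have h3 : q * (q - 1) < (q + 1) * (q - 1) := Nat.mul_lt_mul_of_pos_right (by omega) (by omega)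
      omega
    -- |V| = q
    obtain ⟨j, hj⟩ := card_pow (p := p) (b := b) (by rw [← hqb]; exact hF) V
    have hvq' : Nat.card V = q := by
      by_contra hne
      have hlt : p ^ j < p ^ b := by rw [← hj, ← hqb]; omega
      have hjb : j < b := (Nat.pow_lt_pow_iff_right hp.one_lt).1 hlt
      have hp3 : 3 ≤ p := by
        have := hp.two_le; omega
      have h4 : 3 * Nat.card V ≤ q := by
        rw [hj, hqb]
        calc 3 * p ^ j ≤ p * p ^ j := Nat.mul_le_mul_right _ hp3
          _ = p ^ (j + 1) := by rw [pow_succ, mul_comm]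
          _ ≤ p ^ b := Nat.pow_le_pow_right hp.pos (by omega)
      have h5 := P.card_L_le hF hV
      have h6 : Nat.card V * Nat.card L ≤ Nat.card V * (3 * Nat.card V) :=
        Nat.mul_le_mul_left _ h5.le
      have h7 : 3 * (Nat.card V * (3 * Nat.card V)) ≤ q * q := by
        calc 3 * (Nat.card V * (3 * Nat.card V)) = (3 * Nat.card V) * (3 * Nat.card V) := by ring
          _ ≤ q * q := Nat.mul_le_mul h4 h4
      have h8 : q ^ 2 = q * q := pow_two q
      have h9 : 9 ≤ q * q := Nat.mul_le_mul hq hq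
      omega
    refine ⟨hodd, hvq', h3, ?_⟩
    rw [hvq', hqq] at hbig
    obtain ⟨k, hk⟩ := hLd
    have hLpos : 0 < Nat.card L := Nat.card_pos
    have hLq : q ≤ Nat.card L := by
      by_contra hcon
      have h4 : Nat.card L ≤ q - 1 := by omega
      have h5 : q * Nat.card L ≤ q * (q - 1) := Nat.mul_le_mul_left _ h4
      have h6 : q * (q - 1) < (q + 1) * (q - 1) := Nat.mul_lt_mul_of_pos_right (by omega) (by omega)
      omega
    have hk3 : k < 3 := by
      by_contra hcon
      have h4 : q * 3 ≤ Nat.card L * k := Nat.mul_le_mul hLq (by omega)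
      omega
    have hk0 : k ≠ 0 := by
      rintro rfl; omega
    rcases (show k = 1 ∨ k = 2 by omega) with rfl | rfl
    · left; omega
    · right; omega

theorem Par.two_case (P : Par q L V A) (hF : Fintype.card F = q ^ 2) (hq : 3 ≤ q)
    (hchar : CharP F 2) (hA : Nat.card A = 2) : q = 8 ∧ Nat.card V = 4 ∧ Nat.card L = 9 := by
  classical
  have hbig := P.big
  rw [hA] at hbig
  have hAne : A ≠ ⊥ := by
    rintro rfl
    simp at hA
  obtain ⟨a, ha⟩ := (AddSubgroup.ne_bot_iff_exists_ne_zero).1 hAne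
  have ha0 : (a : F) ≠ 0 := fun h => ha (Subtype.ext h)
  have hA2 : ∀ z ∈ A, z ≠ 0 → z = a := by
    intro z hz hz0
    have h1 := (Nat.card_eq_two_iff' (0 : A)).1 hA
    exact congrArg Subtype.val (h1.unique (y₁ := ⟨z, hz⟩) (y₂ := a)
      (fun h => hz0 (congrArg Subtype.val h)) ha)
  have hLn : ∀ l ∈ L, l ^ (q + 1) = 1 := by
    intro l hl
    have h1 := hA2 _ (P.hA l hl _ a.2) (mul_ne_zero (pow_ne_zero _ l.ne_zero) ha0)
    apply Units.ext
    rw [Units.val_pow_eq_pow_val, Units.val_one]
    exact mul_right_cancel₀ ha0 (by rw [h1, one_mul])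
  have hLd : Nat.card L ∣ q + 1 := card_le_of_pow (by omega) hLn
  have hnorm : ∀ x ∈ V, x ≠ 0 → x ^ (q + 1) = a := fun x hx hx0 =>
    hA2 _ (P.sq hchar x hx) (pow_ne_zero _ hx0)
  have htt : ∀ x ∈ V, ∀ y ∈ V, x ≠ 0 → y ≠ 0 → x ≠ y →
      (y / x) ^ 2 + y / x + 1 = 0 ∧ (y / x) ^ (q + 1) = 1 := by
    intro x hx y hy hx0 hy0 hxy
    have hxy0 : x + y ≠ 0 := by
      intro h
      exact hxy (by rw [← CharTwo.neg_eq y]; exact eq_neg_of_add_eq_zero_left h)
    have h1 := hnorm _ (V.add_mem hx hy) hxy0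
    have h2 := hnorm _ hx hx0
    have h3 := hnorm _ hy hy0
    rw [pow_succ, add_pow_q hF] at h1
    rw [pow_succ] at h2 h3
    have hxq : x ^ q ≠ 0 := pow_ne_zero _ hx0
    set t := y / x with ht
    have hyt : y = t * x := (div_mul_cancel₀ _ hx0).symm
    have h4 : t ^ (q + 1) = 1 := by
      rw [ht, div_pow, pow_succ, h3, pow_succ, h2, div_self ha0]
    have h5 : t + t ^ q = 1 := by
      have h6 : (t + t ^ q) * (x ^ q * x) = x ^ q * x := by
        have h7 : x ^ q * y + y ^ q * x = a := by
          have h8 : (a : F) + a = 0 := CharTwo.add_self_eq_zero _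
          linear_combination h1 - h2 - h3 - h8
        rw [hyt] at h7
        rw [mul_pow] at h7
        linear_combination h7 - h2
      rw [h2] at h6
      exact mul_right_cancel₀ ha0 (by rw [h6, one_mul])
    refine ⟨?_, h4⟩
    have h8 : t ^ q = 1 - t := by linear_combination h5
    rw [pow_succ, h8] at h4
    have h20 : (2 : F) = 0 := CharTwo.two_eq_zero
    linear_combination -h4 + t * h20
  -- |V| ≤ 4
  have hV4 : Nat.card V ≤ 4 ∧ (Nat.card V = 4 → ∃ t : F, t ^ 2 + t + 1 = 0 ∧ t ^ (q + 1) = 1) := by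
    by_cases hV : V = ⊥
    · rw [hV]; simp
    obtain ⟨x, hx⟩ := (AddSubgroup.ne_bot_iff_exists_ne_zero).1 hV
    have hx0 : (x : F) ≠ 0 := fun h => hx (Subtype.ext h)
    by_cases h4 : ∃ y ∈ V, y ≠ 0 ∧ (x : F) ≠ y
    · obtain ⟨y, hy, hy0, hxy⟩ := h4
      obtain ⟨ht, ht'⟩ := htt x x.2 y hy hx0 hy0 hxy
      refine ⟨?_, fun _ => ⟨_, ht, ht'⟩⟩
      have hsub : (V : Set F) ⊆ (({0, (x : F), y, x + y} : Finset F) : Set F) := by
        intro z hz
        simp only [Finset.coe_insert, Finset.coe_singleton, Set.mem_insert_iff,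
          Set.mem_singleton_iff]
        by_cases hz0 : z = 0
        · exact Or.inl hz0
        by_cases hzx : z = x
        · exact Or.inr (Or.inl hzx)
        right; right
        obtain ⟨hs, -⟩ := htt x x.2 z hz hx0 hz0 (Ne.symm hzx)
        have h6 : (z / x - y / x) * (z / x + y / x + 1) = 0 := by linear_combination hs - ht
        rcases mul_eq_zero.1 h6 with h7 | h7
        · left
          field_simp at h7
          linear_combination h7
        · right
          field_simp at h7
          have h8 : z = -(y + x) := by linear_combination h7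
          rw [h8, CharTwo.neg_eq, add_comm]
      have h9 := Set.ncard_le_ncard hsub (Finset.finite_toSet _)
      rw [Set.ncard_coe_finset] at h9
      have h10 : Nat.card V = (V : Set F).ncard := Nat.card_coe_set_eq _
      rw [h10]
      exact h9.trans Finset.card_le_four
    · push Not at h4
      have hsub : (V : Set F) ⊆ (({0, (x : F)} : Finset F) : Set F) := by
        intro z hz
        simp only [Finset.coe_insert, Finset.coe_singleton, Set.mem_insert_iff,
          Set.mem_singleton_iff]
        by_cases hz0 : z = 0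
        · exact Or.inl hz0
        · exact Or.inr (h4 z hz hz0).symm
      have h9 := Set.ncard_le_ncard hsub (Finset.finite_toSet _)
      rw [Set.ncard_coe_finset] at h9
      have h10 : Nat.card V = (V : Set F).ncard := Nat.card_coe_set_eq _
      have h11 : Nat.card V ≤ 2 := by rw [h10]; exact h9.trans Finset.card_le_two
      exact ⟨by omega, fun h => by omega⟩
  obtain ⟨hV4, hV4'⟩ := hV4
  obtain ⟨p, b, hp, hchar', hb, hqb⟩ := q_prime_pow hF
  have hp2 : p = 2 := CharP.eq F hchar' hchar
  subst hp2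
  have := Fact.mk hp
  have hLle := Nat.le_of_dvd (by omega) hLd
  have hqq : q ^ 2 - 1 = (q + 1) * (q - 1) := by
    have := Nat.sq_sub_sq q 1
    rwa [one_pow] at this
  have hq9 : q ≤ 9 := by
    by_contra hcon
    have h1 : 2 * Nat.card V * Nat.card L ≤ 8 * (q + 1) := Nat.mul_le_mul (by omega) hLle
    have h2 : (q + 1) * 9 ≤ (q + 1) * (q - 1) := Nat.mul_le_mul_left _ (by omega)
    omega
  have hb4 : b < 4 := by
    by_contra hcon
    have : 2 ^ 4 ≤ 2 ^ b := Nat.pow_le_pow_right (by norm_num) (by omega)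
    omega
  obtain ⟨j, hj⟩ := card_pow (p := 2) (b := b) (by rw [← hqb]; exact hF) V
  have hj3 : j < 3 := by
    by_contra hcon
    have : 2 ^ 3 ≤ 2 ^ j := Nat.pow_le_pow_right (by norm_num) (by omega)
    omega
  have hb1 : b ≠ 1 := by rintro rfl; omega
  rcases (show b = 2 ∨ b = 3 by omega) with rfl | rfl
  · -- q = 4
    exfalso
    norm_num at hqb
    subst hqb
    norm_num [-Nat.card_eq_fintype_card] at hLd hbig
    have hL15 : Nat.card L = 1 ∨ Nat.card L = 5 := by
      have := (Nat.dvd_prime (by norm_num : Nat.Prime 5)).1 hLd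
      exact this
    rcases (show j = 0 ∨ j = 1 ∨ j = 2 by omega) with rfl | rfl | rfl
    · rw [hj] at hbig; omega
    · -- V = {0, x}
      norm_num [-Nat.card_eq_fintype_card] at hj
      have hL5 : Nat.card L = 5 := by
        rcases hL15 with h | h
        · rw [hj, h] at hbig; omega
        · exact h
      have hV : V ≠ ⊥ := by rintro rfl; simp at hj
      have := P.card_L_le hF hV
      have h9 : Nat.card (mst V) < 2 := hj ▸ card_mst_lt hV
      have h10 : Nat.card (mst V) = 1 := by
        have : 0 < Nat.card (mst V) := Nat.card_pos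
        omega
      have h11 : mst V = ⊥ := Subgroup.card_eq_one.1 h10
      have h12 : ∀ l ∈ L, l ^ 3 = 1 := by
        intro l hl
        have h13 : l ^ (2 * 4 - 1) ∈ mst V := fun x hx => by
          rw [Units.val_pow_eq_pow_val]; exact P.hV _ hl _ hx
        rw [h11, Subgroup.mem_bot] at h13
        exact pow_of_pow_two hF h13
      have h13 := card_le_of_pow (by norm_num) h12
      rw [hL5] at h13
      norm_num at h13
    · norm_num [-Nat.card_eq_fintype_card] at hj
      obtain ⟨t, ht1, ht2⟩ := hV4' hj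
      have h3 : t ^ 3 = 1 := by linear_combination (t - 1) * ht1
      norm_num at ht2
      have h5 : t ^ 2 = 1 := by
        have : t ^ 5 = t ^ 3 * t ^ 2 := by ring
        rw [ht2, h3, one_mul] at this
        exact this.symm
      have h6 : t = 1 := by
        have : t ^ 3 = t ^ 2 * t := by ring
        rw [h3, h5, one_mul] at this
        exact this.symm
      rw [h6] at ht1
      have h20 : (2 : F) = 0 := CharTwo.two_eq_zero
      have : (1 : F) = 0 := by linear_combination ht1 - h20
      exact one_ne_zero this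
  · norm_num at hqb
    subst hqb
    norm_num [-Nat.card_eq_fintype_card] at hLd hbig
    refine ⟨rfl, ?_⟩
    have hL : Nat.card L = 1 ∨ Nat.card L = 3 ∨ Nat.card L = 9 := by
      have h1 : Nat.card L ∈ Nat.divisors 9 := Nat.mem_divisors.2 ⟨hLd, by norm_num⟩
      have h2 : Nat.divisors 9 = {1, 3, 9} := by decide
      rw [h2] at h1
      simpa using h1
    rcases (show j = 0 ∨ j = 1 ∨ j = 2 by omega) with rfl | rfl | rfl <;>
      rw [hj] at hbig <;> rcases hL with h | h | h <;> rw [h] at hbig <;>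
      first | (exfalso; omega) | exact ⟨by rw [hj]; norm_num, h⟩

theorem Par.card_L_dvd (P : Par q L V A) (h : ∀ l ∈ L, l ^ (2 * q - 1) = 1 → l = 1) :
    Nat.card L ∣ Nat.card (mst V) := by
  let ψ : L →* mst V :=
    { toFun := fun l => ⟨l.1 ^ (2 * q - 1), fun x hx => by
        rw [Units.val_pow_eq_pow_val]; exact P.hV _ l.2 _ hx⟩
      map_one' := Subtype.ext (one_pow _)
      map_mul' := fun a b => Subtype.ext (mul_pow _ _ _) }
  have hinj : Function.Injective ψ := by
    rw [injective_iff_map_eq_one]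
    intro l hl
    exact Subtype.ext (h _ l.2 (congrArg Subtype.val hl))
  rw [Nat.card_congr (MonoidHom.ofInjective hinj).toEquiv]
  exact Subgroup.card_subgroup_dvd_card _

theorem Par.three_case (P : Par 9 L V A) (hF : Fintype.card F = 9 ^ 2)
    (hA : Nat.card A = 3) : Nat.card V = 9 ∧ Nat.card L = 4 := by
  classical
  have hbig := P.big
  rw [hA] at hbig
  norm_num [-Nat.card_eq_fintype_card] at hbig
  obtain ⟨p, b, hp, hchar, hb, hqb⟩ := q_prime_pow hF
  have hp3 : p = 3 := by
    have h1 : p ∣ 9 := by rw [hqb]; exact dvd_pow_self _ hb.ne'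
    have h2 : p ∣ 3 := hp.dvd_of_dvd_pow (show p ∣ 3 ^ 2 by norm_num; exact h1)
    exact (Nat.prime_dvd_prime_iff_eq hp Nat.prime_three).1 h2
  subst hp3
  have := Fact.mk hp
  have h3 : (3 : F) = 0 := by have := CharP.cast_eq_zero F 3; exact_mod_cast this
  have h2 : (2 : F) ≠ 0 := by
    intro h
    have : (1 : F) = 0 := by linear_combination h3 - h
    exact one_ne_zero this
  have hAne : A ≠ ⊥ := by
    rintro rfl
    simp at hA
  obtain ⟨a, ha⟩ := (AddSubgroup.ne_bot_iff_exists_ne_zero).1 hAne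
  have ha0 : (a : F) ≠ 0 := fun h => ha (Subtype.ext h)
  have haa : (a : F) ≠ -a := by
    intro h
    have : (2 : F) * a = 0 := by linear_combination h
    rcases mul_eq_zero.1 this with h4 | h4
    · exact h2 h4
    · exact ha0 h4
  have hA3 : ∀ z ∈ A, z ≠ 0 → z = a ∨ z = -a := by
    have hsub : (({0, (a : F), -(a : F)} : Finset F) : Set F) ⊆ (A : Set F) := by
      intro z hz
      simp only [Finset.coe_insert, Finset.coe_singleton, Set.mem_insert_iff,
        Set.mem_singleton_iff] at hz
      rcases hz with rfl | rfl | rfl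
      · exact A.zero_mem
      · exact a.2
      · exact A.neg_mem a.2
    have hcard : (({0, (a : F), -(a : F)} : Finset F) : Set F).ncard = 3 := by
      rw [Set.ncard_coe_finset, Finset.card_eq_three]
      exact ⟨_, _, _, Ne.symm ha0, (neg_ne_zero.2 ha0).symm, haa, rfl⟩
    have heq := Set.eq_of_subset_of_ncard_le hsub (by
      rw [hcard, ← Nat.card_coe_set_eq]
      exact hA.le) (Set.toFinite _)
    intro z hz hz0
    have : z ∈ (({0, (a : F), -(a : F)} : Finset F) : Set F) := by rw [heq]; exact hz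
    simp only [Finset.coe_insert, Finset.coe_singleton, Set.mem_insert_iff,
      Set.mem_singleton_iff] at this
    rcases this with h | h | h
    · exact absurd h hz0
    · exact Or.inl h
    · exact Or.inr h
  have hL20 : ∀ l ∈ L, l ^ 20 = 1 := by
    intro l hl
    have h4 := hA3 _ (P.hA l hl _ a.2) (mul_ne_zero (pow_ne_zero _ l.ne_zero) ha0)
    have h5 : (l : F) ^ 10 = 1 ∨ (l : F) ^ 10 = -1 := by
      rcases h4 with h | h
      · left; exact mul_right_cancel₀ ha0 (by rw [h, one_mul])
      · right; exact mul_right_cancel₀ ha0 (by rw [h, neg_one_mul])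
    apply Units.ext
    rw [Units.val_pow_eq_pow_val, Units.val_one]
    have h6 : (l : F) ^ 20 = ((l : F) ^ 10) ^ 2 := by ring
    rw [h6]
    rcases h5 with h | h <;> rw [h] <;> norm_num
  have hLd : Nat.card L ∣ 20 := card_le_of_pow (by norm_num) hL20
  -- kernels
  have hker : ∀ x : V, (x : F) ≠ 0 → ∃ K : AddSubgroup F, K ≤ V ∧ Nat.card K ≤ 9 ∧
      Nat.card V ≤ 3 * Nat.card K ∧ ∀ y : F, y ∈ K ↔ y ∈ V ∧ (y / x) ^ 9 = y / x := by
    intro x hx0
    let φ : V →+ A :=
      { toFun := fun y => ⟨(y : F) ^ 9 * x - (x : F) ^ 9 * y, P.comm _ x.2 _ y.2⟩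
        map_zero' := by
          apply Subtype.ext
          show ((0 : V) : F) ^ 9 * x - (x : F) ^ 9 * ((0 : V) : F) = 0
          rw [AddSubgroup.coe_zero, zero_pow (by norm_num), zero_mul, mul_zero, sub_zero]
        map_add' := by
          intro y z
          apply Subtype.ext
          show ((y : F) + z) ^ 9 * x - (x : F) ^ 9 * (y + z) =
            ((y : F) ^ 9 * x - (x : F) ^ 9 * y) + ((z : F) ^ 9 * x - (x : F) ^ 9 * z)
          rw [add_pow_q hF]; ring }
    have hxq : (x : F) ^ 9 ≠ 0 := pow_ne_zero _ hx0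
    have hiff : ∀ y : F, y ∈ φ.ker.map V.subtype ↔ y ∈ V ∧ (y / x) ^ 9 = y / x := by
      intro y
      constructor
      · rintro ⟨y, hy, rfl⟩
        refine ⟨y.2, ?_⟩
        have h4 : (y : F) ^ 9 * x - (x : F) ^ 9 * y = 0 :=
          congrArg Subtype.val (AddMonoidHom.mem_ker.1 hy)
        show ((y : F) / x) ^ 9 = (y : F) / x
        rw [div_pow]
        field_simp
        apply mul_right_cancel₀ hx0
        linear_combination h4
      · rintro ⟨hy, h4⟩
        refine ⟨⟨y, hy⟩, ?_, rfl⟩
        rw [SetLike.mem_coe, AddMonoidHom.mem_ker]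
        apply Subtype.ext
        show y ^ 9 * x - (x : F) ^ 9 * y = 0
        rw [div_pow] at h4
        field_simp at h4
        linear_combination (x : F) * h4
    refine ⟨φ.ker.map V.subtype, ?_, ?_, ?_, hiff⟩
    · rintro _ ⟨y, -, rfl⟩; exact y.2
    · exact card_le_of_line hF hx0 fun y hy => ((hiff y).1 hy).2
    · have h4 : Nat.card (φ.ker.map V.subtype) = Nat.card φ.ker :=
        Nat.card_congr (φ.ker.equivMapOfInjective _ V.subtype_injective).symm.toEquiv
      have h5 : Nat.card φ.ker * Nat.card φ.range = Nat.card V := by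
        rw [← AddSubgroup.index_ker, AddSubgroup.card_mul_index]
      have h6 : Nat.card φ.range ≤ 3 := by
        rw [← hA]; exact AddSubgroup.card_le_card_addGroup _
      rw [h4, ← h5, mul_comm]
      exact Nat.mul_le_mul_right _ h6
  have hV9 : Nat.card V ≤ 9 := by
    by_cases hV : V = ⊥
    · rw [hV]; simp
    obtain ⟨x, hx⟩ := (AddSubgroup.ne_bot_iff_exists_ne_zero).1 hV
    have hx0 : (x : F) ≠ 0 := fun h => hx (Subtype.ext h)
    obtain ⟨K, hKV, hK9, hVK, hK⟩ := hker x hx0
    by_cases hKV' : V ≤ K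
    · have : V = K := le_antisymm hKV' hKV
      rw [this]; exact hK9
    · obtain ⟨y, hy, hyK⟩ := SetLike.not_le_iff_exists.1 hKV'
      have hy0 : y ≠ 0 := by rintro rfl; exact hyK K.zero_mem
      obtain ⟨K', hKV2, hK92, hVK2, hK2⟩ := hker ⟨y, hy⟩ hy0
      have hint : ∀ c, c ∈ K → c ∈ K' → c = 0 := by
        intro c hc hc'
        by_contra hc0
        apply hyK
        rw [hK]
        refine ⟨hy, ?_⟩
        have h4 := ((hK c).1 hc).2
        have h5 := ((hK2 c).1 hc').2
        have e : y / x = (c / x) / (c / y) := by field_simp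
        have h5' : (c / y) ^ 9 = c / y := h5
        rw [e, div_pow, h4, h5']
      have hinj : Nat.card (K × K') ≤ Nat.card V := by
        refine Nat.card_le_card_of_injective (fun p : K × K' =>
          (⟨(p.1 : F) + p.2, V.add_mem (hKV p.1.2) (hKV2 p.2.2)⟩ : V)) ?_
        rintro ⟨c, d⟩ ⟨c', d'⟩ h
        have h4 : (c : F) + d = c' + d' := congrArg Subtype.val h
        have h5 : (c : F) - c' = d' - d := by linear_combination h4
        have h6 := hint _ (K.sub_mem c.2 c'.2) (by rw [h5]; exact K'.sub_mem d'.2 d.2)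
        have h7 : c = c' := Subtype.ext (sub_eq_zero.1 h6)
        have h8 : d' = d := Subtype.ext (sub_eq_zero.1 (by rw [← h5, h6]))
        rw [h7, h8]
      rw [Nat.card_prod] at hinj
      set v := Nat.card V
      set k := Nat.card K
      set k' := Nat.card K'
      have h4 : v * v ≤ 3 * k * (3 * k') := Nat.mul_le_mul hVK hVK2
      have h5 : 3 * k * (3 * k') = 9 * (k * k') := by ring
      have h6 : v * v ≤ 9 * v := by
        rw [h5] at h4
        exact h4.trans (Nat.mul_le_mul_left _ hinj)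
      have hv0 : 0 < v := Nat.card_pos
      exact Nat.le_of_mul_le_mul_right h6 hv0
  obtain ⟨j, hj⟩ := card_pow (p := 3) (b := b) (by rw [← hqb]; exact hF) V
  have hj3 : j < 3 := by
    by_contra hcon
    have : 3 ^ 3 ≤ 3 ^ j := Nat.pow_le_pow_right (by norm_num) (by omega)
    omega
  have hL20' : Nat.card L ≤ 20 := Nat.le_of_dvd (by norm_num) hLd
  have hVne : V ≠ ⊥ := by
    rintro rfl
    rw [AddSubgroup.card_bot] at hbig
    omega
  have hmst := card_mst_lt hVne
  have hdvd := P.card_L_dvd (fun l hl h => by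
    have h4 := pow_of_pow_two hF h
    have h5 := hL20 l hl
    have h6 : l ^ 21 = (l ^ 3) ^ 7 := by rw [← pow_mul]
    have h7 : l ^ 21 = l ^ 20 * l := pow_succ _ _
    rw [h4, one_pow] at h6
    rw [h6, h5, one_mul] at h7
    exact h7.symm)
  have hm0 : 0 < Nat.card (mst V) := Nat.card_pos
  have hLm := Nat.le_of_dvd hm0 hdvd
  have h2m : 2 ∣ Nat.card (mst V) := by
    have hneg : (-1 : Fˣ) ∈ mst V := fun x hx => by
      rw [Units.val_neg, Units.val_one, neg_one_mul]; exact V.neg_mem hx
    have ho : orderOf (⟨-1, hneg⟩ : mst V) = 2 := by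
      apply orderOf_eq_prime
      · apply Subtype.ext
        show (-1 : Fˣ) ^ 2 = 1
        norm_num
      · intro h
        have h4 : (-1 : Fˣ) = 1 := congrArg Subtype.val h
        have h5 : (-1 : F) = 1 := by
          have := congrArg Units.val h4
          simpa using this
        apply h2
        linear_combination -h5
    rw [← ho]; exact orderOf_dvd_natCard _
  rcases (show j = 0 ∨ j = 1 ∨ j = 2 by omega) with rfl | rfl | rfl
  · rw [hj] at hbig; omega
  · rw [hj] at hbig hmst; omega
  · refine ⟨by rw [hj]; norm_num, ?_⟩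
    rw [hj] at hbig hmst
    have h4 : Nat.card L ∈ Nat.divisors 20 := Nat.mem_divisors.2 ⟨hLd, by norm_num⟩
    have h5 : Nat.divisors 20 = {1, 2, 4, 5, 10, 20} := by decide
    rw [h5] at h4
    simp only [Finset.mem_insert, Finset.mem_singleton] at h4
    rcases h4 with h | h | h | h | h | h
    · rw [h] at hbig; omega
    · rw [h] at hbig; omega
    · exact h
    · exfalso
      rw [h] at hdvd
      have : 2 * 5 ∣ Nat.card (mst V) := Nat.Coprime.mul_dvd_of_dvd_of_dvd (by norm_num) h2m hdvd
      have := Nat.le_of_dvd hm0 this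
      omega
    · omega
    · omega

end Cfsg.Agent.H48.U3
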