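import Cfsg.Agent.H48.U3J
import Cfsg.Agent.H48.U3K

/-!
# Classification of the parameters of a subgroup of index at most `q³`
-/

set_option autoImplicit false
set_option linter.unusedSectionVars false

namespace Cfsg.Agent.H48.U3

open Finset Matrix Cfsg.Agent.Uni Cfsg.Agent.Dk
open LinearAlgebra.Projectivization Projectivization
open scoped MatrixGroups
open Cfsg.Agent.H81 (pt0 ptz)

attribute [local instance 10] pact

variable {F : Type*} [Field F] [Fintype F] {q : ℕ} {e w f : Fin 3 → F}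

theorem index_mul (hF : Fintype.card F = q ^ 2) (B : HB q e w f) {M : Subgroup (SU 3 F q)}
    (hM : ∀ x y : IsoPt F q, ∃ m ∈ M, m • x = y) :
    M.index * (Nat.card (Az hF e w f M) * Nat.card (Vx hF e w f M) * Nat.card (La e M)) =
      q ^ 3 * (q ^ 2 - 1) := by
  have h1 := card_of_trans hF hM (mkPt e B.e_ne B.ee)
  have h2 := M.card_mul_index
  rw [card_G hF, ← h1, ← card_Me hF B M] at h2
  have h3 : 0 < q ^ 3 + 1 := by omega
  apply Nat.eq_of_mul_eq_mul_left h3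
  linarith

theorem par_of (hF : Fintype.card F = q ^ 2) (B : HB q e w f) {M : Subgroup (SU 3 F q)}
    (hM : ∀ x y : IsoPt F q, ∃ m ∈ M, m • x = y) (hidx : M.index ≤ q ^ 3) :
    Par q (La e M) (Vx hF e w f M) (Az hF e w f M) where
  hV := fun l hl x hx => Vx_smul hF B hl hx
  hA := fun l hl z hz => Az_smul hF B hl hz
  sk := fun z hz => Az_skew hF B hz
  comm := fun x hx y hy => comm_mem hF B hx hy
  sq := fun h x hx => sq_mem hF B hx
  big := by
    have h1 := index_mul hF B hM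
    have hq : 0 < q ^ 3 := Nat.pow_pos (q_pos hF)
    by_contra hcon
    push Not at hcon
    set N := Nat.card (Az hF e w f M) * Nat.card (Vx hF e w f M) * Nat.card (La e M)
    have h2 : M.index * N ≤ q ^ 3 * N := Nat.mul_le_mul_right _ hidx
    have h3 : q ^ 3 * N < q ^ 3 * (q ^ 2 - 1) := Nat.mul_lt_mul_of_pos_left hcon hq
    omega

/-- the possible parameters -/
theorem classify (hF : Fintype.card F = q ^ 2) (hq : 3 ≤ q) (B : HB q e w f)
    {M : Subgroup (SU 3 F q)} (hidx : M.index ≤ q ^ 3) (hne : M ≠ ⊤) :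
    (Az hF e w f M = ⊥ ∧ Vx hF e w f M = ⊥ ∧ Nat.card (La e M) = q ^ 2 - 1) ∨
    (Az hF e w f M = ⊥ ∧ Odd q ∧ Nat.card (Vx hF e w f M) = q ∧ 3 ∣ q + 1 ∧
      (Nat.card (La e M) = 3 * (q - 1) ∨ 2 * Nat.card (La e M) = 3 * (q - 1))) ∨
    (q = 8 ∧ Nat.card (Az hF e w f M) = 2 ∧ Nat.card (Vx hF e w f M) = 4 ∧
      Nat.card (La e M) = 9) ∨
    (q = 9 ∧ Nat.card (Az hF e w f M) = 3 ∧ Nat.card (Vx hF e w f M) = 9 ∧
      Nat.card (La e M) = 4) := by
  have hM := trans_of_index hF hidx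
  have P := par_of hF B hM hidx
  obtain ⟨p, b, hp, hchar, hb, hqb⟩ := q_prime_pow hF
  have := Fact.mk hp
  by_cases hA : Az hF e w f M = ⊥
  · rcases P.zero_case hF hq hA with ⟨h1, h2⟩ | h
    · exact Or.inl ⟨hA, h1, h2⟩
    · exact Or.inr (Or.inl ⟨hA, h⟩)
  · rcases case_C (p := p) hF hq B hM hne hA with ⟨h1, h2⟩ | ⟨h1, h2, h3⟩
    · subst h1
      obtain ⟨h3, h4, h5⟩ := P.two_case hF hq hchar h2
      exact Or.inr (Or.inr (Or.inl ⟨h3, h2, h4, h5⟩))
    · subst h1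
      obtain ⟨h4, h5⟩ := P.three_case hF h3
      exact Or.inr (Or.inr (Or.inr ⟨rfl, h3, h4, h5⟩))

/-- involutions: the case without transvections -/
theorem invol_case (hF : Fintype.card F = q ^ 2) (B : HB q e w f) (hq : Odd q)
    {M : Subgroup (SU 3 F q)} (hM : ∀ x y : IsoPt F q, ∃ m ∈ M, m • x = y)
    (hA : Az hF e w f M = ⊥) {t : SU 3 F q} (ht : t ∈ M) (T : TI e w f t) : ∃ k0 m : ℕ, Even k0 ∧
      k0 ≤ Nat.card {l : La e M // (l.1 : Fˣ) ^ (q + 1) = 1} ∧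
      m * k0 = Nat.card (La e M) ∧ (3 ≤ m → (q + 1) * m = 12 ∨ (q + 1) * m = 24 ∨
        (q + 1) * m = 60) := by
  obtain ⟨p, b, hp, hchar, hb, hqb⟩ := q_prime_pow hF
  have := Fact.mk hp
  have hp2 : p ≠ 2 := by
    rintro rfl
    rw [hqb] at hq
    exact (Nat.not_odd_iff_even.2 ((Nat.even_pow.2 ⟨even_two, hb.ne'⟩))) hq
  have h2 : (2 : F) ≠ 0 := by
    intro h
    have h3 : ((2 : ℕ) : F) = 0 := by exact_mod_cast h
    have := (CharP.cast_eq_zero_iff F p 2).1 h3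
    exact hp2 ((Nat.prime_dvd_prime_iff_eq hp Nat.prime_two).1 this)
  have : CharP (AlgebraicClosure F) p :=
    charP_of_injective_algebraMap (algebraMap F (AlgebraicClosure F)).injective p
  set K := AlgebraicClosure F
  let MM : Mob p (GaT hF B h2 T M) (ℙ K (Fin 2 → K)) K := (mobF (F := F)).subgroup _
  obtain ⟨k0, hk1, hk2, hk3⟩ := card_stab_T (K := K) hF B hq h2 hA ht T
  refine ⟨k0, _, hk1, hk2, hk3, fun h3 => ?_⟩
  have hN : Nat.card (MulAction.orbit (GaT hF B h2 T M) (pt0 K)) = q + 1 := by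
    rw [orbit_eq_LpT hF B hq h2 hM ht T, card_Lp hF]
  have hcard := card_orbit_mul (Γ := GaT hF B h2 T M) (pt0 K)
  rw [hN] at hcard
  rw [hcard]
  refine mob_small MM ?_ (pt0 K) ?_ h3
  · intro hdvd
    rw [← hcard] at hdvd
    have hpq : p ∣ q := by rw [hqb]; exact dvd_pow_self _ hb.ne'
    rcases (Nat.Prime.dvd_mul hp).1 hdvd with h | h
    · have h5 : p ∣ 1 := (Nat.dvd_add_right hpq).1 h
      exact hp.one_lt.ne' (Nat.dvd_one.1 h5)
    · have h5 : p ∣ Nat.card (La e M) := h.trans (Dvd.intro _ hk3)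
      have h6 : p ∣ (q + 1) * (q - 1) := by
        rw [← card_units hF]; exact h5.trans (Subgroup.card_subgroup_dvd_card _)
      rcases (Nat.Prime.dvd_mul hp).1 h6 with h | h
      · have h5 : p ∣ 1 := (Nat.dvd_add_right hpq).1 h
        exact hp.one_lt.ne' (Nat.dvd_one.1 h5)
      · have h7 : p ∣ q - (q - 1) := Nat.dvd_sub hpq h
        have h8 : q - (q - 1) = 1 := by have := q_pos hF; omega
        rw [h8] at h7
        exact hp.one_lt.ne' (Nat.dvd_one.1 h7)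
  · rw [hN]
    have := two_le_q hF
    omega

theorem card_norm_le (hF : Fintype.card F = q ^ 2) (L : Subgroup Fˣ) :
    Nat.card {l : L // (l.1 : Fˣ) ^ (q + 1) = 1} ≤ q + 1 := by
  refine le_trans (Nat.card_le_card_of_injective
    (fun l : {l : L // (l.1 : Fˣ) ^ (q + 1) = 1} =>
    (⟨l.1.1, by rw [MonoidHom.mem_ker]; exact l.2⟩ : (powMonoidHom (q + 1) : Fˣ →* Fˣ).ker)) ?_)
    (card_norm_ker hF).le
  intro a b h
  have : (a.1.1 : Fˣ) = b.1.1 :=
    congrArg (fun z : (powMonoidHom (q + 1) : Fˣ →* Fˣ).ker => (z : Fˣ)) h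
  exact Subtype.ext (Subtype.ext this)

theorem card_norm_le6 (L : Subgroup Fˣ) (hq : 1 ≤ q) (h : ∀ l ∈ L, l ^ (3 * (q - 1)) = 1) :
    Nat.card {l : L // (l.1 : Fˣ) ^ (q + 1) = 1} ≤ 6 := by
  have h6 : Nat.card (powMonoidHom 6 : Fˣ →* Fˣ).ker ≤ 6 := by
    rw [IsCyclic.card_powMonoidHom_ker]
    exact Nat.gcd_le_right _ (by norm_num)
  refine le_trans (Nat.card_le_card_of_injective (fun l : {l : L // (l.1 : Fˣ) ^ (q + 1) = 1} =>
    (⟨l.1.1, ?_⟩ : (powMonoidHom 6 : Fˣ →* Fˣ).ker)) ?_) h6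
  · rw [MonoidHom.mem_ker]
    show (l.1.1 : Fˣ) ^ 6 = 1
    have h1 := h _ l.1.2
    have h2 := l.2
    have h3 : (l.1.1 : Fˣ) ^ (3 * (q - 1) + 6) = 1 := by
      have : 3 * (q - 1) + 6 = (q + 1) * 3 := by omega
      rw [this, pow_mul, h2, one_pow]
    rw [pow_add, h1, one_mul] at h3
    exact h3
  · intro a b h
    have : (a.1.1 : Fˣ) = b.1.1 := congrArg (fun z : (powMonoidHom 6 : Fˣ →* Fˣ).ker => (z : Fˣ)) h
    exact Subtype.ext (Subtype.ext this)

end Cfsg.Agent.H48.U3
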