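import Cfsg.Agent.H48.U3L

/-!
# Involutions and elements of large prime order
-/

set_option autoImplicit false
set_option linter.unusedSectionVars false

namespace Cfsg.Agent.H48.U3

open Finset Matrix Cfsg.Agent.Uni

variable {F : Type*} [Field F] [Fintype F] {q : ℕ} {e w f : Fin 3 → F}

theorem two_ne_of_odd (hF : Fintype.card F = q ^ 2) (hq : Odd q) : (2 : F) ≠ 0 := by
  obtain ⟨p, b, hp, hchar, hb, hqb⟩ := q_prime_pow hF
  have hp2 : p ≠ 2 := by
    rintro rfl
    rw [hqb] at hq
    exact (Nat.not_odd_iff_even.2 ((Nat.even_pow.2 ⟨even_two, hb.ne'⟩))) hq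
  intro h
  have h3 : ((2 : ℕ) : F) = 0 := by exact_mod_cast h
  have := (CharP.cast_eq_zero_iff F p 2).1 h3
  exact hp2 ((Nat.prime_dvd_prime_iff_eq hp Nat.prime_two).1 this)

/-- a hyperbolic basis whose middle vector is a given unit vector -/
theorem exists_HB_unit (hF : Fintype.card F = q ^ 2) {w : Fin 3 → F}
    (hw : hermForm 3 F q w w = 1) : ∃ e f, HB q e w f := by
  have hnd : ND q (Uni.perp q (Submodule.span F {w})) :=
    (nd_span_unit (by rw [hw]; exact one_ne_zero)).perp hF
  have hw0 : w ≠ 0 := by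
    rintro rfl
    rw [hermForm_zero_left] at hw
    exact zero_ne_one hw
  have hfr : 2 ≤ Module.finrank F (Uni.perp q (Submodule.span F {w})) := by
    have := finrank_perp hF (Submodule.span F {w})
    rw [finrank_span_singleton hw0] at this
    omega
  obtain ⟨e, he, he0, hee⟩ := hnd.exists_isotropic hF hfr
  have hmem : ∀ x, x ∈ Uni.perp q (Submodule.span F {w}) ↔ hermForm 3 F q x w = 0 := by
    intro x
    rw [mem_perp_span hF]
    simp
  obtain ⟨x, hx, hex⟩ : ∃ x, hermForm 3 F q x w = 0 ∧ hermForm 3 F q e x ≠ 0 := by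
    by_contra hcon
    push Not at hcon
    exact he0 (hnd e he fun y hy => hcon y ((hmem y).1 hy))
  obtain ⟨c, d, -, h1, h2⟩ := exists_hyp hF hee hex
  refine ⟨e, c • x + d • e, hee, h1, h2, hw, (hmem e).1 he, ?_⟩
  rw [hermForm_add_left, hermForm_smul_left, hermForm_smul_left, hx, (hmem e).1 he]
  ring

/-- involutions fix a unit vector and act as `-1` on its perp -/
theorem exists_TI (hF : Fintype.card F = q ^ 2) (hq : Odd q) {t : SU 3 F q} (ht2 : t * t = 1)
    (ht1 : t ≠ 1) : ∃ e w f, HB q e w f ∧ TI e w f t := by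
  have h2 := two_ne_of_odd hF hq
  have htt : ∀ x, act t (act t x) = x := fun x => by rw [← act_mul, ht2, act_one]
  let V1 : Submodule F (Fin 3 → F) := LinearMap.ker (actL t - LinearMap.id)
  have hV1 : ∀ x, x ∈ V1 ↔ act t x = x := by
    intro x
    rw [LinearMap.mem_ker, LinearMap.sub_apply, LinearMap.id_apply, sub_eq_zero]; rfl
  have hplus : ∀ x, x + act t x ∈ V1 := by
    intro x; rw [hV1, act_add, htt, add_comm]
  have horth : ∀ x y, act t x = x → act t y = -y → hermForm 3 F q x y = 0 := by
    intro x y hx hy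
    have h3 : hermForm 3 F q (act t x) (act t y) = hermForm 3 F q x y := act_form _ _ _
    rw [hx, hy, hermForm_neg_right hF] at h3
    have h4 : (2 : F) * hermForm 3 F q x y = 0 := by linear_combination -h3
    exact (mul_eq_zero.1 h4).resolve_left h2
  have hne : V1 ≠ ⊥ := by
    intro hb
    have h3 : ∀ x, act t x = -x := by
      intro x
      have := hplus x
      rw [hb, Submodule.mem_bot] at this
      exact eq_neg_of_add_eq_zero_right this
    obtain ⟨e, w, f, B⟩ := exists_HB_any (F := F) (q := q) hF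
    obtain ⟨-, m, s, n, y, z, h4, h5, h6, h7, h8⟩ := borel hF B (b := t) (l := -1)
      (by rw [h3, neg_smul, one_smul])
    have hm : m = -1 := by
      have := congrArg (fun x => hermForm 3 F q x w) h4
      simp only [h3, hermForm_add_left, hermForm_smul_left, hermForm_neg_left, B.ww, B.ew] at this
      linear_combination -this
    have hn : n = -1 := by
      have := congrArg (fun x => hermForm 3 F q x e) h5
      simp only [h3, hermForm_add_left, hermForm_smul_left, hermForm_neg_left, B.fe hF, B.we hF,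
        B.ee] at this
      linear_combination -this
    rw [hm, hn] at h8
    apply h2
    linear_combination -h8
  have hnd : ND q V1 := by
    intro x hx h
    rw [hV1] at hx
    apply hermForm_nondeg hF
    intro y
    have h3 : hermForm 3 F q x (y + act t y) = 0 := h _ (hplus y)
    have h4 : hermForm 3 F q x (y - act t y) = 0 := horth _ _ hx (by rw [act_sub, htt]; abel)
    rw [hermForm_add_right hF] at h3
    rw [hermForm_sub_right hF] at h4
    have h5 : (2 : F) * hermForm 3 F q x y = 0 := by linear_combination h3 + h4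
    exact (mul_eq_zero.1 h5).resolve_left h2
  obtain ⟨w, hw, hw1⟩ := hnd.exists_unit hF hne
  rw [hV1] at hw
  obtain ⟨e, f, B⟩ := exists_HB_unit hF hw1
  have hN : t ∈ Nw w := ⟨1, one_ne_zero, by rw [hw, one_smul]⟩
  have he := plane_e hF B hN
  have hf := plane_f hF B hN
  set a := hermForm 3 F q (act t e) f
  set c := hermForm 3 F q (act t e) e
  set b := hermForm 3 F q (act t f) f
  set d := hermForm 3 F q (act t f) e
  have hdet := B.det_one hF t
  rw [Matrix.det_fin_three] at hdet
  simp only [Matrix.of_apply, Matrix.cons_val_zero, Matrix.cons_val_one, Matrix.cons_val] at hdet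
  rw [hw, perp_of_Nw hF hN B.ew, perp_of_Nw hF hN B.fw, B.wf hF, B.ww, B.we hF] at hdet
  have hdet' : a * d - b * c = 1 := by linear_combination hdet
  -- t² = 1
  have he2 := htt e
  rw [he, act_add, act_smul, act_smul, he, hf] at he2
  have hf2 := htt f
  rw [hf, act_add, act_smul, act_smul, he, hf] at hf2
  have e1 : a * a + c * b = 1 := by
    have := congrArg (fun x => hermForm 3 F q x f) he2
    simp only [hermForm_add_left, hermForm_smul_left, B.ef, B.ff] at this
    linear_combination this
  have e2 : a * c + c * d = 0 := by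
    have := congrArg (fun x => hermForm 3 F q x e) he2
    simp only [hermForm_add_left, hermForm_smul_left, B.ee, B.fe hF] at this
    linear_combination this
  have e3 : b * a + d * b = 0 := by
    have := congrArg (fun x => hermForm 3 F q x f) hf2
    simp only [hermForm_add_left, hermForm_smul_left, B.ef, B.ff] at this
    linear_combination this
  have e4 : b * c + d * d = 1 := by
    have := congrArg (fun x => hermForm 3 F q x e) hf2
    simp only [hermForm_add_left, hermForm_smul_left, B.ee, B.fe hF] at this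
    linear_combination this
  -- a (a + d) = 2 ...
  have hs : a * (a + d) = 2 := by linear_combination e1 + hdet'
  have hs0 : a + d ≠ 0 := by
    intro h
    rw [h, mul_zero] at hs
    exact h2 hs.symm
  have hc : c = 0 := by
    have : c * (a + d) = 0 := by linear_combination e2
    exact (mul_eq_zero.1 this).resolve_right hs0
  have hb : b = 0 := by
    have : b * (a + d) = 0 := by linear_combination e3
    exact (mul_eq_zero.1 this).resolve_right hs0
  have hs' : d * (a + d) = 2 := by linear_combination e4 + hdet'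
  have had : a = d := mul_right_cancel₀ hs0 (hs.trans hs'.symm)
  rw [hc, zero_smul, add_zero] at he
  rw [hb, zero_smul, zero_add, ← had] at hf
  have haa : a * a = 1 := by rw [hc] at e1; linear_combination e1
  rcases mul_self_eq_one_iff.1 haa with ha | ha
  · exfalso
    apply ht1
    apply B.ext_act hF
    · rw [he, ha, one_smul, act_one]
    · rw [hw, act_one]
    · rw [hf, ha, one_smul, act_one]
  · exact ⟨e, w, f, B, by rw [he, ha, neg_smul, one_smul], hw, by rw [hf, ha, neg_smul, one_smul]⟩

/-- fixed vectors of elements of prime order -/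
theorem exists_fixed_of (r : ℕ) [hr : Fact r.Prime] {ρ : SU 3 F q} (hρ : ρ ^ r = 1)
    (S : Set (Fin 3 → F)) (hS : ∀ v ∈ S, act ρ v ∈ S) (hcard : ¬ r ∣ Nat.card S) :
    ∃ v ∈ S, act ρ v = v := by
  classical
  let φ : Function.End S := fun v => ⟨act ρ v.1, hS _ v.2⟩
  have hpow : ∀ n : ℕ, ∀ v : S, ((φ ^ n) v).1 = act (ρ ^ n) v.1 := by
    intro n
    induction n with
    | zero => intro v; rw [pow_zero, pow_zero, act_one]; rfl
    | succ n ih =>
      intro v
      rw [pow_succ, pow_succ, act_mul]
      show ((φ ^ n) (φ v)).1 = _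
      rw [ih]
  have h1 : φ ^ r ^ 1 = 1 := by
    funext v
    apply Subtype.ext
    rw [hpow, pow_one, hρ, act_one]; rfl
  have h2 := Equiv.Perm.card_fixedPoints_modEq h1
  by_contra hcon
  push Not at hcon
  apply hcard
  have h3 : Fintype.card φ.fixedPoints = 0 := by
    rw [Fintype.card_eq_zero_iff]
    refine ⟨fun v => hcon v.1.1 v.1.2 ?_⟩
    have h4 : φ v.1 = v.1 := v.2
    exact congrArg Subtype.val h4
  rw [h3] at h2
  rw [Nat.card_eq_fintype_card]
  exact (Nat.modEq_zero_iff_dvd).1 h2

theorem card_sub (hF : Fintype.card F = q ^ 2) (W : Submodule F (Fin 3 → F)) :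
    Nat.card W = q ^ (2 * Module.finrank F W) := by
  classical
  rw [Nat.card_eq_fintype_card, Module.card_eq_pow_finrank (K := F), hF, ← pow_mul]

/-- an element of prime order `r ∤ q (q⁴ - 1)` has no fixed vectors -/
theorem no_fixed (hF : Fintype.card F = q ^ 2) {r : ℕ} [hr : Fact r.Prime] (hrq : ¬ r ∣ q)
    (hr4 : ¬ r ∣ q ^ 4 - 1) {ρ : SU 3 F q} (hρ : ρ ^ r = 1) (hρ1 : ρ ≠ 1) {v : Fin 3 → F}
    (hv : act ρ v = v) : v = 0 := by
  by_contra hv0
  have hq := two_le_q hF
  let W : Submodule F (Fin 3 → F) := LinearMap.ker (actL ρ - LinearMap.id)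
  have hW : ∀ x, x ∈ W ↔ act ρ x = x := by
    intro x
    rw [LinearMap.mem_ker, LinearMap.sub_apply, LinearMap.id_apply, sub_eq_zero]; rfl
  have hWtop : W ≠ ⊤ := by
    intro h
    apply hρ1
    apply act_ext
    intro x
    rw [act_one, ← hW, h]; trivial
  have hWbot : W ≠ ⊥ := by
    intro h
    apply hv0
    rw [← Submodule.mem_bot F, ← h, hW]; exact hv
  have hfr : Module.finrank F W = 1 ∨ Module.finrank F W = 2 := by
    have h1 := Submodule.finrank_lt hWtop
    rw [Module.finrank_fin_fun] at h1
    have h2 : Module.finrank F W ≠ 0 := by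
      rw [Ne, Submodule.finrank_eq_zero]; exact hWbot
    omega
  have hcW := card_sub hF W
  obtain ⟨x, hx, hx'⟩ := exists_fixed_of r hρ ((W : Set (Fin 3 → F))ᶜ) (by
    intro x hx h
    apply hx
    have h1 := (hW _).1 h
    exact (hW x).2 (act_inj.1 h1)) (by
    have h1 : Nat.card ((W : Set (Fin 3 → F))ᶜ : Set (Fin 3 → F)) + Nat.card W = q ^ 6 := by
      have h2 := Set.ncard_add_ncard_compl (W : Set (Fin 3 → F))
      rw [← Nat.card_coe_set_eq, ← Nat.card_coe_set_eq] at h2
      rw [add_comm]
      refine h2.trans ?_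
      rw [Nat.card_fun, Nat.card_eq_fintype_card, Nat.card_eq_fintype_card, hF, Fintype.card_fin,
        ← pow_mul]
    intro hdvd
    have h3 : r ∣ q ^ 6 - Nat.card W := by
      rw [← h1, Nat.add_sub_cancel]; exact hdvd
    rw [hcW] at h3
    rcases hfr with h | h
    · rw [h] at h3
      have h4 : q ^ 6 - q ^ (2 * 1) = q ^ 2 * (q ^ 4 - 1) := by
        rw [Nat.mul_sub, ← pow_add, mul_one (q ^ 2)]
      rw [h4] at h3
      rcases (Nat.Prime.dvd_mul hr.out).1 h3 with h5 | h5
      · exact hrq (hr.out.dvd_of_dvd_pow h5)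
      · exact hr4 h5
    · rw [h] at h3
      have h4 : q ^ 6 - q ^ (2 * 2) = q ^ 4 * (q ^ 2 - 1) := by
        rw [Nat.mul_sub, ← pow_add, mul_one]
      rw [h4] at h3
      rcases (Nat.Prime.dvd_mul hr.out).1 h3 with h5 | h5
      · exact hrq (hr.out.dvd_of_dvd_pow h5)
      · apply hr4
        have h6 : q ^ 4 - 1 = (q ^ 2 - 1) * (q ^ 2 + 1) := by
          have := Nat.sq_sub_sq (q ^ 2) 1
          rw [one_pow, ← pow_mul] at this
          rw [this, mul_comm]
        rw [h6]; exact Dvd.dvd.mul_right h5 _)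
  exact hx ((hW x).2 hx')

/-- elements commuting with `ρ` and fixing a vector are trivial -/
theorem star (hF : Fintype.card F = q ^ 2) {r : ℕ} [hr : Fact r.Prime] (hrq : ¬ r ∣ q)
    (hr4 : ¬ r ∣ q ^ 4 - 1) {ρ x : SU 3 F q} (hρ : ρ ^ r = 1) (hρ1 : ρ ≠ 1)
    (hx : x * ρ = ρ * x) {v : Fin 3 → F} (hv0 : v ≠ 0) (hv : act x v = v) : x = 1 := by
  by_contra hx1
  have hq := two_le_q hF
  let W : Submodule F (Fin 3 → F) := LinearMap.ker (actL x - LinearMap.id)
  have hW : ∀ y, y ∈ W ↔ act x y = y := by
    intro y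
    rw [LinearMap.mem_ker, LinearMap.sub_apply, LinearMap.id_apply, sub_eq_zero]; rfl
  have hWtop : W ≠ ⊤ := by
    intro h
    apply hx1
    apply act_ext
    intro y
    rw [act_one, ← hW, h]; trivial
  have hWbot : W ≠ ⊥ := by
    intro h
    apply hv0
    rw [← Submodule.mem_bot F, ← h, hW]; exact hv
  have hfr : Module.finrank F W = 1 ∨ Module.finrank F W = 2 := by
    have h1 := Submodule.finrank_lt hWtop
    rw [Module.finrank_fin_fun] at h1
    have h2 : Module.finrank F W ≠ 0 := by
      rw [Ne, Submodule.finrank_eq_zero]; exact hWbot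
    omega
  have hcW := card_sub hF W
  obtain ⟨y, hy, hy'⟩ := exists_fixed_of r hρ ((W : Set (Fin 3 → F)) \ {0}) (by
    rintro y ⟨hy, hy0⟩
    refine ⟨?_, ?_⟩
    · have h1 := (hW y).1 hy
      refine (hW _).2 ?_
      rw [← act_mul, hx, act_mul, h1]
    · exact act_ne_zero hy0) (by
    have h1 : Nat.card ((W : Set (Fin 3 → F)) \ {0} : Set (Fin 3 → F)) = Nat.card W - 1 := by
      rw [Nat.card_coe_set_eq, Set.ncard_sdiff_singleton_of_mem W.zero_mem, ← Nat.card_coe_set_eq]
      rfl
    rw [h1, hcW]
    intro hdvd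
    rcases hfr with h | h
    · rw [h] at hdvd
      apply hr4
      have h6 : q ^ 4 - 1 = (q ^ 2 - 1) * (q ^ 2 + 1) := by
        have := Nat.sq_sub_sq (q ^ 2) 1
        rw [one_pow, ← pow_mul] at this
        rw [this, mul_comm]
      rw [h6]; exact Dvd.dvd.mul_right hdvd _
    · rw [h] at hdvd; exact hr4 hdvd)
  exact hy.2 (no_fixed hF hrq hr4 hρ hρ1 hy')

end Cfsg.Agent.H48.U3
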