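import Cfsg.Agent.H48.U3M

/-!
# Sylow arguments
-/

set_option autoImplicit false
set_option linter.unusedSectionVars false

namespace Cfsg.Agent.H48.U3

open Finset Matrix Cfsg.Agent.Uni

variable {F : Type*} [Field F] [Fintype F] {q : ℕ} {e w f : Fin 3 → F}

/-- the `-1`-eigenspace -/
def Um (z : SU 3 F q) : Submodule F (Fin 3 → F) := LinearMap.ker (actL z + LinearMap.id)

theorem mem_Um {z : SU 3 F q} {x : Fin 3 → F} : x ∈ Um z ↔ act z x = -x := by
  unfold Um
  rw [LinearMap.mem_ker, LinearMap.add_apply, LinearMap.id_apply, add_eq_zero_iff_eq_neg]; rfl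

theorem char_two_of_even (hF : Fintype.card F = q ^ 2) (hq : Even q) : CharP F 2 := by
  obtain ⟨p, b, hp, hchar, hb, hqb⟩ := q_prime_pow hF
  have : p = 2 := by
    rw [hqb] at hq
    have h1 := even_iff_two_dvd.1 hq
    exact ((Nat.prime_dvd_prime_iff_eq Nat.prime_two hp).1 (Nat.prime_two.dvd_of_dvd_pow h1)).symm
  rwa [this] at hchar

theorem two_le_Um (hF : Fintype.card F = q ^ 2) {z : SU 3 F q} (hz2 : z * z = 1) (hz1 : z ≠ 1) :
    2 ≤ Module.finrank F (Um z) ∧ ∃ v, v ≠ 0 ∧ act z v = v := by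
  rcases Nat.even_or_odd q with hq | hq
  · have hc := char_two_of_even hF hq
    have hU : ∀ x, x ∈ Um z ↔ act z x = x := by
      intro x
      rw [mem_Um]
      have : -x = x := by
        funext i
        exact CharTwo.neg_eq (x i)
      rw [this]
    have h1 : 2 ≤ Module.finrank F (Um z) := by
      have h2 := LinearMap.finrank_range_add_finrank_ker (actL z + LinearMap.id)
      have h3 : LinearMap.range (actL z + LinearMap.id) ≤ Um z := by
        rintro _ ⟨x, rfl⟩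
        rw [hU]
        show act z (act z x + x) = act z x + x
        rw [act_add, ← act_mul, hz2, act_one, add_comm]
      have h4 := Submodule.finrank_mono h3
      rw [Module.finrank_fin_fun] at h2
      have h5 : Module.finrank F (LinearMap.ker (actL z + LinearMap.id)) =
        Module.finrank F (Um z) := rfl
      omega
    refine ⟨h1, ?_⟩
    have h2 : Um z ≠ ⊥ := by
      intro h
      rw [h, finrank_bot] at h1
      omega
    obtain ⟨v, hv, hv0⟩ := (Submodule.ne_bot_iff _).1 h2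
    exact ⟨v, hv0, (hU v).1 hv⟩
  · obtain ⟨e, w, f, B, T⟩ := exists_TI hF hq hz2 hz1
    refine ⟨?_, w, B.w_ne, T.hw⟩
    have hyp : Hyp q e f := ⟨B.ee, B.ff, B.ef⟩
    rw [← hyp.finrank hF]
    apply Submodule.finrank_mono
    rw [Submodule.span_le]
    rintro x (rfl | rfl)
    · exact mem_Um.2 T.he
    · exact mem_Um.2 T.hf

theorem common_vec (hF : Fintype.card F = q ^ 2) {z z' : SU 3 F q} (hz2 : z * z = 1) (hz1 : z ≠ 1)
    (hz2' : z' * z' = 1) (hz1' : z' ≠ 1) : ∃ v, v ≠ 0 ∧ act (z * z') v = v := by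
  have h1 := (two_le_Um hF hz2 hz1).1
  have h2 := (two_le_Um hF hz2' hz1').1
  have h3 := Submodule.finrank_sup_add_finrank_inf_eq (Um z) (Um z')
  have h4 := Submodule.finrank_le (Um z ⊔ Um z')
  rw [Module.finrank_fin_fun] at h4
  have h5 : Um z ⊓ Um z' ≠ ⊥ := by
    intro h
    rw [h, finrank_bot] at h3
    omega
  obtain ⟨v, hv, hv0⟩ := (Submodule.ne_bot_iff _).1 h5
  refine ⟨v, hv0, ?_⟩
  rw [act_mul, mem_Um.1 hv.2, act_neg, mem_Um.1 hv.1, neg_neg]

/-- no involution normalizes a group of order `r` -/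
theorem no_inv (hF : Fintype.card F = q ^ 2) {r : ℕ} [hr : Fact r.Prime] (hr2 : r ≠ 2)
    (hrq : ¬ r ∣ q) (hr4 : ¬ r ∣ q ^ 4 - 1) {ρ z : SU 3 F q} (hρ : ρ ^ r = 1) (hρ1 : ρ ≠ 1)
    (hz2 : z * z = 1) (hz1 : z ≠ 1) (h : z * ρ * z⁻¹ ∈ Subgroup.zpowers ρ) : False := by
  have hord : orderOf ρ = r := orderOf_eq_prime hρ hρ1
  obtain ⟨k, hk⟩ := Subgroup.mem_zpowers_iff.1 h
  have h1 : z * ρ ^ k * z⁻¹ = ρ ^ (k * k) := by
    rw [_root_.zpow_mul, hk, conj_zpow, ← hk]
  have h2 : ρ ^ (k * k) = ρ := by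
    rw [← h1, hk]
    have : z * (z * ρ * z⁻¹) * z⁻¹ = (z * z) * ρ * (z * z)⁻¹ := by group
    rw [this, hz2]; group
  have h3 : ρ ^ ((k - 1) * (k + 1)) = 1 := by
    have : (k - 1) * (k + 1) = k * k - 1 := by ring
    rw [this, _root_.zpow_sub, h2, _root_.zpow_one, mul_inv_cancel]
  have h4 : (r : ℤ) ∣ (k - 1) * (k + 1) := by
    rw [← hord]; exact orderOf_dvd_iff_zpow_eq_one.2 h3
  have hzinv : z⁻¹ = z := inv_eq_of_mul_eq_one_right hz2
  rcases (Nat.prime_iff_prime_int.1 hr.out).dvd_or_dvd h4 with h5 | h5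
  · -- commuting
    have h6 : ρ ^ (k - 1) = 1 := by
      rw [← orderOf_dvd_iff_zpow_eq_one, hord]; exact h5
    have h7 : ρ ^ k = ρ := by
      have : ρ ^ k = ρ ^ (k - 1) * ρ := by rw [_root_.zpow_sub_one]; group
      rw [this, h6, one_mul]
    have h8 : z * ρ = ρ * z := by
      have h9 : z * ρ * z⁻¹ = ρ := by rw [← hk, h7]
      calc z * ρ = (z * ρ * z⁻¹) * z := by group
        _ = ρ * z := by rw [h9]
    obtain ⟨-, v, hv0, hv⟩ := two_le_Um hF hz2 hz1
    exact hz1 (star hF hrq hr4 hρ hρ1 h8 hv0 hv)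
  · -- inverting
    have h6 : ρ ^ (k + 1) = 1 := by
      rw [← orderOf_dvd_iff_zpow_eq_one, hord]; exact h5
    have h7 : ρ ^ k = ρ⁻¹ := by
      rw [_root_.zpow_add_one] at h6
      exact eq_inv_of_mul_eq_one_left h6
    have h9 : z * ρ * z⁻¹ = ρ⁻¹ := by rw [← hk, h7]
    have h10 : (ρ * z * ρ⁻¹) * z = ρ * ρ := by
      have h11 : z * ρ⁻¹ * z⁻¹ = ρ := by
        have : z * ρ⁻¹ * z⁻¹ = (z * ρ * z⁻¹)⁻¹ := by group
        rw [this, h9, inv_inv]
      calc (ρ * z * ρ⁻¹) * z = ρ * (z * ρ⁻¹ * z) := by group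
        _ = ρ * (z * ρ⁻¹ * z⁻¹) := by rw [hzinv]
        _ = ρ * ρ := by rw [h11]
    obtain ⟨v, hv0, hv⟩ := common_vec hF (z := ρ * z * ρ⁻¹) (z' := z) (by
      have : ρ * z * ρ⁻¹ * (ρ * z * ρ⁻¹) = ρ * (z * z) * ρ⁻¹ := by group
      rw [this, hz2]; group) (by rwa [Ne, conj_eq_one_iff]) hz2 hz1
    rw [h10] at hv
    have h12 := star hF hrq hr4 hρ hρ1 (x := ρ * ρ) (by group) hv0 hv
    have h13 : orderOf ρ ∣ 2 := orderOf_dvd_of_pow_eq_one (by rw [sq]; exact h12)
    rw [hord] at h13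
    exact hr2 ((Nat.prime_dvd_prime_iff_eq hr.out Nat.prime_two).1 h13)

/-- the Sylow count -/
theorem sylow_odd (hF : Fintype.card F = q ^ 2) {r : ℕ} [hr : Fact r.Prime] (hr2 : r ≠ 2)
    (hrq : ¬ r ∣ q) (hr4 : ¬ r ∣ q ^ 4 - 1) {M : Subgroup (SU 3 F q)} {m : ℕ}
    (hM : Nat.card M = r * m) (hm : ¬ r ∣ m) : ∃ s, Odd s ∧ Nat.card (Sylow r M) * s = m ∧
      Nat.card (Sylow r M) % r = 1 := by
  classical
  obtain ⟨R⟩ : Nonempty (Sylow r M) := inferInstance
  have hRcard : Nat.card R = r := by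
    rw [R.card_eq_multiplicity, hM, Nat.factorization_mul hr.out.ne_zero (by
      rintro rfl; exact hm (dvd_zero _)), Finsupp.add_apply, hr.out.factorization_self,
      Nat.factorization_eq_zero_of_not_dvd hm, add_zero, pow_one]
  have hidx : Nat.card (Sylow r M) = (Subgroup.normalizer ((R : Subgroup M) : Set M)).index :=
    Sylow.card_eq_index_normalizer R
  have hmul := (Subgroup.normalizer ((R : Subgroup M) : Set M)).card_mul_index
  rw [← hidx, hM] at hmul
  have hdvd : r ∣ Nat.card (Subgroup.normalizer ((R : Subgroup M) : Set M)) := by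
    have h1 : Nat.card (R : Subgroup M) ∣
        Nat.card (Subgroup.normalizer ((R : Subgroup M) : Set M)) :=
      Subgroup.card_dvd_of_le Subgroup.le_normalizer
    have h2 : Nat.card (R : Subgroup M) = r := hRcard
    rwa [h2] at h1
  obtain ⟨s, hs⟩ := hdvd
  refine ⟨s, ?_, ?_, ?_⟩
  · by_contra hcon
    rw [Nat.not_odd_iff_even] at hcon
    have h2 : 2 ∣ Nat.card (Subgroup.normalizer ((R : Subgroup M) : Set M)) := by
      rw [hs]; exact Dvd.dvd.mul_left (even_iff_two_dvd.1 hcon) _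
    obtain ⟨z, hz⟩ := exists_prime_orderOf_dvd_card' 2 h2
    -- a generator of R
    have hRc : Nat.card (R : Subgroup M) = r := hRcard
    have : Nontrivial (R : Subgroup M) := by
      rw [← Finite.one_lt_card_iff_nontrivial, hRc]; exact hr.out.one_lt
    obtain ⟨ρ, hρ⟩ := exists_ne (1 : (R : Subgroup M))
    have hord : orderOf ρ = r := by
      have h3 := orderOf_dvd_natCard ρ
      rw [hRc] at h3
      rcases (Nat.dvd_prime hr.out).1 h3 with h4 | h4
      · exact absurd (orderOf_eq_one_iff.1 h4) hρ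
      · exact h4
    have hgen : ∀ x : (R : Subgroup M), x ∈ Subgroup.zpowers ρ := by
      intro x
      exact mem_zpowers_of_prime_card hRc hρ
    have hzn := (Subgroup.mem_normalizer_iff.1 z.2 ρ.1).1 ρ.2
    obtain ⟨k, hk⟩ := Subgroup.mem_zpowers_iff.1 (hgen ⟨_, hzn⟩)
    have hk' : ((ρ : M) : SU 3 F q) ^ k = ((z : M) : SU 3 F q) * ((ρ : M) : SU 3 F q) *
        ((z : M) : SU 3 F q)⁻¹ := by
      have := congrArg (fun x : (R : Subgroup M) => ((x : M) : SU 3 F q)) hk
      simpa using this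
    have hz2 : z ^ 2 = 1 := by rw [← hz]; exact pow_orderOf_eq_one z
    refine no_inv hF (r := r) hr2 hrq hr4 (ρ := ((ρ : M) : SU 3 F q))
      (z := ((z : M) : SU 3 F q)) ?_ ?_ ?_ ?_ (Subgroup.mem_zpowers_iff.2 ⟨k, hk'⟩)
    · have h3 : ρ ^ r = 1 := orderOf_dvd_iff_pow_eq_one.1 hord.dvd
      have := congrArg (fun x : (R : Subgroup M) => ((x : M) : SU 3 F q)) h3
      simpa using this
    · intro h3
      exact hρ (Subtype.ext (Subtype.ext h3))
    · have := congrArg (fun x : (Subgroup.normalizer ((R : Subgroup M) : Set M)) =>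
        ((x : M) : SU 3 F q)) hz2
      rw [sq] at this
      simpa using this
    · intro h3
      have h4 : z = 1 := Subtype.ext (Subtype.ext h3)
      rw [h4, orderOf_one] at hz
      norm_num at hz
  · rw [hs] at hmul
    apply Nat.eq_of_mul_eq_mul_left hr.out.pos
    rw [← hmul]; ring
  · have h1 := card_sylow_modEq_one r M
    unfold Nat.ModEq at h1
    rw [h1, Nat.mod_eq_of_lt hr.out.one_lt]

end Cfsg.Agent.H48.U3
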