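import Cfsg.Agent.H48.U3N

/-!
# The toral case in even characteristic
-/

set_option autoImplicit false
set_option linter.unusedSectionVars false

namespace Cfsg.Agent.H48.U3

open Finset Matrix Cfsg.Agent.Uni

variable {F : Type*} [Field F] [Fintype F] {q : ℕ} {e w f : Fin 3 → F}

/-- eigenvectors of a diagonal element with distinct eigenvalues -/
theorem eig_diag (hF : Fintype.card F = q ^ 2) (B : HB q e w f) {g : SU 3 F q} {a b c d : F}
    (he : act g e = a • e) (hw : act g w = b • w) (hf : act g f = c • f) (hab : a ≠ b)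
    (hac : a ≠ c) (hbc : b ≠ c) {v : Fin 3 → F} (hv : act g v = d • v) :
    (∃ k : F, v = k • e) ∨ (∃ k : F, v = k • w) ∨ (∃ k : F, v = k • f) := by
  have hx := B.expand hF v
  set x := hermForm 3 F q v f
  set y := hermForm 3 F q v w
  set z := hermForm 3 F q v e
  rw [hx] at hv
  rw [act_add, act_add, act_smul, act_smul, act_smul, he, hw, hf] at hv
  have h1 : (a - d) * x = 0 := by
    have := congrArg (fun t => hermForm 3 F q t f) hv
    simp only [hermForm_add_left, hermForm_smul_left, B.ef, B.ff, B.wf hF] at this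
    linear_combination this
  have h2 : (b - d) * y = 0 := by
    have := congrArg (fun t => hermForm 3 F q t w) hv
    simp only [hermForm_add_left, hermForm_smul_left, B.ew, B.ww, B.fw] at this
    linear_combination this
  have h3 : (c - d) * z = 0 := by
    have := congrArg (fun t => hermForm 3 F q t e) hv
    simp only [hermForm_add_left, hermForm_smul_left, B.ee, B.fe hF, B.we hF] at this
    linear_combination this
  by_cases hx0 : x = 0
  · by_cases hy0 : y = 0
    · right; right
      exact ⟨z, by rw [hx, hx0, hy0]; simp⟩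
    · right; left
      have hbd : b = d := sub_eq_zero.1 ((mul_eq_zero.1 h2).resolve_right hy0)
      have hz0 : z = 0 := (mul_eq_zero.1 h3).resolve_left
        (sub_ne_zero.2 (by rw [← hbd]; exact hbc.symm))
      exact ⟨y, by rw [hx, hx0, hz0]; simp⟩
  · left
    have had : a = d := sub_eq_zero.1 ((mul_eq_zero.1 h1).resolve_right hx0)
    have hy0 : y = 0 := (mul_eq_zero.1 h2).resolve_left
      (sub_ne_zero.2 (by rw [← had]; exact hab.symm))
    have hz0 : z = 0 := (mul_eq_zero.1 h3).resolve_left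
      (sub_ne_zero.2 (by rw [← had]; exact hac.symm))
    exact ⟨x, by rw [hx, hy0, hz0]; simp⟩

/-- in the toral case the stabilizer of a point fixes exactly one further point -/
theorem toral_fix (hF : Fintype.card F = q ^ 2) (hq : 3 ≤ q) (B : HB q e w f)
    {M : Subgroup (SU 3 F q)} (hA : Az hF e w f M = ⊥) (hV : Vx hF e w f M = ⊥)
    (hL : Nat.card (La e M) = q ^ 2 - 1) : ∃ y : IsoPt F q, y ≠ mkPt e B.e_ne B.ee ∧
      (∀ g ∈ M, g • mkPt e B.e_ne B.ee = mkPt e B.e_ne B.ee → g • y = y) ∧
      ∀ z : IsoPt F q, z ≠ mkPt e B.e_ne B.ee →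
        (∀ g ∈ M, g • mkPt e B.e_ne B.ee = mkPt e B.e_ne B.ee → g • z = z) → z = y := by
  classical
  have hLtop : La e M = ⊤ := by
    apply Subgroup.eq_top_of_card_eq
    rw [hL, card_units' hF]
  have hQ : ∀ g ∈ Qe e M, g = 1 := by
    have h1 := card_Qe hF B M
    rw [hA, hV, AddSubgroup.card_bot] at h1
    have h2 : Qe e M = ⊥ := Subgroup.card_eq_one.1 (by rw [← h1])
    intro g hg
    rw [h2] at hg; exact hg
  obtain ⟨l, hl⟩ := IsCyclic.exists_ofOrder_eq_natCard (α := Fˣ)
  rw [card_units' hF] at hl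
  have hq2 : 2 * q + 2 < q ^ 2 := by
    obtain ⟨k, rfl⟩ := Nat.exists_eq_add_of_le hq
    nlinarith
  have hpw : ∀ k : ℕ, 0 < k → k < q ^ 2 - 1 → l ^ k ≠ 1 := by
    intro k hk0 hk h
    have := Nat.le_of_dvd hk0 (orderOf_dvd_of_pow_eq_one h)
    omega
  have hpw' : ∀ k : ℕ, 0 < k → k < q ^ 2 - 1 → (l : F) ^ k ≠ 1 := by
    intro k hk0 hk h
    exact hpw k hk0 hk (Units.ext (by rw [Units.val_pow_eq_pow_val, h, Units.val_one]))
  have hlL : l ∈ La e M := by rw [hLtop]; trivial
  obtain ⟨g0, hg0, hg0e⟩ := hlL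
  have hl0 := l.ne_zero
  have hlq0 : (l : F) ^ q ≠ 0 := pow_ne_zero _ hl0
  obtain ⟨-, m, s, n, y, t, h1, h2, h3, h4, -⟩ := borel hF B hg0e
  -- distinct eigenvalues, for arbitrary solutions
  have hab : ∀ m : F, m * l = (l : F) ^ q → (l : F) ≠ m := by
    intro m hm h
    apply hpw' (q - 2) (by omega) (by omega)
    have h5 : (l : F) ^ (q - 2) * (l * l) = 1 * (l * l) := by
      rw [← sq, ← pow_add, Nat.sub_add_cancel (by omega), one_mul, sq, ← hm, ← h]
    exact mul_right_cancel₀ (mul_ne_zero hl0 hl0) h5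
  have hac : ∀ n : F, (l : F) ^ q * n = 1 → (l : F) ≠ n := by
    intro n hn h
    apply hpw' (q + 1) (by omega) (by omega)
    rw [pow_succ]
    nth_rewrite 2 [h]
    exact hn
  have hbc : ∀ m n : F, m * l = (l : F) ^ q → (l : F) ^ q * n = 1 → m ≠ n := by
    intro m n hm hn h
    apply hpw' (2 * q - 1) (by omega) (by omega)
    have h5 : (l : F) ^ (2 * q - 1) * l = 1 * l := by
      rw [← pow_succ, Nat.sub_add_cancel (by omega), two_mul, pow_add]
      nth_rewrite 2 [← hm]
      rw [h, ← mul_assoc, hn]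
    exact mul_right_cancel₀ hl0 h5
  have hnm : n - m ≠ 0 := sub_ne_zero.2 (hbc m n h4 h3).symm
  have hnl : n - l ≠ 0 := sub_ne_zero.2 (hac n h3).symm
  set α := y / (n - m) with hα
  set β := (t + α * s) / (n - l) with hβ
  have hα' : y + α * m = n * α := by
    have : α * (n - m) = y := div_mul_cancel₀ _ hnm
    linear_combination -this
  have hβ' : t + α * s + β * l = n * β := by
    have : β * (n - l) = t + α * s := div_mul_cancel₀ _ hnl
    linear_combination -this
  set f' := f + α • w + β • e with hf'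
  have hg0f' : act g0 f' = n • f' := by
    have e1 : act g0 f' = n • f + (y + α * m) • w + (t + α * s + β * l) • e := by
      rw [hf', act_add, act_add, act_smul, act_smul, h1, h2, hg0e]; module
    rw [e1, hα', hβ', hf']; module
  have hef' : hermForm 3 F q e f' = 1 := by
    rw [hf', hermForm_add_right hF, hermForm_add_right hF, hermForm_smul_right,
      hermForm_smul_right, B.ef, B.ew, B.ee]; ring
  have hff' : hermForm 3 F q f' f' = 0 := by
    have h5 : hermForm 3 F q (act g0 f') (act g0 f') = hermForm 3 F q f' f' := act_form _ _ _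
    rw [hg0f', hermForm_smul_left, hermForm_smul_right] at h5
    have h6 : (n * n ^ q - 1) * hermForm 3 F q f' f' = 0 := by linear_combination h5
    rcases mul_eq_zero.1 h6 with h7 | h7
    · exfalso
      apply hpw' (q + 1) (by omega) (by omega)
      have h8 : n * n ^ q = 1 := by linear_combination h7
      have h9 : ((l : F) ^ q * n) * (((l : F) ^ q * n) ^ q) = ((l : F) ^ (q + 1)) * (n * n ^ q) := by
        rw [mul_pow, pow_q_pow_q hF, pow_succ]; ring
      rw [h3, one_pow, h8, mul_one, mul_one] at h9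
      exact h9.symm
    · exact h7
  obtain ⟨w', B'⟩ := exists_HB hF (⟨B.ee, hff', hef'⟩ : Hyp q e f')
  obtain ⟨-, m', s', n', y', t', h1', h2', h3', h4', -⟩ := borel hF B' hg0e
  have hn' : n' = n := mul_left_cancel₀ hlq0 (h3'.trans h3.symm)
  have hs' : s' = 0 := by
    have h5 : hermForm 3 F q (act g0 w') (act g0 f') = 0 := by rw [act_form, B'.wf hF]
    rw [h1', hg0f', hermForm_smul_right, hermForm_add_left, hermForm_smul_left,
      hermForm_smul_left, B'.wf hF, B'.ef] at h5
    have hn0 : n ≠ 0 := by rintro rfl; rw [mul_zero] at h3; exact zero_ne_one h3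
    have h6 := (mul_eq_zero.1 h5).resolve_left (pow_ne_zero q hn0)
    linear_combination h6
  rw [hs', zero_smul, add_zero] at h1'
  have hab' := hab m' h4'
  have hac' := hac n h3
  have hbc' := hbc m' n h4' h3
  have hf'0 : f' ≠ 0 := B'.f_ne hF
  refine ⟨mkPt f' hf'0 hff', ?_, ?_, ?_⟩
  · rw [Ne, mkPt_eq_iff]
    rintro ⟨c, -, hc⟩
    have := hef'
    rw [hc, hermForm_smul_right, B.ee, mul_zero] at this
    exact zero_ne_one this
  · intro g hg hge
    rw [smul_mkPt, mkPt_eq_iff] at hge
    obtain ⟨c, hc, hge⟩ := hge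
    have hcomm : g * g0 = g0 * g := by
      have h5 : (g * g0) * (g0 * g)⁻¹ ∈ Qe e M := by
        refine ⟨M.mul_mem (M.mul_mem hg hg0) (M.inv_mem (M.mul_mem hg0 hg)), ?_⟩
        have h6 : act (g0 * g) e = (c * l : F) • e := by
          rw [act_mul, hge, act_smul, hg0e, smul_smul]
        have h7 : (c * (l : F))⁻¹ * (l : F) * c = 1 := by field_simp
        rw [act_mul, inv_fix (mul_ne_zero hc hl0) h6, act_smul, act_mul, hg0e, act_smul, hge,
          smul_smul, smul_smul, h7, one_smul]
      exact mul_inv_eq_one.1 (hQ _ h5)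
    have h5 : act g0 (act g f') = n • act g f' := by
      rw [← act_mul, ← hcomm, act_mul, hg0f', act_smul]
    rw [smul_mkPt, mkPt_eq_iff]
    rcases eig_diag hF B' hg0e h1' hg0f' hab' hac' hbc' h5 with ⟨k, hk⟩ | ⟨k, hk⟩ | ⟨k, hk⟩
    · exfalso
      have h6 : hermForm 3 F q (act g f') (act g e) = 1 := by rw [act_form, B'.fe hF]
      rw [hk, hge, hermForm_smul_left, hermForm_smul_right, B.ee] at h6
      simp at h6
    · exfalso
      have h6 : hermForm 3 F q (act g f') (act g f') = 0 := by rw [act_form, hff']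
      rw [hk, hermForm_smul_left, hermForm_smul_right, B'.ww, mul_one] at h6
      have hk0 : k = 0 := by
        rcases mul_eq_zero.1 h6 with h7 | h7
        · exact h7
        · exact (pow_q_eq_zero hF).1 h7
      rw [hk0, zero_smul] at hk
      exact act_ne_zero hf'0 hk
    · refine ⟨k, ?_, hk⟩
      rintro rfl
      rw [zero_smul] at hk
      exact act_ne_zero hf'0 hk
  · intro z hz hfix
    obtain ⟨v, hv0, hv, rfl⟩ := exists_mkPt z
    have h5 := hfix g0 hg0 (by
      rw [smul_mkPt, mkPt_eq_iff]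
      exact ⟨l, hl0, hg0e⟩)
    rw [smul_mkPt, mkPt_eq_iff] at h5
    obtain ⟨c, hc, h6⟩ := h5
    rw [mkPt_eq_iff]
    rcases eig_diag hF B' hg0e h1' hg0f' hab' hac' hbc' h6 with ⟨k, hk⟩ | ⟨k, hk⟩ | ⟨k, hk⟩
    · exfalso
      apply hz
      rw [mkPt_eq_iff]
      refine ⟨k, ?_, hk⟩
      rintro rfl
      rw [zero_smul] at hk
      exact hv0 hk
    · exfalso
      rw [hk, hermForm_smul_left, hermForm_smul_right, B'.ww, mul_one] at hv
      have hk0 : k = 0 := by
        rcases mul_eq_zero.1 hv with h7 | h7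
        · exact h7
        · exact (pow_q_eq_zero hF).1 h7
      rw [hk0, zero_smul] at hk
      exact hv0 hk
    · refine ⟨k, ?_, hk⟩
      rintro rfl
      rw [zero_smul] at hk
      exact hv0 hk

/-- orders of point stabilizers -/
theorem card_stab_const (hF : Fintype.card F = q ^ 2) {M : Subgroup (SU 3 F q)}
    (hM : ∀ x y : IsoPt F q, ∃ m ∈ M, m • x = y) (x y : IsoPt F q) :
    Nat.card (M ⊓ MulAction.stabilizer (SU 3 F q) x : Subgroup (SU 3 F q)) =
      Nat.card (M ⊓ MulAction.stabilizer (SU 3 F q) y : Subgroup (SU 3 F q)) := by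
  have h1 := card_of_trans hF hM x
  have h2 := card_of_trans hF hM y
  exact Nat.eq_of_mul_eq_mul_left (by omega) (h1.trans h2.symm)

/-- a transitive group whose point stabilizers fix exactly two points: even degree -/
theorem even_of_toral (hF : Fintype.card F = q ^ 2) {M : Subgroup (SU 3 F q)}
    (hM : ∀ x y : IsoPt F q, ∃ m ∈ M, m • x = y)
    (h : ∀ x : IsoPt F q, ∃ y : IsoPt F q, y ≠ x ∧ (∀ g ∈ M, g • x = x → g • y = y) ∧
      ∀ z : IsoPt F q, z ≠ x → (∀ g ∈ M, g • x = x → g • z = z) → z = y) : Even (q ^ 3 + 1) := by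
  classical
  choose σ h1 h2 h3 using h
  have hinv : ∀ x, σ (σ x) = x := by
    intro x
    symm
    apply h3 (σ x) x (h1 x).symm
    intro g hg hgσ
    have hle : M ⊓ MulAction.stabilizer (SU 3 F q) x ≤
        M ⊓ MulAction.stabilizer (SU 3 F q) (σ x) := fun g hg => ⟨hg.1, h2 x g hg.1 hg.2⟩
    have heq := Subgroup.eq_of_le_of_card_ge hle (card_stab_const hF hM _ _).le
    have : g ∈ M ⊓ MulAction.stabilizer (SU 3 F q) x := by
      rw [heq]; exact ⟨hg, hgσ⟩
    exact this.2
  have := Fintype.ofFinite (IsoPt F q)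
  let φ : Function.End (IsoPt F q) := σ
  have hφ : φ ^ 2 ^ 1 = 1 := by
    rw [pow_one, pow_two]
    funext x
    exact hinv x
  have h5 := Equiv.Perm.card_fixedPoints_modEq hφ
  have h7 : Fintype.card (Function.fixedPoints φ) = 0 := by
    rw [Fintype.card_eq_zero_iff]
    exact ⟨fun x => h1 x.1 x.2⟩
  rw [h7, ← Nat.card_eq_fintype_card, card_IsoPt hF] at h5
  exact even_iff_two_dvd.2 ((Nat.modEq_zero_iff_dvd).1 h5)

end Cfsg.Agent.H48.U3
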