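import Cfsg.Agent.H48.U3O

/-!
# Subgroups of `SU₃(q)` of index at most `q³` : the lower bound for `q ≠ 5`
-/

set_option autoImplicit false
set_option linter.unusedSectionVars false

namespace Cfsg.Agent.H48.U3

open Finset Matrix Cfsg.Agent.Uni

variable {F : Type*} [Field F] [Fintype F] {q : ℕ} {e w f : Fin 3 → F}

theorem card_M (hF : Fintype.card F = q ^ 2) (B : HB q e w f) {M : Subgroup (SU 3 F q)}
    (hidx : M.index ≤ q ^ 3) : (q ^ 3 + 1) *
      (Nat.card (Az hF e w f M) * Nat.card (Vx hF e w f M) * Nat.card (La e M)) =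
        Nat.card M := by
  rw [card_Me hF B M]
  exact card_of_trans hF (trans_of_index hF hidx) _

theorem no_sylow (hF : Fintype.card F = q ^ 2) (r m : ℕ) (hr : r.Prime) (hr2 : r ≠ 2)
    (hrq : ¬ r ∣ q) (hr4 : ¬ r ∣ q ^ 4 - 1) {M : Subgroup (SU 3 F q)}
    (hM : Nat.card M = r * m) (hm : ¬ r ∣ m)
    (h : ∀ s ∈ Finset.range (m + 1), s % 2 = 1 → m % s = 0 → (m / s) % r ≠ 1) : False := by
  have := Fact.mk hr
  obtain ⟨s, hs, h1, h2⟩ := sylow_odd hF (r := r) hr2 hrq hr4 hM hm
  have hm0 : 0 < m := Nat.pos_of_ne_zero (by rintro rfl; exact hm (dvd_zero _))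
  have hsd : s ∣ m := ⟨_, by rw [← h1, mul_comm]⟩
  have hs0 : 0 < s := Nat.pos_of_dvd_of_pos hsd hm0
  have h3 : m / s = Nat.card (Sylow r M) := by
    rw [← h1]; exact Nat.mul_div_cancel _ hs0
  refine h s ?_ (Nat.odd_iff.1 hs) (Nat.mod_eq_zero_of_dvd hsd) ?_
  · rw [Finset.mem_range]
    exact Nat.lt_succ_of_le (Nat.le_of_dvd hm0 hsd)
  · rw [h3]; exact h2

/-- bases adapted to a point -/
theorem exists_HB_pt (hF : Fintype.card F = q ^ 2) (x : IsoPt F q) :
    ∃ e w f, ∃ B : HB q e w f, x = mkPt e B.e_ne B.ee := by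
  obtain ⟨u, h0, hu, rfl⟩ := exists_mkPt x
  obtain ⟨w, f, B⟩ := exists_HB_of_iso hF h0 hu
  exact ⟨u, w, f, B, rfl⟩

/-- the lower bound, even case -/
theorem main_even (hF : Fintype.card F = q ^ 2) (hq : 3 ≤ q) (heven : Even q)
    {M : Subgroup (SU 3 F q)} (hidx : M.index ≤ q ^ 3) (hne : M ≠ ⊤) : False := by
  have hodd : ¬ Odd q := Nat.not_odd_iff_even.2 heven
  have hM := trans_of_index hF hidx
  by_cases h8 : ∃ x : IsoPt F q, Nat.card (M ⊓ MulAction.stabilizer (SU 3 F q) x :
      Subgroup (SU 3 F q)) = 72 ∧ q = 8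
  · obtain ⟨x, h1, rfl⟩ := h8
    have h2 := card_of_trans hF hM x
    rw [h1] at h2
    refine no_sylow hF (M := M) 19 1944 (by norm_num) (by norm_num) (by norm_num) (by norm_num)
      (by rw [← h2]; norm_num) (by norm_num) (by decide +kernel)
  · push Not at h8
    have key : ∀ x : IsoPt F q, ∃ y : IsoPt F q, y ≠ x ∧ (∀ g ∈ M, g • x = x → g • y = y) ∧
        ∀ z : IsoPt F q, z ≠ x → (∀ g ∈ M, g • x = x → g • z = z) → z = y := by
      intro x
      obtain ⟨e, w, f, B, rfl⟩ := exists_HB_pt hF x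
      rcases classify hF hq B hidx hne with ⟨h1, h2, h3⟩ | ⟨-, h, -⟩ | ⟨h1, h2, h3, h4⟩ | ⟨h1, -⟩
      · exact toral_fix hF hq B h1 h2 h3
      · exact absurd h hodd
      · exfalso
        refine h8 (mkPt e B.e_ne B.ee) ?_ h1
        rw [← card_Me hF B M, h2, h3, h4]
      · exfalso
        rw [h1] at heven
        exact absurd heven (by decide)
    have h1 := even_of_toral hF hM key
    have h2 : Even (q ^ 3) := (Nat.even_pow.2 ⟨heven, by norm_num⟩)
    rw [Nat.even_add_one] at h1
    exact h1 h2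

/-- odd case: the exceptional parameters -/
theorem main_odd (hF : Fintype.card F = q ^ 2) (hq : 3 ≤ q) (hodd : Odd q)
    {M : Subgroup (SU 3 F q)} (hidx : M.index ≤ q ^ 3) (hne : M ≠ ⊤) (h5 : q ≠ 5) :
    q = 11 ∧ Nat.card M = 439560 ∧ ∀ e w f, HB q e w f → Nat.card (Qe e M) = 11 := by
  have hM := trans_of_index hF hidx
  have h2 : 2 ∣ Nat.card M := by
    obtain ⟨e, w, f, B⟩ := exists_HB_any (F := F) (q := q) hF
    rw [← card_M hF B hidx]
    refine Dvd.dvd.mul_right ?_ _
    apply even_iff_two_dvd.1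
    rw [Nat.even_add_one, Nat.not_even_iff_odd]
    exact hodd.pow
  obtain ⟨t, ht⟩ := exists_prime_orderOf_dvd_card' 2 h2
  have ht2 : (t : SU 3 F q) * t = 1 := by
    have : t ^ 2 = 1 := by rw [← ht]; exact pow_orderOf_eq_one t
    have := congrArg (fun x : M => (x : SU 3 F q)) this
    rw [sq] at this
    simpa using this
  have ht1 : (t : SU 3 F q) ≠ 1 := by
    intro h
    have : t = 1 := Subtype.ext h
    rw [this, orderOf_one] at ht
    norm_num at ht
  obtain ⟨e, w, f, B, T⟩ := exists_TI hF hodd ht2 ht1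
  have hcM := card_M hF B hidx
  rcases classify hF hq B hidx hne with ⟨h1, h2, h3⟩ | ⟨h1, -, h2, h3, h4⟩ | ⟨h1, -⟩ |
    ⟨h1, h2, h3, h4⟩
  · exfalso
    obtain ⟨k0, m, hk0, hk1, hk2, hk3⟩ := invol_case hF B hodd hM h1 t.2 T
    have hk4 : k0 ≤ q + 1 := hk1.trans (card_norm_le hF _)
    rw [h3] at hk2
    rw [h1, h2, AddSubgroup.card_bot, h3] at hcM
    rcases Nat.lt_or_ge q 6 with hq6 | hq6
    · have hq3 : q = 3 := by
        rcases hodd with ⟨j, rfl⟩
        omega
      subst hq3
      refine no_sylow hF (M := M) 7 32 (by norm_num) (by norm_num) (by norm_num) (by norm_num)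
        (by rw [← hcM]; norm_num) (by norm_num) (by decide +kernel)
    · have hsq : (q + 1) * (q - 1) = q ^ 2 - 1 := by
        have := Nat.sq_sub_sq q 1
        rw [one_pow] at this
        exact this.symm
      have hm : q - 1 ≤ m := by
        by_contra hcon
        push Not at hcon
        have h6 : m * k0 ≤ m * (q + 1) := Nat.mul_le_mul_left _ hk4
        have h7 : m * (q + 1) < (q - 1) * (q + 1) := Nat.mul_lt_mul_of_pos_right hcon (by omega)
        rw [hk2, ← hsq, mul_comm (q + 1)] at h6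
        omega
      have h6 := hk3 (by omega)
      have h7 : (q + 1) * (q - 1) ≤ (q + 1) * m := Nat.mul_le_mul_left _ hm
      have h8 : q ≤ 7 := by
        by_contra hcon
        push Not at hcon
        have : 9 * 7 ≤ (q + 1) * (q - 1) := Nat.mul_le_mul (by omega) (by omega)
        omega
      have h9 : q = 7 := by
        rcases hodd with ⟨j, rfl⟩
        omega
      subst h9
      omega
  · obtain ⟨k0, m, hk0, hk1, hk2, hk3⟩ := invol_case hF B hodd hM h1 t.2 T
    have hdvd : Nat.card (La e M) ∣ 3 * (q - 1) := by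
      rcases h4 with h4 | h4
      · rw [h4]
      · exact ⟨2, by omega⟩
    have hk4 : k0 ≤ 6 := hk1.trans (card_norm_le6 _ (by omega) fun l hl => by
      obtain ⟨c, hc⟩ := hdvd
      rw [hc, pow_mul]
      have : (⟨l, hl⟩ : La e M) ^ Nat.card (La e M) = 1 := pow_card_eq_one'
      have h6 : l ^ Nat.card (La e M) = 1 := congrArg Subtype.val this
      rw [h6, one_pow])
    have hq11 : 11 ≤ q := by
      rcases hodd with ⟨j, rfl⟩
      omega
    have hm3 : 3 ≤ m := by
      by_contra hcon
      push Not at hcon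
      have : m * k0 ≤ 2 * 6 := Nat.mul_le_mul (by omega) hk4
      rw [hk2] at this
      omega
    have h6 := hk3 hm3
    have h7 : (q + 1) * 3 ≤ (q + 1) * m := Nat.mul_le_mul_left _ hm3
    have h8 : q < 20 := by omega
    have h9 : q = 11 := by
      rcases hodd with ⟨j, rfl⟩
      have hj : j < 10 := by omega
      have hj2 : 5 ≤ j := by omega
      interval_cases j
      all_goals omega
    subst h9
    have hm5 : m = 5 := by omega
    subst hm5
    have h10 : Nat.card (La e M) = 30 := by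
      rcases h4 with h4 | h4
      · exact h4
      · exfalso
        have : k0 = 3 := by omega
        rw [this] at hk0
        exact absurd hk0 (by decide)
    rw [h1, AddSubgroup.card_bot, h2, h10] at hcM
    refine ⟨rfl, hcM.symm, ?_⟩
    intro e' w' f' B'
    rw [← card_Qe hF B' M]
    have h11 : Nat.card (Az hF e' w' f' M) * Nat.card (Vx hF e' w' f' M) *
        Nat.card (La e' M) = 330 := by
      have h12 := card_M hF B' hidx
      rw [← hcM] at h12
      have : (11 ^ 3 + 1 : ℕ) * (Nat.card (Az hF e' w' f' M) * Nat.card (Vx hF e' w' f' M) *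
        Nat.card (La e' M)) = (11 ^ 3 + 1) * 330 := by rw [h12]
      exact Nat.eq_of_mul_eq_mul_left (by norm_num) this
    rcases classify hF hq B' hidx hne with ⟨h1, h2, h3⟩ | ⟨h1, -, h2, h3, h4⟩ | ⟨h1, -⟩ |
      ⟨h1, h2, h3, h4⟩
    · rw [h1, h2, h3, AddSubgroup.card_bot] at h11
      norm_num at h11
    · rw [h1, h2, AddSubgroup.card_bot]
    · omega
    · omega
  · exfalso
    rw [h1] at hodd
    exact absurd hodd (by decide)
  · exfalso
    subst h1
    rw [h2, h3, h4] at hcM
    refine no_sylow hF (M := M) 73 1080 (by norm_num) (by norm_num) (by norm_num) (by norm_num)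
      (by rw [← hcM]; norm_num) (by norm_num) (by decide +kernel)

end Cfsg.Agent.H48.U3
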