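import Cfsg.Agent.H48.U3P
import Cfsg.Agent.AutPSU.Transv

/-!
# The exceptional parameters at `q = 11`, and the minimal index of `PSU₃(q)`, `q ≠ 5`
-/

set_option autoImplicit false
set_option linter.unusedSectionVars false

namespace Cfsg.Agent.H48.U3

open Finset Matrix Cfsg.Agent.Uni

section family

variable {G ι : Type*} [Group G] [Finite G] [Fintype ι]

theorem card_ne_one (K : Subgroup G) : Nat.card {g : K // g ≠ 1} = Nat.card K - 1 := by
  classical
  have h := Nat.card_congr (Equiv.optionSubtypeNe (1 : K))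
  rw [Finite.card_option] at h
  omega

/-- counting with a family of subgroups meeting pairwise trivially, times a central subgroup
of coprime order -/
theorem count_family (Z M : Subgroup G) (hZ : Z ≤ Subgroup.center G) (hZM : Z ≤ M)
    (K : ι → Subgroup G) (hKM : ∀ i, K i ≤ M) (hK : ∀ i j, i ≠ j → ∀ g, g ∈ K i → g ∈ K j → g = 1)
    (N : ℕ) (hN : ∀ i, ∀ g ∈ K i, g ^ N = 1) (hN1 : ∀ z ∈ Z, z ^ (N + 1) = 1) :
    Nat.card Z * ∑ i, (Nat.card (K i) - 1) ≤ Nat.card M := by
  have h1 : Nat.card (Z × (Σ i, {g : K i // g ≠ 1})) = Nat.card Z * ∑ i, (Nat.card (K i) - 1) := by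
    rw [Nat.card_prod, Nat.card_sigma]
    congr 1
    exact Finset.sum_congr rfl fun i _ => card_ne_one (K i)
  rw [← h1]
  have hpow : ∀ z ∈ Z, ∀ i, ∀ g ∈ K i, (z * g) ^ (N + 1) = g := by
    intro z hz i g hg
    have hc : Commute z g := (Subgroup.mem_center_iff.1 (hZ hz) g).symm
    rw [hc.mul_pow, hN1 z hz, one_mul, pow_succ, hN i g hg, one_mul]
  refine Nat.card_le_card_of_injective (fun p : Z × (Σ i, {g : K i // g ≠ 1}) =>
    (⟨p.1.1 * p.2.2.1.1, M.mul_mem (hZM p.1.2) (hKM _ p.2.2.1.2)⟩ : M)) ?_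
  rintro ⟨⟨z, hz⟩, ⟨i, ⟨⟨g, hg⟩, hg1⟩⟩⟩ ⟨⟨z', hz'⟩, ⟨j, ⟨⟨g', hg'⟩, hg1'⟩⟩⟩ h
  have h2 : z * g = z' * g' := congrArg Subtype.val h
  have h3 : g = g' := by
    rw [← hpow z hz i g hg, h2, hpow z' hz' j g' hg']
  subst h3
  have h4 : z = z' := mul_right_cancel h2
  subst h4
  have h5 : i = j := by
    by_contra hij
    exact hg1 (Subtype.ext (hK i j hij g hg hg'))
  subst h5
  rfl

end family

variable {F : Type*} [Field F] [Fintype F] {q : ℕ} {e w f : Fin 3 → F}

/-- distinct isotropic points have trivially intersecting unipotent groups -/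
theorem Qe_inf (hF : Fintype.card F = q ^ 2) {M : Subgroup (SU 3 F q)} {u v : Fin 3 → F}
    (hu0 : u ≠ 0) (hv0 : v ≠ 0) (hu : hermForm 3 F q u u = 0) (hv : hermForm 3 F q v v = 0)
    (hne : mkPt u hu0 hu ≠ mkPt v hv0 hv) {g : SU 3 F q} (h1 : g ∈ Qe u M) (h2 : g ∈ Qe v M) :
    g = 1 := by
  obtain ⟨w, c, hc, B⟩ := exists_HB_pair hF hu0 hu hv (by
    intro c hc
    apply hne
    symm
    rw [mkPt_eq_iff]
    refine ⟨c, ?_, hc⟩
    rintro rfl
    rw [zero_smul] at hc
    exact hv0 hc)
  have h3 := PU.of_fix hF B h1.2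
  have h4 : act g (c • v) = c • v := by rw [act_smul, h2.2]
  have h5 : hermForm 3 F q (act g (c • v)) w = 0 := by rw [h4, B.fw]
  have h6 : hermForm 3 F q (act g (c • v)) (c • v) = 0 := by rw [h4, B.ff]
  rw [h5, h6] at h3
  exact PU.unique hF B h3 (PU.one hF)

/-- the exceptional case `q = 11` -/
theorem no_eleven (hF : Fintype.card F = 11 ^ 2) {M : Subgroup (SU 3 F 11)}
    (hZ : Subgroup.center (SU 3 F 11) ≤ M) (hM : Nat.card M = 439560)
    (hQ : ∀ e w f, HB 11 e w f → Nat.card (Qe e M) = 11) : False := by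
  classical
  have hp37 : Nat.Prime 37 := by norm_num
  have := Fact.mk hp37
  obtain ⟨s, hs, h1, h2⟩ := sylow_odd hF (r := 37) (m := 11880) (by norm_num) (by norm_num)
    (by norm_num) (M := M) (by rw [hM]) (by norm_num)
  have hn : Nat.card (Sylow 37 M) = 3960 := by
    have hsd : s ∣ 11880 := ⟨_, by rw [← h1, mul_comm]⟩
    have hs0 : 0 < s := Nat.pos_of_dvd_of_pos hsd (by norm_num)
    have h3 : 11880 / s = Nat.card (Sylow 37 M) := by
      rw [← h1]; exact Nat.mul_div_cancel _ hs0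
    have hs8 : Nat.Coprime s 8 := by
      have : (8 : ℕ) = 2 ^ 3 := by norm_num
      rw [this]
      exact Nat.Coprime.pow_right 3 (Nat.coprime_two_right.2 hs)
    have hsd' : s ∣ 1485 := by
      have h4 : s ∣ 8 * 1485 := hsd
      exact hs8.dvd_of_dvd_mul_left h4
    have key : ∀ s ∈ Finset.range 1486, s % 2 = 1 → 1485 % s = 0 → (11880 / s) % 37 = 1 →
        11880 / s = 3960 := by decide +kernel
    rw [← h3]
    refine key s ?_ (Nat.odd_iff.1 hs) (Nat.mod_eq_zero_of_dvd hsd') (by rw [h3]; exact h2)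
    rw [Finset.mem_range]
    exact Nat.lt_succ_of_le (Nat.le_of_dvd (by norm_num) hsd')
  choose r hr0 hr hrx using (exists_mkPt : ∀ x : IsoPt F 11, _)
  have := Fintype.ofFinite (IsoPt F 11)
  have := Fintype.ofFinite (Sylow 37 M)
  let K : Sylow 37 M ⊕ IsoPt F 11 → Subgroup (SU 3 F 11) :=
    Sum.elim (fun P => (P : Subgroup M).map M.subtype) (fun x => Qe (r x) M)
  have hK1 : ∀ P : Sylow 37 M, Nat.card (K (Sum.inl P)) = 37 := by
    intro P
    show Nat.card ((P : Subgroup M).map M.subtype) = 37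
    rw [Subgroup.card_map_of_injective M.subtype_injective]
    have : Nat.card (P : Subgroup M) = 37 ^ (Nat.card M).factorization 37 := P.card_eq_multiplicity
    rw [this, hM]
    have h3 : (439560 : ℕ).factorization 37 = 1 := by
      have : (439560 : ℕ) = 37 * 11880 := by norm_num
      rw [this, Nat.factorization_mul (by norm_num) (by norm_num), Finsupp.add_apply,
        hp37.factorization_self, Nat.factorization_eq_zero_of_not_dvd (by norm_num)]
    rw [h3, pow_one]
  have hK2 : ∀ x : IsoPt F 11, Nat.card (K (Sum.inr x)) = 11 := by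
    intro x
    obtain ⟨w, f, B⟩ := exists_HB_of_iso hF (hr0 x) (hr x)
    exact hQ _ _ _ B
  have hKpow : ∀ i, ∀ g ∈ K i, g ^ 407 = 1 := by
    intro i g hg
    have h3 : (⟨g, hg⟩ : K i) ^ Nat.card (K i) = 1 := pow_card_eq_one'
    have h4 : g ^ Nat.card (K i) = 1 := congrArg Subtype.val h3
    rcases i with P | x
    · rw [hK1] at h4
      have : (407 : ℕ) = 37 * 11 := by norm_num
      rw [this, pow_mul, h4, one_pow]
    · rw [hK2] at h4
      have : (407 : ℕ) = 11 * 37 := by norm_num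
      rw [this, pow_mul, h4, one_pow]
  have hKp : ∀ i, ∀ g ∈ K i, g ^ Nat.card (K i) = 1 := by
    intro i g hg
    have h3 : (⟨g, hg⟩ : K i) ^ Nat.card (K i) = 1 := pow_card_eq_one'
    exact congrArg Subtype.val h3
  have hcop : ∀ g : SU 3 F 11, g ^ 37 = 1 → g ^ 11 = 1 → g = 1 := by
    intro g h3 h4
    have h5 : orderOf g ∣ Nat.gcd 37 11 := Nat.dvd_gcd (orderOf_dvd_of_pow_eq_one h3)
      (orderOf_dvd_of_pow_eq_one h4)
    have h6 : Nat.gcd 37 11 = 1 := by norm_num
    rw [h6] at h5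
    exact orderOf_eq_one_iff.1 (Nat.dvd_one.1 h5)
  have hdis : ∀ i j, i ≠ j → ∀ g, g ∈ K i → g ∈ K j → g = 1 := by
    intro i j hij g hgi hgj
    rcases i with P | x <;> rcases j with P' | y
    · by_contra hg1
      apply hij
      have h3 : K (Sum.inl P) = K (Sum.inl P') := by
        have hz : Subgroup.zpowers g ≤ K (Sum.inl P) := by
          rw [Subgroup.zpowers_le]; exact hgi
        have hz' : Subgroup.zpowers g ≤ K (Sum.inl P') := by
          rw [Subgroup.zpowers_le]; exact hgj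
        have ho : Nat.card (Subgroup.zpowers g) = 37 := by
          rw [Nat.card_zpowers]
          have h4 := hKp _ _ hgi
          rw [hK1] at h4
          exact orderOf_eq_prime h4 hg1
        rw [← Subgroup.eq_of_le_of_card_ge hz (by rw [ho, hK1]),
          ← Subgroup.eq_of_le_of_card_ge hz' (by rw [ho, hK1])]
      have h4 : (P : Subgroup M) = P' := Subgroup.map_injective M.subtype_injective h3
      rw [Sylow.ext h4]
    · have h3 := hKp _ _ hgi
      have h4 := hKp _ _ hgj
      rw [hK1] at h3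
      rw [hK2] at h4
      exact hcop g h3 h4
    · have h3 := hKp _ _ hgi
      have h4 := hKp _ _ hgj
      rw [hK2] at h3
      rw [hK1] at h4
      exact hcop g h4 h3
    · have hxy : x ≠ y := fun h => hij (by rw [h])
      exact Qe_inf hF (hr0 x) (hr0 y) (hr x) (hr y) (by rw [← hrx x, ← hrx y]; exact hxy) hgi hgj
  have hcZ : Nat.card (Subgroup.center (SU 3 F 11)) = 3 := by
    rw [card_center_SU hF (by norm_num)]; norm_num
  have hle := count_family (Subgroup.center (SU 3 F 11)) M le_rfl hZ K (by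
      rintro (P | x)
      · exact Subgroup.map_subtype_le _
      · exact fun g hg => hg.1) hdis 407 hKpow (by
      intro z hz
      have h3 : (⟨z, hz⟩ : Subgroup.center (SU 3 F 11)) ^
        Nat.card (Subgroup.center (SU 3 F 11)) = 1 := pow_card_eq_one'
      have h4 : z ^ Nat.card (Subgroup.center (SU 3 F 11)) = 1 := congrArg Subtype.val h3
      rw [hcZ] at h4
      have : (407 + 1 : ℕ) = 3 * 136 := by norm_num
      rw [this, pow_mul, h4, one_pow])
  rw [hcZ, hM, Fintype.sum_sum_type] at hle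
  simp only [hK1, hK2, Finset.sum_const, Finset.card_univ] at hle
  rw [← Nat.card_eq_fintype_card, ← Nat.card_eq_fintype_card, hn, card_IsoPt hF] at hle
  norm_num at hle

/-- the lower bound, `q ≠ 5` -/
theorem main_lower (hF : Fintype.card F = q ^ 2) (hq : 3 ≤ q) (h5 : q ≠ 5)
    {M : Subgroup (SU 3 F q)} (hZ : Subgroup.center (SU 3 F q) ≤ M) (hne : M ≠ ⊤) :
    q ^ 3 + 1 ≤ M.index := by
  by_contra hcon
  push Not at hcon
  have hidx : M.index ≤ q ^ 3 := by omega
  rcases Nat.even_or_odd q with heven | hodd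
  · exact main_even hF hq heven hidx hne
  · obtain ⟨rfl, h1, h2⟩ := main_odd hF hq hodd hidx hne h5
    exact no_eleven hF hZ h1 h2

/-- the stabilizer of a point has index `q³ + 1` -/
theorem exists_index (hF : Fintype.card F = q ^ 2) : ∃ M : Subgroup (SU 3 F q),
    Subgroup.center (SU 3 F q) ≤ M ∧ M.index = q ^ 3 + 1 := by
  obtain ⟨e, w, f, B⟩ := exists_HB_any (F := F) (q := q) hF
  have htop : MulAction.orbit (SU 3 F q) (mkPt e B.e_ne B.ee) = Set.univ := by
    rw [Set.eq_univ_iff_forall]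
    intro y
    obtain ⟨g, hg⟩ := trans_all hF (mkPt e B.e_ne B.ee) y
    exact ⟨g, hg⟩
  refine ⟨MulAction.stabilizer (SU 3 F q) (mkPt e B.e_ne B.ee), ?_, ?_⟩
  · intro z hz
    obtain ⟨c, hc0, hc⟩ := Cfsg.Agent.AutPSU.center_act hF (by norm_num) hz
    rw [mem_stab_iff B]
    exact ⟨c, hc0, hc e⟩
  · rw [MulAction.index_stabilizer, htop, Set.ncard_univ, card_IsoPt hF]

theorem PSU_lower (hF : Fintype.card F = q ^ 2) (hq : 3 ≤ q) (h5 : q ≠ 5)
    (H : Subgroup (PSU 3 F q)) (hH : H ≠ ⊤) : q ^ 3 + 1 ≤ H.index := by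
  have hsurj : Function.Surjective (QuotientGroup.mk' (Subgroup.center (SU 3 F q))) :=
    QuotientGroup.mk'_surjective _
  have h1 := main_lower hF hq h5 (M := H.comap (QuotientGroup.mk' (Subgroup.center (SU 3 F q))))
    (by
      intro z hz
      rw [Subgroup.mem_comap]
      have : QuotientGroup.mk' (Subgroup.center (SU 3 F q)) z = 1 :=
        (QuotientGroup.eq_one_iff z).2 hz
      rw [this]
      exact H.one_mem)
    (by
      intro h
      apply hH
      rw [eq_top_iff]
      intro x _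
      obtain ⟨y, rfl⟩ := hsurj x
      have : y ∈ H.comap (QuotientGroup.mk' (Subgroup.center (SU 3 F q))) := by
        rw [h]; trivial
      exact this)
  rwa [Subgroup.index_comap_of_surjective _ hsurj] at h1

theorem PSU_exists (hF : Fintype.card F = q ^ 2) :
    ∃ H : Subgroup (PSU 3 F q), H.index = q ^ 3 + 1 := by
  obtain ⟨M, hZ, hM⟩ := exists_index (F := F) (q := q) hF
  have hsurj : Function.Surjective (QuotientGroup.mk' (Subgroup.center (SU 3 F q))) :=
    QuotientGroup.mk'_surjective _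
  refine ⟨M.map (QuotientGroup.mk' (Subgroup.center (SU 3 F q))), ?_⟩
  rw [Subgroup.index_map_eq _ hsurj (by rw [QuotientGroup.ker_mk']; exact hZ), hM]

end Cfsg.Agent.H48.U3
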