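import Cfsg.Agent.H48.U3Q
import Cfsg.Agent.UCase.F25
import Cfsg.Agent.GK.Carm

/-!
# `A₇` in `PSU₃(5)` and the minimal index of `PSU₃(5)`
-/

set_option autoImplicit false
set_option linter.unusedSectionVars false

namespace Cfsg.Agent.H48.U3

open Finset Matrix Cfsg.Agent.Uni Cfsg.Agent.UCase

variable {F : Type*} [Field F] [Fintype F]

/-- the lower bound for `q = 5` -/
theorem lower_five (hF : Fintype.card F = 5 ^ 2) {M : Subgroup (SU 3 F 5)} (hne : M ≠ ⊤) :
    50 ≤ M.index := by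
  by_contra hcon
  push Not at hcon
  have hidx : M.index ≤ 5 ^ 3 := by omega
  obtain ⟨e, w, f, B⟩ := exists_HB_any (F := F) (q := 5) hF
  have hM := trans_of_index hF hidx
  have h := index_mul hF B hM
  have hN : Nat.card (Az hF e w f M) * Nat.card (Vx hF e w f M) * Nat.card (La e M) ≤ 60 := by
    rcases classify hF (by norm_num) B hidx hne with ⟨h1, h2, h3⟩ | ⟨h1, -, h2, h3, h4⟩ | ⟨h1, -⟩ |
      ⟨h1, h2, h3, h4⟩
    · rw [h1, h2, h3, AddSubgroup.card_bot]; norm_num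
    · rw [h1, h2, AddSubgroup.card_bot]
      omega
    · omega
    · omega
  have h1 : M.index * (Nat.card (Az hF e w f M) * Nat.card (Vx hF e w f M) * Nat.card (La e M)) ≤
      49 * 60 := Nat.mul_le_mul (by omega) hN
  rw [h] at h1
  norm_num at h1

namespace A7

/-- model matrices -/
abbrev Mo := Fin 3 → Fin 3 → ℕ

def mmul (A B : Mo) : Mo := fun i j =>
  F25.ad (F25.ad (F25.ml (A i 0) (B 0 j)) (F25.ml (A i 1) (B 1 j))) (F25.ml (A i 2) (B 2 j))

def sca (c : ℕ) : Mo := fun i j => if i = j then c else 0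

def trn (A : Mo) : Mo := fun i j => A j i

def cjm (A : Mo) : Mo := fun i j => F25.cj (A i j)

def dt (A : Mo) : ℕ :=
  let m := fun x y z => F25.ml (F25.ml x y) z
  F25.ad (F25.ad (F25.ad (F25.ad (F25.ad (m (A 0 0) (A 1 1) (A 2 2))
    (F25.ml 4 (m (A 0 0) (A 1 2) (A 2 1)))) (F25.ml 4 (m (A 0 1) (A 1 0) (A 2 2))))
    (m (A 0 1) (A 1 2) (A 2 0))) (m (A 0 2) (A 1 0) (A 2 1)))
    (F25.ml 4 (m (A 0 2) (A 1 1) (A 2 0)))

def X : Fin 5 → Mo := ![![![11, 17, 15], ![13, 15, 14], ![22, 5, 4]],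
  ![![0, 2, 15], ![22, 14, 18], ![9, 24, 16]], ![![3, 9, 20], ![5, 11, 0], ![24, 3, 16]],
  ![![4, 17, 2], ![2, 13, 4], ![12, 3, 18]], ![![16, 7, 18], ![10, 4, 19], ![12, 20, 10]]]

theorem X_uni : ∀ i : Fin 5, mmul (trn (X i)) (cjm (X i)) = sca 1 := by decide +kernel

theorem X_det : ∀ i : Fin 5, dt (X i) = 1 := by decide +kernel

theorem X_cube : ∀ i : Fin 5, mmul (X i) (mmul (X i) (X i)) = sca 1 := by decide +kernel

theorem X_sq : ∀ i j : Fin 5, i ≠ j → (mmul (mmul (X i) (X j)) (mmul (X i) (X j)) = sca 1 ∨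
    mmul (mmul (X i) (X j)) (mmul (X i) (X j)) = sca 12 ∨
    mmul (mmul (X i) (X j)) (mmul (X i) (X j)) = sca 17) := by decide +kernel

/-- the matrix over `F` -/
def Psi (θ : F) (A : Mo) : Matrix (Fin 3) (Fin 3) F := Matrix.of fun i j => F25.psi θ (A i j)

variable {θ : F} (h5 : (5 : F) = 0) (hθ : θ * θ = 2)

theorem Psi_sca (c : ℕ) : Psi θ (sca c) = Matrix.diagonal fun _ => F25.psi θ c := by
  ext i j
  unfold Psi sca
  rw [Matrix.of_apply, Matrix.diagonal_apply]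
  split_ifs
  · rfl
  · exact F25.psi_zero θ

theorem Psi_one : Psi θ (sca 1) = 1 := by
  rw [Psi_sca, F25.psi_one]
  exact Matrix.diagonal_one

include h5 hθ

theorem Psi_mul (A B : Mo) : Psi θ (mmul A B) = Psi θ A * Psi θ B := by
  ext i j
  rw [Matrix.mul_apply, Fin.sum_univ_three]
  unfold Psi mmul
  simp only [Matrix.of_apply]
  rw [F25.psi_ad h5, F25.psi_ad h5, F25.psi_ml h5 hθ, F25.psi_ml h5 hθ, F25.psi_ml h5 hθ]

theorem Psi_det (A : Mo) : (Psi θ A).det = F25.psi θ (dt A) := by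
  have h4 : F25.psi θ 4 = -1 := by
    have : F25.psi θ 4 = 4 := by simp [F25.psi]
    rw [this]
    linear_combination h5
  rw [Matrix.det_fin_three]
  unfold Psi dt
  simp only [Matrix.of_apply, F25.psi_ad h5, F25.psi_ml h5 hθ, h4]
  ring

/-- the matrices in `SL₃(25)` -/
noncomputable def SL (i : Fin 5) : Matrix.SpecialLinearGroup (Fin 3) F :=
  ⟨Psi θ (X i), by rw [Psi_det h5 hθ, X_det, F25.psi_one]⟩

/-- the elements of `SU₃(5)` -/
noncomputable def S (hF : Fintype.card F = 5 ^ 2) (i : Fin 5) : SU 3 F 5 :=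
  ⟨SL h5 hθ i, by
    rw [mem_SU, pres_iff_transpose_mul hF]
    have h1 : (Psi θ (X i))ᵀ = Psi θ (trn (X i)) := rfl
    have h2 : (Psi θ (X i)).map (conjHom hF) = Psi θ (cjm (X i)) := by
      ext a b
      rw [Matrix.map_apply, conjHom_apply]
      exact (F25.psi_cj h5 hθ hF _).symm
    show (Psi θ (X i))ᵀ * (Psi θ (X i)).map (conjHom hF) = 1
    rw [h1, h2, ← Psi_mul h5 hθ, X_uni, Psi_one]⟩

theorem S_val (hF : Fintype.card F = 5 ^ 2) (i : Fin 5) :
    ((S h5 hθ hF i : Matrix.SpecialLinearGroup (Fin 3) F) : Matrix (Fin 3) (Fin 3) F) =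
      Psi θ (X i) := rfl

theorem S_cube (hF : Fintype.card F = 5 ^ 2) (i : Fin 5) : S h5 hθ hF i ^ 3 = 1 := by
  apply Subtype.ext
  apply Subtype.ext
  have h1 : (S h5 hθ hF i) ^ 3 = S h5 hθ hF i * (S h5 hθ hF i * S h5 hθ hF i) := by
    rw [pow_succ', sq]
  rw [h1]
  show Psi θ (X i) * (Psi θ (X i) * Psi θ (X i)) = 1
  rw [← Psi_mul h5 hθ, ← Psi_mul h5 hθ, X_cube, Psi_one]

theorem S_sq (hF : Fintype.card F = 5 ^ 2) (i j : Fin 5) (hij : i ≠ j) :
    (S h5 hθ hF i * S h5 hθ hF j) ^ 2 ∈ Subgroup.center (SU 3 F 5) := by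
  rw [mem_center_SU_iff hF (by norm_num)]
  rw [sq]
  show ∃ c, Psi θ (X i) * Psi θ (X j) * (Psi θ (X i) * Psi θ (X j)) = Matrix.diagonal fun _ => c
  rw [← Psi_mul h5 hθ, ← Psi_mul h5 hθ]
  rcases X_sq i j hij with h | h | h <;> rw [h, Psi_sca] <;> exact ⟨_, rfl⟩

theorem S_ne (hF : Fintype.card F = 5 ^ 2) : S h5 hθ hF 0 ∉ Subgroup.center (SU 3 F 5) := by
  rw [mem_center_SU_iff hF (by norm_num)]
  rintro ⟨c, hc⟩
  rw [S_val] at hc
  have h1 := congrFun (congrFun hc 0) 1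
  rw [Matrix.diagonal_apply_ne _ (by decide)] at h1
  have h2 : F25.psi θ 17 = 0 := h1
  have h3 := F25.psi_eq_zero h5 hθ (by norm_num) h2
  norm_num at h3

omit h5 hθ

theorem exists_A7 (hF : Fintype.card F = 5 ^ 2) :
    ∃ φ : alternatingGroup (Option (Option (Fin 5))) →* PSU 3 F 5, Function.Injective φ := by
  have h5 := F25.five_eq_zero hF
  obtain ⟨θ, hθ⟩ := F25.exists_theta hF
  let π : SU 3 F 5 →* PSU 3 F 5 := QuotientGroup.mk' (Subgroup.center (SU 3 F 5))
  have hπ : ∀ g, π g = 1 ↔ g ∈ Subgroup.center (SU 3 F 5) := fun g =>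
    QuotientGroup.eq_one_iff g
  obtain ⟨φ, hφ⟩ := GK.exists_hom (Λ := Fin 5) (fun i => π (S h5 hθ hF i))
    (fun i => by rw [← map_pow, S_cube, map_one])
    (fun i j hij => by
      rw [← map_mul, ← map_pow, hπ]
      exact S_sq h5 hθ hF i j hij)
  refine ⟨φ, ?_⟩
  have hs : IsSimpleGroup (alternatingGroup (Option (Option (Fin 5)))) :=
    alternatingGroup.isSimpleGroup (by simp)
  rcases hs.eq_bot_or_eq_top_of_normal φ.ker inferInstance with h | h
  · exact (MonoidHom.ker_eq_bot_iff φ).1 h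
  · exfalso
    have h1 : GK.XA (0 : Fin 5) ∈ φ.ker := by rw [h]; trivial
    rw [MonoidHom.mem_ker, hφ, hπ] at h1
    exact S_ne h5 hθ hF h1

theorem card_A7 : Nat.card (alternatingGroup (Option (Option (Fin 5)))) = 2520 := by
  rw [nat_card_alternatingGroup]
  have : Nat.card (Option (Option (Fin 5))) = 7 := by simp
  rw [this]
  rfl

theorem card_PSU5 (hF : Fintype.card F = 5 ^ 2) : Nat.card (PSU 3 F 5) = 126000 := by
  have h1 := card_G (F := F) (q := 5) hF
  have h2 := (Subgroup.center (SU 3 F 5)).card_eq_card_quotient_mul_card_subgroup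
  rw [h1, card_center_SU hF (by norm_num)] at h2
  have h3 : Nat.gcd 3 (5 + 1) = 3 := by norm_num
  rw [h3] at h2
  show Nat.card (SU 3 F 5 ⧸ Subgroup.center (SU 3 F 5)) = 126000
  omega

theorem exists_fifty (hF : Fintype.card F = 5 ^ 2) : ∃ H : Subgroup (PSU 3 F 5), H.index = 50 := by
  obtain ⟨φ, hφ⟩ := exists_A7 hF
  refine ⟨φ.range, ?_⟩
  have h1 : Nat.card φ.range = 2520 := by
    rw [← card_A7]
    exact (Nat.card_congr (MonoidHom.ofInjective hφ).toEquiv).symm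
  have h2 := φ.range.card_mul_index
  rw [h1, card_PSU5 hF] at h2
  omega

end A7

theorem PSU_lower_five (hF : Fintype.card F = 5 ^ 2) (H : Subgroup (PSU 3 F 5)) (hH : H ≠ ⊤) :
    50 ≤ H.index := by
  have hsurj : Function.Surjective (QuotientGroup.mk' (Subgroup.center (SU 3 F 5))) :=
    QuotientGroup.mk'_surjective _
  have h1 := lower_five hF (M := H.comap (QuotientGroup.mk' (Subgroup.center (SU 3 F 5))))
    (by
      intro h
      apply hH
      rw [eq_top_iff]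
      intro x _
      obtain ⟨y, rfl⟩ := hsurj x
      have : y ∈ H.comap (QuotientGroup.mk' (Subgroup.center (SU 3 F 5))) := by
        rw [h]; trivial
      exact this)
  rwa [Subgroup.index_comap_of_surjective _ hsurj] at h1

end Cfsg.Agent.H48.U3
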