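import Cfsg.Agent.Char.CentralChar
import Cfsg.Prelude.Def_Blocks

set_option autoImplicit false

/-! Winter's theorem: fully ramified over the centre. -/

namespace Cfsg.Agent.H48.Wi

theorem sq {C : Type*} [Group C] [Finite C] {ψ : C → ℂ} (hψ : Cfsg.IsIrrCharacter C ψ)
    (hab : ∀ a b : C, a * b * a⁻¹ * b⁻¹ ∈ Subgroup.center C)
    (hf : ∀ z ∈ Subgroup.center C, ψ z = ψ 1 → z = 1) :
    (Cfsg.charDegree ψ) ^ 2 = (Subgroup.center C).index := by
  classical
  letI := Fintype.ofFinite C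
  have h1 : ψ 1 ^ 2 = ((Subgroup.center C).index : ℂ) := by
    apply Cfsg.Agent.Char.CC.sq_degree_of_vanish hψ
    intro x hx
    obtain ⟨y, hy⟩ : ∃ y : C, y * x ≠ x * y := by
      by_contra hcon
      push Not at hcon
      exact hx (Subgroup.mem_center_iff.2 hcon)
    have hz : y * x * y⁻¹ * x⁻¹ ∈ Subgroup.center C := hab y x
    have hz1 : y * x * y⁻¹ * x⁻¹ ≠ 1 := by
      intro h
      apply hy
      calc y * x = (y * x * y⁻¹ * x⁻¹) * (x * y) := by group
        _ = x * y := by rw [h, one_mul]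
    refine Cfsg.Agent.Char.CC.eq_zero_of_conj_mul hψ hz (fun h => hz1 (hf _ hz h)) ?_
    rw [isConj_iff]
    exact ⟨y, by group⟩
  obtain ⟨n, hn⟩ := Cfsg.Agent.CharBase.exists_nat_degree (Cfsg.Agent.CharBase.isCharacter_of_isIrr hψ)
  have h2 : Cfsg.charDegree ψ = n := by
    unfold Cfsg.charDegree
    rw [hn]; simp
  rw [h2]
  rw [hn] at h1
  exact_mod_cast h1

end Cfsg.Agent.H48.Wi
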